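import Cfsg.Agent.CSixNine.Weyl
import Cfsg.Agent.DecompMax.LinearBasic

/-!
Overgroups of the weight normaliser in dimension nine: basic objects and the spreading lemma for
elements `1 + E ⊗ A`.
-/

set_option autoImplicit false
set_option linter.unusedSectionVars false

namespace Cfsg.Agent.CSixNine

open Matrix
open scoped MatrixGroups Matrix Kronecker

abbrev I9 : Type := K3 × K3

variable {F : Type*} [Field F]

section InLemmas

variable {ι : Type} [Fintype ι] [DecidableEq ι] {G : Subgroup (GL ι F)}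

/-- The matrix belongs to `G`. -/
def InG (G : Subgroup (GL ι F)) (M : Matrix ι ι F) : Prop := ∃ g ∈ G, (g : Matrix ι ι F) = M

lemma InG.one : InG G 1 := ⟨1, one_mem G, rfl⟩

lemma InG.mul {A B : Matrix ι ι F} (hA : InG G A) (hB : InG G B) : InG G (A * B) := by
  obtain ⟨a, ha, rfl⟩ := hA
  obtain ⟨b, hb, rfl⟩ := hB
  exact ⟨a * b, mul_mem ha hb, rfl⟩

lemma InG.pow {A : Matrix ι ι F} (hA : InG G A) (n : ℕ) : InG G (A ^ n) := by
  obtain ⟨a, ha, rfl⟩ := hA
  exact ⟨a ^ n, pow_mem ha n, by simp⟩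

lemma InG.isUnit {A : Matrix ι ι F} (hA : InG G A) : IsUnit A := by
  obtain ⟨a, -, rfl⟩ := hA
  exact a.isUnit

lemma InG.of_mul_eq_one {A B : Matrix ι ι F} (hA : InG G A) (h : A * B = 1) : InG G B := by
  obtain ⟨a, ha, rfl⟩ := hA
  refine ⟨a⁻¹, inv_mem ha, ?_⟩
  calc ((a⁻¹ : GL ι F) : Matrix ι ι F) = ((a⁻¹ : GL ι F) : Matrix ι ι F) * ((a : Matrix ι ι F) * B) := by
        rw [h, Matrix.mul_one]
    _ = B := by rw [← Matrix.mul_assoc, a.inv_mul, Matrix.one_mul]

lemma InG.exists_inv {A : Matrix ι ι F} (hA : InG G A) :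
    ∃ B, InG G B ∧ A * B = 1 ∧ B * A = 1 := by
  obtain ⟨a, ha, rfl⟩ := hA
  exact ⟨_, ⟨a⁻¹, inv_mem ha, rfl⟩, a.mul_inv, a.inv_mul⟩

/-- Conjugation without writing inverses. -/
lemma InG.conj {W A A' : Matrix ι ι F} (hW : InG G W) (hA : InG G A) (h : W * A = A' * W) :
    InG G A' := by
  obtain ⟨V, hV, h1, -⟩ := hW.exists_inv
  have : A' = W * A * V := by rw [h, Matrix.mul_assoc, h1, Matrix.mul_one]
  rw [this]
  exact (hW.mul hA).mul hV

lemma InG.cancel_left {W A : Matrix ι ι F} (hW : InG G W) (hWA : InG G (W * A)) : InG G A := by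
  obtain ⟨V, hV, -, h2⟩ := hW.exists_inv
  have := hV.mul hWA
  rwa [← Matrix.mul_assoc, h2, Matrix.one_mul] at this

lemma InG.cancel_right {W A : Matrix ι ι F} (hW : InG G W) (hAW : InG G (A * W)) : InG G A := by
  obtain ⟨V, hV, h1, -⟩ := hW.exists_inv
  have := hAW.mul hV
  rwa [Matrix.mul_assoc, h1, Matrix.mul_one] at this

end InLemmas

/-- Exchange of the two tensor factors. -/
def sw (A : Matrix I9 I9 F) : Matrix I9 I9 F := A.submatrix Prod.swap Prod.swap

/-- The factor swap as a permutation matrix. -/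
def swM : Matrix I9 I9 F := Matrix.of fun p q => if p = q.swap then 1 else 0

/-- Block diagonal matrices along the first coordinate. -/
def blk (g : K3 → Matrix K3 K3 F) : Matrix I9 I9 F :=
  Matrix.of fun p q => if p.1 = q.1 then g p.1 p.2 q.2 else 0

lemma sw_kronecker (A B : Matrix K3 K3 F) : sw (A ⊗ₖ B) = B ⊗ₖ A := by
  ext p q
  simp [sw, mul_comm]

lemma sw_add (A B : Matrix I9 I9 F) : sw (A + B) = sw A + sw B := rfl

lemma sw_one : sw (1 : Matrix I9 I9 F) = 1 :=
  Matrix.submatrix_one _ Prod.swap_injective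

lemma sw_mul (A B : Matrix I9 I9 F) : sw (A * B) = sw A * sw B :=
  (Matrix.submatrix_mul A B _ Prod.swap _ Prod.swap_bijective)

lemma sw_sw (A : Matrix I9 I9 F) : sw (sw A) = A := by ext p q; simp [sw]

lemma swM_mul (A : Matrix I9 I9 F) : swM * A = sw A * swM := by
  ext p q
  rw [Matrix.mul_apply, Matrix.mul_apply, Finset.sum_eq_single p.swap, Finset.sum_eq_single q.swap]
  · simp [swM, sw]
  · intro b _ hb; simp [swM, hb]
  · simp
  · intro b _ hb
    have : p ≠ b.swap := fun h => hb (by rw [h, Prod.swap_swap])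
    simp [swM, this]
  · simp

lemma blk_mul (g h : K3 → Matrix K3 K3 F) : blk g * blk h = blk (fun i => g i * h i) := by
  ext ⟨i, j⟩ ⟨k, l⟩
  rw [Matrix.mul_apply, Fintype.sum_prod_type, Finset.sum_eq_single i]
  · by_cases hik : i = k
    · subst hik; simp [blk, Matrix.mul_apply]
    · simp [blk, hik]
  · intro b _ hb; simp [blk, Ne.symm hb]
  · simp

lemma blk_smul (c : F) (g : K3 → Matrix K3 K3 F) : c • blk g = blk fun i => c • g i := by
  ext p q
  by_cases h : p.1 = q.1 <;> simp [blk, h]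

lemma blk_const (A : Matrix K3 K3 F) : blk (fun _ => A) = (1 : Matrix K3 K3 F) ⊗ₖ A := by
  ext p q
  by_cases h : p.1 = q.1 <;> simp [blk, h, Matrix.one_apply]

lemma blk_one : blk (fun _ : K3 => (1 : Matrix K3 K3 F)) = 1 := by
  rw [blk_const, Matrix.one_kronecker_one]

lemma blk_scalar (d : K3 → F) :
    blk (fun i => d i • (1 : Matrix K3 K3 F)) = Matrix.diagonal d ⊗ₖ (1 : Matrix K3 K3 F) := by
  ext p q
  by_cases h : p.1 = q.1 <;> simp [blk, h]

lemma blk_apply_block (g : K3 → Matrix K3 K3 F) (i : K3) (j l : K3) :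
    blk g (i, j) (i, l) = g i j l := by simp [blk]

lemma blk_inj {g h : K3 → Matrix K3 K3 F} (e : blk g = blk h) : g = h := by
  funext i; ext j l
  rw [← blk_apply_block g, ← blk_apply_block h, e]

lemma kron_mul (A B C D : Matrix K3 K3 F) : (A ⊗ₖ B) * (C ⊗ₖ D) = (A * C) ⊗ₖ (B * D) :=
  (Matrix.mul_kronecker_mul A C B D).symm

lemma shift_blk (ω : F) (t : K3) (g : K3 → Matrix K3 K3 F) :
    (P3 ω (0, t) ⊗ₖ (1 : Matrix K3 K3 F)) * blk g =
      blk (fun i => g (i - t)) * (P3 ω (0, t) ⊗ₖ (1 : Matrix K3 K3 F)) := by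
  ext ⟨i, j⟩ ⟨k, l⟩
  rw [Matrix.mul_apply, Matrix.mul_apply, Finset.sum_eq_single (i - t, j),
    Finset.sum_eq_single (k + t, l)]
  · simp [blk, P3_apply]
    by_cases h : i = k + t
    · simp [h]
    · simp [h, sub_eq_iff_eq_add]
  · rintro ⟨a, b⟩ _ hb
    simp only [Ne, Prod.mk.injEq, not_and] at hb
    by_cases h : a = k + t
    · simp [Matrix.one_apply, hb h]
    · simp [P3_apply, h]
  · simp
  · rintro ⟨a, b⟩ _ hb
    simp only [Ne, Prod.mk.injEq, not_and] at hb
    by_cases h : i = a + t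
    · simp [Matrix.one_apply, Ne.symm (hb (by rw [h]; ring))]
    · simp [P3_apply, h]
  · simp

lemma val_smul_basis : ∀ v : K3 × K3,
    v.1.val • ((1 : K3), (0 : K3)) + v.2.val • ((0 : K3), (1 : K3)) = v := by decide

/-- The standing hypotheses on the overgroup. -/
structure Gen (ω : F) (G : Subgroup (GL I9 F)) : Prop where
  om : Omega ω
  nat : ∀ c : F, ∃ n : ℕ, (n : F) = c
  two : (2 : F) ≠ 0
  scal : ∀ c : F, c ≠ 0 → InG G (c • 1)
  lX : InG G (P3 ω (1, 0) ⊗ₖ (1 : Matrix K3 K3 F))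
  lY : InG G (P3 ω (0, 1) ⊗ₖ (1 : Matrix K3 K3 F))
  lT : InG G (tauM ω ⊗ₖ (1 : Matrix K3 K3 F))
  lF : InG G (fourM ω ⊗ₖ (1 : Matrix K3 K3 F))
  swp : InG G swM
  cx : InG G (blk fun i => P3 ω (i, 0))

/-- `G` does not contain the special linear group. -/
def NoSL (G : Subgroup (GL I9 F)) : Prop := ¬ Cfsg.Geo.specialLinear I9 F ≤ G

variable {ω : F} {G : Subgroup (GL I9 F)}

namespace Gen

lemma smul (hG : Gen ω G) {c : F} (hc : c ≠ 0) {A : Matrix I9 I9 F} (hA : InG G A) :
    InG G (c • A) := by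
  simpa using (hG.scal c hc).mul hA

lemma sw_mem (hG : Gen ω G) {A : Matrix I9 I9 F} (hA : InG G A) : InG G (sw A) :=
  hG.swp.conj hA (swM_mul A)

lemma lft_P (hG : Gen ω G) (v : K3 × K3) : InG G (P3 ω v ⊗ₖ (1 : Matrix K3 K3 F)) := by
  have hpow : ∀ (w : K3 × K3), InG G (P3 ω w ⊗ₖ (1 : Matrix K3 K3 F)) → ∀ n : ℕ,
      InG G (P3 ω (n • w) ⊗ₖ (1 : Matrix K3 K3 F)) := by
    intro w hw n
    induction n with
    | zero => simpa [Matrix.one_kronecker_one] using (InG.one : InG G 1)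
    | succ n ih =>
      have := hG.smul (inv_ne_zero (hG.om.wp_ne_zero (-(w.1 * (n • w).2)))) (ih.mul hw)
      rwa [kron_mul, Matrix.one_mul, P3_mul hG.om, Matrix.smul_kronecker, smul_smul,
        inv_mul_cancel₀ (hG.om.wp_ne_zero _), one_smul, ← succ_nsmul] at this
  have := hG.smul (inv_ne_zero (hG.om.wp_ne_zero (-((v.2.val • ((0 : K3), (1 : K3))).1 *
      (v.1.val • ((1 : K3), (0 : K3))).2))))
    ((hpow _ hG.lX v.1.val).mul (hpow _ hG.lY v.2.val))
  rwa [kron_mul, Matrix.one_mul, P3_mul hG.om, Matrix.smul_kronecker, smul_smul,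
    inv_mul_cancel₀ (hG.om.wp_ne_zero _), one_smul,
    val_smul_basis v] at this

/-- Every weight normalising matrix acts on each factor inside `G`. -/
lemma lft_nrm (hG : Gen ω G) {g : Matrix K3 K3 F} (hg : IsUnit g) (h : Nrm3 ω g) :
    InG G (g ⊗ₖ (1 : Matrix K3 K3 F)) := by
  obtain ⟨s, a, b, c, d, e, rfl⟩ := nrm3_word hG.om hg h
  have hs : s ≠ 0 := by
    rintro rfl
    rw [zero_smul] at hg
    exact hg.ne_zero rfl
  have hp : ∀ (A : Matrix K3 K3 F), InG G (A ⊗ₖ (1 : Matrix K3 K3 F)) → ∀ n : ℕ,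
      InG G ((A ^ n) ⊗ₖ (1 : Matrix K3 K3 F)) := by
    intro A hA n
    induction n with
    | zero => simpa [Matrix.one_kronecker_one] using (InG.one : InG G 1)
    | succ n ih =>
      rw [pow_succ, show (A ^ n * A) ⊗ₖ (1 : Matrix K3 K3 F) =
        ((A ^ n) ⊗ₖ (1 : Matrix K3 K3 F)) * (A ⊗ₖ (1 : Matrix K3 K3 F)) by
          rw [kron_mul, Matrix.one_mul]]
      exact ih.mul hA
  rw [Matrix.smul_kronecker]
  refine hG.smul hs ?_
  have := ((((hp _ hG.lT a).mul (hp _ hG.lF b)).mul (hp _ hG.lT c)).mul (hp _ hG.lF d)).mul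
    (hG.lft_P e)
  simpa only [kron_mul, Matrix.one_mul] using this

lemma rep_mem (hG : Gen ω G) {g : Matrix K3 K3 F} (h : InG G (g ⊗ₖ (1 : Matrix K3 K3 F))) :
    InG G ((1 : Matrix K3 K3 F) ⊗ₖ g) := by
  have := hG.sw_mem h
  rwa [sw_kronecker] at this

lemma rep_P (hG : Gen ω G) (v : K3 × K3) : InG G ((1 : Matrix K3 K3 F) ⊗ₖ P3 ω v) :=
  hG.rep_mem (hG.lft_P v)

end Gen

section Spread

variable (hG : Gen ω G)

/-- The matrices `A` with `1 + E_{ab} ⊗ A` in `G`. -/
def Sp (G : Subgroup (GL I9 F)) (a b : K3) (A : Matrix K3 K3 F) : Prop :=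
  InG G (1 + Matrix.single a b (1 : F) ⊗ₖ A)

lemma Sp.zero {a b : K3} : Sp G a b 0 := by
  rw [Sp, Matrix.kronecker_zero, add_zero]; exact InG.one

lemma Sp.add {a b : K3} (hab : a ≠ b) {A B : Matrix K3 K3 F} (hA : Sp G a b A) (hB : Sp G a b B) :
    Sp G a b (A + B) := by
  have := hA.mul hB
  rwa [add_mul, one_mul, mul_add, mul_one, kron_mul, Matrix.single_mul_single_of_ne _ _ _ _ hab.symm,
    Matrix.zero_kronecker, add_zero, add_assoc, ← Matrix.kronecker_add, add_comm B A] at this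

include hG in
lemma Sp.smul {a b : K3} (hab : a ≠ b) {A : Matrix K3 K3 F} (hA : Sp G a b A) (c : F) :
    Sp G a b (c • A) := by
  obtain ⟨n, rfl⟩ := hG.nat c
  induction n with
  | zero => simpa using Sp.zero
  | succ n ih =>
    rw [Nat.cast_succ, add_smul, one_smul]
    exact ih.add hab hA

include hG in
lemma Sp.sum {a b : K3} (hab : a ≠ b) {α : Type*} (s : Finset α) (f : α → Matrix K3 K3 F)
    (h : ∀ x ∈ s, Sp G a b (f x)) : Sp G a b (∑ x ∈ s, f x) := by
  classical
  induction s using Finset.induction with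
  | empty => simpa using Sp.zero
  | insert x s hx ih =>
    rw [Finset.sum_insert hx]
    exact (h x (Finset.mem_insert_self x s)).add hab
      (ih fun y hy => h y (Finset.mem_insert_of_mem hy))

lemma Sp.conj {a b : K3} {A B W : Matrix K3 K3 F} (hA : Sp G a b A)
    (hW : InG G ((1 : Matrix K3 K3 F) ⊗ₖ W)) (h : W * A = B * W) : Sp G a b B :=
  hW.conj hA (by rw [mul_add, add_mul, mul_one, one_mul, kron_mul, kron_mul, h,
    Matrix.mul_one, Matrix.one_mul])

/-- Conjugation of `A` by a weight operator. -/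
def Cj (ω : F) (u : K3 × K3) (A : Matrix K3 K3 F) : Matrix K3 K3 F :=
  Matrix.of fun i k => wp ω (u.1 * (i - k)) * A (i - u.2) (k - u.2)

lemma Cj_mul (hω : Omega ω) (u : K3 × K3) (A : Matrix K3 K3 F) :
    P3 ω u * A = Cj ω u A * P3 ω u := by
  ext i k
  rw [P3_mul_apply, mul_P3_apply]
  simp only [Cj, Matrix.of_apply, add_sub_cancel_right]
  have e : wp ω (u.1 * i) = wp ω (u.1 * (i - (k + u.2))) * wp ω (u.1 * (k + u.2)) := by
    rw [← hω.wp_add]; congr 1; ring
  rw [e]; ring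

include hG in
lemma Sp.Cj_mem {a b : K3} {A : Matrix K3 K3 F} (hA : Sp G a b A) (u : K3 × K3) :
    Sp G a b (Cj ω u A) :=
  hA.conj (hG.rep_P u) (Cj_mul hG.om u A)

lemma sum_three (f : K3 → F) : ∑ x, f x = f 0 + f 1 + f 2 := by
  rw [show (Finset.univ : Finset K3) = {0, 1, 2} from by decide,
    Finset.sum_insert (by decide), Finset.sum_insert (by decide), Finset.sum_singleton, add_assoc]

lemma sum_wp (hω : Omega ω) (d : K3) : ∑ x : K3, wp ω (x * d) = if d = 0 then 3 else 0 := by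
  rw [sum_three]
  have h2 : wp ω 2 = ω ^ 2 := rfl
  have h4 : (2 : K3) * 2 = 1 := by decide
  obtain rfl | rfl | rfl : d = 0 ∨ d = 1 ∨ d = 2 := by revert d; decide
  · simp; norm_num
  · simp [wp_one, h2, show (1 : K3) ≠ 0 from by decide]; linear_combination hω.eqn
  · simp [wp_one, h2, h4, show (2 : K3) ≠ 0 from by decide]; linear_combination hω.eqn

/-- Coefficient of `A` at a weight, up to a factor three. -/
def coef (ω : F) (A : Matrix K3 K3 F) (w : K3 × K3) : F :=
  ∑ m : K3, wp ω (-(w.1 * m)) * A m (m - w.2)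

lemma project (hω : Omega ω) (A : Matrix K3 K3 F) (w : K3 × K3) :
    ∑ u : K3 × K3, wp ω (w.1 * u.2 - w.2 * u.1) • Cj ω u A = (3 * coef ω A w) • P3 ω w := by
  ext i k
  rw [Matrix.sum_apply, Matrix.smul_apply, P3_apply, Fintype.sum_prod_type, Finset.sum_comm]
  simp only [Matrix.smul_apply, Cj, Matrix.of_apply, smul_eq_mul]
  have step : ∀ u2 : K3,
      ∑ u1 : K3, wp ω (w.1 * u2 - w.2 * u1) * (wp ω (u1 * (i - k)) * A (i - u2) (k - u2)) =
        wp ω (w.1 * u2) * A (i - u2) (k - u2) * (if i - k - w.2 = 0 then 3 else 0) := by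
    intro u2
    rw [← sum_wp hω, Finset.mul_sum]
    refine Finset.sum_congr rfl fun u1 _ => ?_
    rw [show w.1 * u2 - w.2 * u1 = w.1 * u2 + -(w.2 * u1) from sub_eq_add_neg _ _, hω.wp_add,
      show u1 * (i - k - w.2) = -(w.2 * u1) + u1 * (i - k) from by ring, hω.wp_add]
    ring
  simp only [step]
  by_cases h : i = k + w.2
  · subst h
    have hz : k + w.2 - k - w.2 = 0 := by ring
    rw [if_pos rfl, coef, Finset.mul_sum, Finset.sum_mul]
    simp only [hz, if_true]
    refine Fintype.sum_equiv (Equiv.subLeft (k + w.2)) _ _ fun u => ?_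
    simp only [Equiv.subLeft_apply]
    have e : wp ω (w.1 * u) = wp ω (-(w.1 * (k + w.2 - u))) * wp ω (w.1 * (k + w.2)) := by
      rw [← hω.wp_add]; congr 1; ring
    rw [e, show k + w.2 - u - w.2 = k - u from by ring]
    ring
  · rw [if_neg (fun hh => h (by linear_combination hh)), if_neg h]
    simp

lemma coef_inversion (hω : Omega ω) (A : Matrix K3 K3 F) (b m : K3) :
    ∑ e : K3, wp ω (e * m) * coef ω A (e, b) = 3 * A m (m - b) := by
  simp only [coef, Finset.mul_sum]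
  rw [Finset.sum_comm, Finset.sum_eq_single m]
  · simp only [← mul_assoc, ← hω.wp_add, add_neg_cancel, wp_zero, one_mul]
    simp
  · intro m' _ hm'
    simp only [← mul_assoc, ← hω.wp_add, ← Finset.sum_mul]
    have : ∀ e : K3, e * m + -(e * m') = e * (m - m') := fun e => by ring
    simp only [this, sum_wp hω, if_neg (sub_ne_zero.2 (Ne.symm hm')), zero_mul]
  · simp

lemma exists_coef (hω : Omega ω) {A : Matrix K3 K3 F} (hA : ∀ c : F, A ≠ c • 1) :
    ∃ w : K3 × K3, w ≠ 0 ∧ coef ω A w ≠ 0 := by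
  by_contra hcon
  push Not at hcon
  refine hA (coef ω A 0 * (3 : F)⁻¹) ?_
  ext i k
  have h := coef_inversion hω A (i - k) i
  rw [show i - (i - k) = k from by ring] at h
  have h' : A i k = (3 : F)⁻¹ * ∑ e : K3, wp ω (e * i) * coef ω A (e, i - k) := by
    rw [h, ← mul_assoc, inv_mul_cancel₀ hω.three, one_mul]
  rw [h', Finset.sum_eq_single 0]
  · by_cases hik : i = k
    · subst hik
      rw [zero_mul, wp_zero, one_mul, sub_self, Matrix.smul_apply, Matrix.one_apply_eq,
        smul_eq_mul, mul_one, mul_comm]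
      rfl
    · rw [hcon (0, i - k) (fun h0 => hik (sub_eq_zero.1 (congrArg Prod.snd h0))),
        Matrix.smul_apply, Matrix.one_apply_ne hik]
      simp
  · intro e _ he
    rw [hcon (e, i - k) (fun h0 => he (congrArg Prod.fst h0)), mul_zero]
  · simp

lemma word_transitive : ∀ w v : K3 × K3, w ≠ 0 → v ≠ 0 → ∃ a : Fin 3, ∃ b : Fin 4, ∃ c : Fin 3,
    (Tt^[a.val] ∘ Tf^[b.val] ∘ Tt^[c.val]) w = v := by
  decide +kernel

lemma Sp.map_pow {a b : K3} {W : Matrix K3 K3 F} {T : K3 × K3 → K3 × K3}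
    (hW : InG G ((1 : Matrix K3 K3 F) ⊗ₖ W)) (hI : Induces ω W T) (hab : a ≠ b)
    (hG : Gen ω G) (n : ℕ) {v : K3 × K3}
    (h : Sp G a b (P3 ω v)) : Sp G a b (P3 ω (T^[n] v)) := by
  induction n with
  | zero => simpa using h
  | succ n ih =>
    rw [Function.iterate_succ_apply']
    obtain ⟨c, hc, e⟩ := hI (T^[n] v)
    have h' := ih.conj hW (B := c • P3 ω (T (T^[n] v))) (by rw [e, Matrix.smul_mul])
    have := Sp.smul hG hab h' c⁻¹
    rwa [smul_smul, inv_mul_cancel₀ hc, one_smul] at this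

include hG in
lemma Sp.offdiag {a b : K3} (hab : a ≠ b) {A : Matrix K3 K3 F} (hA : Sp G a b A)
    (hns : ∀ c : F, A ≠ c • 1) {i k : K3} (hik : i ≠ k) :
    Sp G a b (Matrix.single i k 1) := by
  obtain ⟨w, hw, hc⟩ := exists_coef hG.om hns
  have h0 : Sp G a b (P3 ω w) := by
    have := Sp.sum hG hab Finset.univ (fun u : K3 × K3 => wp ω (w.1 * u.2 - w.2 * u.1) • Cj ω u A)
      (fun u _ => Sp.smul hG hab (Sp.Cj_mem hG hA u) _)
    rw [project hG.om] at this
    have := Sp.smul hG hab this (3 * coef ω A w)⁻¹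
    rwa [smul_smul, inv_mul_cancel₀ (mul_ne_zero hG.om.three hc), one_smul] at this
  have hall : ∀ v, v ≠ 0 → Sp G a b (P3 ω v) := by
    intro v hv
    obtain ⟨x, y, z, rfl⟩ := word_transitive w v hw hv
    have hT := hG.rep_mem hG.lT
    have hF := hG.rep_mem hG.lF
    exact Sp.map_pow hT (tau_P3 hG.om) hab hG _ (Sp.map_pow hF (four_P3 hG.om) hab hG _
      (Sp.map_pow hT (tau_P3 hG.om) hab hG _ h0))
  have := Sp.smul hG hab (Sp.sum hG hab Finset.univ
    (fun e : K3 => wp ω (-(e * i)) • P3 ω (e, i - k))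
    (fun e _ => Sp.smul hG hab (hall _ (fun h => hik (sub_eq_zero.1 (congrArg Prod.snd h)))) _))
    (3 : F)⁻¹
  convert this using 1
  ext p q
  rw [Matrix.smul_apply, Matrix.sum_apply]
  simp only [Matrix.smul_apply, P3_apply, smul_eq_mul]
  by_cases h : p = q + (i - k)
  · simp only [if_pos h, ← hG.om.wp_add]
    have : ∀ e : K3, -(e * i) + e * p = e * (p - i) := fun e => by ring
    simp only [this, sum_wp hG.om]
    by_cases hp : p = i
    · subst hp
      have hq : q = k := by linear_combination (-1 : K3) * h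
      subst hq
      simp [inv_mul_cancel₀ hG.om.three]
    · simp [if_neg (sub_ne_zero.2 hp), Ne.symm hp]
  · simp only [if_neg h, mul_zero, Finset.sum_const_zero]
    refine Matrix.single_apply_of_ne _ _ _ _ _ ?_
    rintro ⟨rfl, rfl⟩
    exact h (by ring)

/-- Positions of elementary transvections in `G`. -/
def El (G : Subgroup (GL I9 F)) (p q : I9) : Prop :=
  p ≠ q ∧ ∀ c : F, InG G (1 + Matrix.single p q c)

lemma El.comp {p r q : I9} (hpr : El G p r) (hrq : El G r q) (hpq : p ≠ q) : El G p q := by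
  refine ⟨hpq, fun c => ?_⟩
  have := (((hpr.2 c).mul (hrq.2 1)).mul (hpr.2 (-c))).mul (hrq.2 (-1))
  have e : (1 + Matrix.single p r c) * (1 + Matrix.single r q 1) * (1 + Matrix.single p r (-c)) *
      (1 + Matrix.single r q (-1)) = 1 + Matrix.single p q c := by
    have n1 : ∀ s : F, Matrix.single p r s = s • Matrix.single p r 1 := fun s => by simp
    have n2 : ∀ s : F, Matrix.single r q s = s • Matrix.single r q 1 := fun s => by simp
    have n3 : Matrix.single p q c = c • Matrix.single p q (1 : F) := by simp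
    rw [n1 c, n1 (-c), n2 (-1), n3]
    simp only [add_mul, mul_add, one_mul, mul_one, smul_mul_assoc, mul_smul_comm,
      Matrix.single_mul_single_same, Matrix.single_mul_single_of_ne _ _ _ _ hpr.1.symm,
      Matrix.single_mul_single_of_ne _ _ _ _ hrq.1.symm,
      Matrix.single_mul_single_of_ne _ _ _ _ hpq.symm,
      smul_zero, add_zero, zero_add, one_mul, mul_zero, zero_mul, neg_smul, neg_mul, mul_neg,
      mul_one, smul_smul, one_smul]
    abel
  rwa [e] at this

include hG in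
lemma el_of_perm {σ : I9 ≃ I9} {W : Matrix I9 I9 F} (hW : InG G W)
    (hWσ : ∀ p q : I9, ∀ c : F, W * Matrix.single p q c = Matrix.single (σ p) (σ q) c * W)
    {p q : I9} (h : El G p q) : El G (σ p) (σ q) :=
  ⟨fun e => h.1 (σ.injective e), fun c =>
    hW.conj (h.2 c) (by rw [mul_add, add_mul, mul_one, one_mul, hWσ])⟩

lemma perm_conj {σ : I9 ≃ I9} {k : F} {W : Matrix I9 I9 F}
    (hW : ∀ p q, W p q = if p = σ q then k else 0) (p q : I9) (c : F) :
    W * Matrix.single p q c = Matrix.single (σ p) (σ q) c * W := by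
  ext x y
  rw [Matrix.mul_apply, Matrix.mul_apply, Finset.sum_eq_single p, Finset.sum_eq_single (σ q)]
  · simp only [hW, Matrix.single, Matrix.of_apply, true_and, and_true, σ.injective.eq_iff]
    by_cases h1 : x = σ p <;> by_cases h2 : q = y <;> simp [h1, h2, eq_comm, mul_comm]
  · intro b _ hb; simp [Ne.symm hb]
  · simp
  · intro b _ hb; simp [Ne.symm hb]
  · simp

include hG in
lemma el_translate {p q : I9} (h : El G p q) (t : I9) : El G (p + t) (q + t) := by
  have hW : InG G (P3 ω (0, t.1) ⊗ₖ P3 ω (0, t.2)) := by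
    have := (hG.lft_P (0, t.1)).mul (hG.rep_P (0, t.2))
    rwa [kron_mul, Matrix.one_mul, Matrix.mul_one] at this
  refine el_of_perm hG (σ := Equiv.addRight t) hW (perm_conj (k := 1) ?_) h
  intro x y
  simp only [Matrix.kroneckerMap_apply, P3_apply, zero_mul, wp_zero, Equiv.coe_addRight,
    Prod.ext_iff, Prod.fst_add, Prod.snd_add]
  by_cases h1 : x.1 = y.1 + t.1 <;> by_cases h2 : x.2 = y.2 + t.2 <;> simp [h1, h2]

lemma four_sq (hω : Omega ω) :
    fourM ω * fourM ω = Matrix.of fun i k : K3 => if i + k = 0 then (3 : F) else 0 := by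
  ext i k; exact four_sq_apply hω i k

include hG in
lemma el_negFst {p q : I9} (h : El G p q) : El G (-p.1, p.2) (-q.1, q.2) := by
  have hW : InG G ((fourM ω * fourM ω) ⊗ₖ (1 : Matrix K3 K3 F)) := by
    have := hG.lF.mul hG.lF
    rwa [kron_mul, Matrix.one_mul] at this
  refine el_of_perm hG (σ := (Equiv.neg K3).prodCongr (Equiv.refl K3)) hW (perm_conj (k := 3) ?_) h
  intro x y
  simp only [Matrix.kroneckerMap_apply, four_sq hG.om, Matrix.of_apply, Matrix.one_apply,
    Equiv.prodCongr_apply, Prod.map, Equiv.neg_apply, Equiv.refl_apply, Prod.ext_iff]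
  have : x.1 + y.1 = 0 ↔ x.1 = -y.1 := eq_neg_iff_add_eq_zero.symm
  by_cases h1 : x.1 = -y.1 <;> by_cases h2 : x.2 = y.2 <;> simp [h1, h2, this]

/-- A single element `1 + E_{ab} ⊗ A` with `A` non-scalar gives the special linear group. -/
theorem spread (hG : Gen ω G) {a b : K3} (hab : a ≠ b) {A : Matrix K3 K3 F} (hA : Sp G a b A)
    (hns : ∀ c : F, A ≠ c • 1) : Cfsg.Geo.specialLinear I9 F ≤ G := by
  have hel : ∀ i k : K3, i ≠ k → El G (a, i) (b, k) := by
    intro i k hik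
    refine ⟨fun e => hab (congrArg Prod.fst e), fun c => ?_⟩
    have := Sp.smul hG hab (Sp.offdiag hG hab hA hns hik) c
    rwa [Sp, Matrix.smul_single, Matrix.single_kronecker_single, smul_eq_mul, mul_one,
      one_mul] at this
  have hfull : ∀ p q : I9, q.1 - p.1 ≠ 0 → q.2 - p.2 ≠ 0 → El G p q := by
    intro p q h1 h2
    have hd : q.1 - p.1 = b - a ∨ q.1 - p.1 = -(b - a) := by
      have hh : ∀ x y : K3, x ≠ 0 → y ≠ 0 → x = y ∨ x = -y := by decide
      exact hh _ _ h1 (sub_ne_zero.2 (Ne.symm hab))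
    have hne : p.2 ≠ q.2 := fun e => h2 (sub_eq_zero.2 e.symm)
    rcases hd with hd | hd
    · have := el_translate hG (hel p.2 q.2 hne) (p.1 - a, 0)
      convert this using 2 <;> ext <;> simp
      linear_combination hd
    · have := el_translate hG (el_negFst hG (hel p.2 q.2 hne)) (p.1 + a, 0)
      convert this using 2 <;> ext <;> simp
      linear_combination hd
  have hall : ∀ p q : I9, p ≠ q → El G p q := by
    intro p q hpq
    by_cases h : q.1 - p.1 ≠ 0 ∧ q.2 - p.2 ≠ 0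
    · exact hfull p q h.1 h.2
    obtain ⟨r, h1, h2, h3, h4⟩ : ∃ r : I9, r.1 - p.1 ≠ 0 ∧ r.2 - p.2 ≠ 0 ∧ q.1 - r.1 ≠ 0 ∧
        q.2 - r.2 ≠ 0 := by
      clear * -
      have hh : ∀ x y : K3, ∃ z : K3, z - x ≠ 0 ∧ y - z ≠ 0 := by decide
      obtain ⟨z, hz1, hz2⟩ := hh p.1 q.1
      obtain ⟨z', hz3, hz4⟩ := hh p.2 q.2
      exact ⟨(z, z'), hz1, hz3, hz2, hz4⟩
    exact (hfull p r h1 h2).comp (hfull r q h3 h4) hpq
  refine DecompMax.Lin.specialLinear_le_of_elementary fun i j hij c => ?_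
  obtain ⟨g, hg, e⟩ := (hall i j hij).2 c
  refine ⟨g, hg, ?_⟩
  rw [e]
  congr 1
  ext x y
  simp only [Matrix.vecMulVec_apply, Matrix.single, Matrix.of_apply, Pi.smul_apply, smul_eq_mul,
    Cfsg.Agent.MaxSub.SubfieldMax.ev, Pi.single_apply]
  by_cases h1 : i = x <;> by_cases h2 : j = y <;> simp [h1, h2, eq_comm]

/-- The mirrored version of `spread`. -/
theorem spread' (hG : Gen ω G) {a b : K3} (hab : a ≠ b) {A : Matrix K3 K3 F}
    (hA : InG G (1 + A ⊗ₖ Matrix.single a b (1 : F)))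
    (hns : ∀ c : F, A ≠ c • 1) : Cfsg.Geo.specialLinear I9 F ≤ G := by
  refine spread hG hab ?_ hns
  have := hG.sw_mem hA
  rwa [sw_add, sw_one, sw_kronecker] at this

end Spread

end Cfsg.Agent.CSixNine
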