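import Cfsg.Agent.CSixNine.Norm

/-!
Block diagonal elements of an overgroup, using the three dimensional dichotomy.
-/

set_option autoImplicit false
set_option linter.unusedSectionVars false

namespace Cfsg.Agent.CSixNine

open Matrix
open scoped MatrixGroups Matrix Kronecker

variable {F : Type*} [Field F] {ω : F}

/-- The three dimensional dichotomy. -/
def Dicho (ω : F) : Prop :=
  ∀ H : Subgroup (GL K3 F), (∀ c : F, c ≠ 0 → InG H (c • 1)) → InG H (P3 ω (1, 0)) →
    InG H (P3 ω (0, 1)) → InG H (tauM ω) → InG H (fourM ω) →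
    (∀ M, InG H M → Nrm3 ω M) ∨ (∀ M, Matrix.det M = 1 → InG H M)

variable {G : Subgroup (GL I9 F)}

lemma blocks_inv {g : K3 → Matrix K3 K3 F} {B : Matrix I9 I9 F} (h : blk g * B = 1)
    (h' : B * blk g = 1) : ∃ g' : K3 → Matrix K3 K3 F, B = blk g' ∧ ∀ i, g i * g' i = 1 := by
  refine ⟨fun i => Matrix.of fun j l => B (i, j) (i, l), ?_, ?_⟩
  swap
  · intro i; ext j l
    have := congrFun (congrFun h (i, j)) (i, l)
    rw [Matrix.mul_apply, Fintype.sum_prod_type, Finset.sum_eq_single i] at this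
    · simpa [blk, Matrix.mul_apply, Matrix.one_apply] using this
    · intro b _ hb; simp [blk, Ne.symm hb]
    · simp
  · set g' : K3 → Matrix K3 K3 F := fun i => Matrix.of fun j l => B (i, j) (i, l)
    have hg : blk g * blk g' = 1 := by
      rw [blk_mul, ← blk_one]; congr 1; funext i; ext j l
      have := congrFun (congrFun h (i, j)) (i, l)
      rw [Matrix.mul_apply, Fintype.sum_prod_type, Finset.sum_eq_single i] at this
      · simpa [g', blk, Matrix.mul_apply, Matrix.one_apply] using this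
      · intro b _ hb; simp [blk, Ne.symm hb]
      · simp
    calc B = B * (blk g * blk g') := by rw [hg, Matrix.mul_one]
      _ = blk g' := by rw [← Matrix.mul_assoc, h', Matrix.one_mul]

/-- The group induced on one block. -/
def comp (G : Subgroup (GL I9 F)) (i : K3) : Subgroup (GL K3 F) where
  carrier := {a | ∃ g : K3 → Matrix K3 K3 F, InG G (blk g) ∧ g i = a}
  one_mem' := ⟨fun _ => 1, by rw [blk_one]; exact InG.one, rfl⟩
  mul_mem' := by
    rintro a b ⟨g, hg, ea⟩ ⟨h, hh, eb⟩
    refine ⟨fun k => g k * h k, by rw [← blk_mul]; exact hg.mul hh, ?_⟩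
    show g i * h i = _
    rw [ea, eb]; rfl
  inv_mem' := by
    rintro a ⟨g, hg, ea⟩
    obtain ⟨B, hB, h1, h2⟩ := hg.exists_inv
    obtain ⟨g', rfl, hg'⟩ := blocks_inv h1 h2
    refine ⟨g', hB, ?_⟩
    calc g' i = ((a⁻¹ : GL K3 F) : Matrix K3 K3 F) * (g i * g' i) := by
          rw [← Matrix.mul_assoc, ea, a.inv_mul, Matrix.one_mul]
      _ = _ := by rw [hg' i, Matrix.mul_one]

lemma isUnit_block {g : K3 → Matrix K3 K3 F} (hg : InG G (blk g)) (i : K3) : IsUnit (g i) := by
  obtain ⟨B, -, h1, h2⟩ := hg.exists_inv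
  obtain ⟨g', rfl, hg'⟩ := blocks_inv h1 h2
  exact IsUnit.of_mul_eq_one (g' i) (hg' i)

lemma mem_comp {g : K3 → Matrix K3 K3 F} (hg : InG G (blk g)) (i : K3) :
    InG (comp G i) (g i) :=
  ⟨(isUnit_block hg i).unit, ⟨g, hg, (IsUnit.unit_spec _).symm⟩, IsUnit.unit_spec _⟩

lemma exists_of_comp {M : Matrix K3 K3 F} {i : K3} (h : InG (comp G i) M) :
    ∃ g : K3 → Matrix K3 K3 F, InG G (blk g) ∧ g i = M := by
  obtain ⟨a, ⟨g, hg, ea⟩, rfl⟩ := h
  exact ⟨g, hg, ea⟩

namespace Gen

variable (hG : Gen ω G)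
include hG

lemma translate {g : K3 → Matrix K3 K3 F} (hg : InG G (blk g)) (t : K3) :
    InG G (blk fun i => g (i - t)) :=
  (hG.lft_P (0, t)).conj hg (shift_blk ω t g)

lemma rep_blk {A : Matrix K3 K3 F} (hA : InG G (A ⊗ₖ (1 : Matrix K3 K3 F))) :
    InG G (blk fun _ => A) := by
  rw [blk_const]; exact hG.rep_mem hA

lemma comp_gen (i : K3) :
    (∀ c : F, c ≠ 0 → InG (comp G i) (c • 1)) ∧ InG (comp G i) (P3 ω (1, 0)) ∧
      InG (comp G i) (P3 ω (0, 1)) ∧ InG (comp G i) (tauM ω) ∧ InG (comp G i) (fourM ω) := by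
  have k : ∀ A : Matrix K3 K3 F, InG G (A ⊗ₖ (1 : Matrix K3 K3 F)) → InG (comp G i) A :=
    fun A hA => mem_comp (hG.rep_blk hA) i
  refine ⟨fun c hc => ?_, k _ hG.lX, k _ hG.lY, k _ hG.lT, k _ hG.lF⟩
  refine mem_comp (g := fun _ => c • 1) ?_ i
  rw [← blk_smul, blk_one]
  exact hG.scal c hc

end Gen

lemma inv_one_add_single {a b : K3} (hab : a ≠ b) (c : F) :
    (1 + Matrix.single a b c) * (1 + Matrix.single a b (-c)) = (1 : Matrix K3 K3 F) := by
  rw [add_mul, one_mul, mul_add, mul_one, Matrix.single_mul_single_of_ne _ _ _ _ hab.symm, add_zero,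
    add_assoc, ← Matrix.single_add, neg_add_cancel, Matrix.single_zero, add_zero]

lemma P3_conj_single (hω : Omega ω) (a i k : K3) (c : F) :
    P3 ω (a, 0) * (1 + Matrix.single i k c) =
      (1 + Matrix.single i k (wp ω (a * (i - k)) * c)) * P3 ω (a, 0) := by
  rw [mul_add, add_mul, mul_one, one_mul]
  congr 1
  ext p q
  rw [P3_mul_apply, mul_P3_apply]
  simp only [sub_zero, add_zero]
  by_cases h : i = p ∧ k = q
  · obtain ⟨rfl, rfl⟩ := h
    simp only [Matrix.single_apply_same]
    rw [show a * i = a * (i - k) + a * k from by ring, hω.wp_add]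
    ring
  · simp [Matrix.single_apply_of_ne _ _ _ _ _ h]

/-- The action on each block normalises the weight lines. -/
theorem good (hG : Gen ω G) (hD : Dicho ω) (hns : NoSL G) {g : K3 → Matrix K3 K3 F}
    (hg : InG G (blk g)) (i : K3) : Nrm3 ω (g i) := by
  by_contra hcon
  have hg2 : ¬ Nrm3 ω ((fun k => g (k - (2 - i))) 2) := by
    simpa [show (2 : K3) - (2 - i) = i from by ring] using hcon
  obtain ⟨h1, h2, h3, h4, h5⟩ := hG.comp_gen 2
  rcases hD _ h1 h2 h3 h4 h5 with h | h
  · exact hg2 (h _ (mem_comp (hG.translate hg _) 2))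
  obtain ⟨l, hl, hl2⟩ := exists_of_comp (h (1 + Matrix.single 0 1 1) (by
    have e : (1 : Matrix K3 K3 F) + Matrix.single 0 1 1 = Matrix.transvection 0 1 1 := rfl
    rw [e, Matrix.det_transvection_of_ne 0 1 (by decide)]))
  -- first commutator, with the mixing element
  have hu : InG G (blk fun j => P3 ω (j, 0)) := hG.cx
  have hl' : InG G (blk fun j => Cj ω (j, 0) (l j)) :=
    hu.conj hl (by
      rw [blk_mul, blk_mul]; congr 1; funext j
      exact Cj_mul hG.om _ _)
  obtain ⟨B, hB, hb1, hb2⟩ := hl.exists_inv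
  obtain ⟨l₁, rfl, hl₁⟩ := blocks_inv hb1 hb2
  set k : K3 → Matrix K3 K3 F := fun j => Cj ω (j, 0) (l j) * l₁ j with hkdef
  have hk : InG G (blk k) := by rw [hkdef, ← blk_mul]; exact hl'.mul hB
  have hk0 : k 0 = 1 := by
    have : Cj ω ((0 : K3), (0 : K3)) (l 0) = l 0 := by ext p q; simp [Cj]
    simp only [hkdef, this]; exact hl₁ 0
  have hω1 : wp ω ((2 : K3) * (0 - 1)) = ω := by
    rw [show (2 : K3) * (0 - 1) = 1 from by decide, wp_one]
  have hk2 : k 2 = 1 + Matrix.single 0 1 (ω - 1) := by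
    have e1 : Cj ω ((2 : K3), (0 : K3)) (l 2) = 1 + Matrix.single 0 1 ω := by
      have e := P3_conj_single hG.om 2 0 1 (1 : F)
      rw [hω1, mul_one, ← hl2, Cj_mul hG.om] at e
      exact (isUnit_P3 hG.om _).mul_left_inj.1 e
    have e2 : l₁ 2 = 1 + Matrix.single 0 1 (-1 : F) := by
      have := hl₁ 2
      rw [hl2] at this
      have hu2 : IsUnit (1 + Matrix.single 0 1 (1 : F) : Matrix K3 K3 F) :=
        IsUnit.of_mul_eq_one _ (inv_one_add_single (by decide) 1)
      exact hu2.mul_right_inj.1 (this.trans (inv_one_add_single (by decide) 1).symm)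
    simp only [hkdef, e1, e2]
    rw [add_mul, one_mul, mul_add, mul_one, Matrix.single_mul_single_of_ne _ _ _ _ (by decide),
      add_zero, add_assoc, ← Matrix.single_add]
    ring_nf
  -- second commutator
  have hu' : InG G (blk fun j => P3 ω (j - 1, 0)) := hG.translate hu 1
  have hk' : InG G (blk fun j => Cj ω (j - 1, 0) (k j)) :=
    hu'.conj hk (by
      rw [blk_mul, blk_mul]; congr 1; funext j
      exact Cj_mul hG.om _ _)
  obtain ⟨B', hB', hb1', hb2'⟩ := hk.exists_inv
  obtain ⟨k₁, rfl, hk₁⟩ := blocks_inv hb1' hb2'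
  have hm := hk'.mul hB'
  rw [blk_mul] at hm
  set γ : F := (wp ω ((1 : K3) * (0 - 1)) - 1) * (ω - 1) with hγ
  have hblk : (fun j => Cj ω (j - 1, 0) (k j) * k₁ j) =
      fun j => if j = 2 then 1 + Matrix.single 0 1 γ else 1 := by
    funext j
    obtain rfl | rfl | rfl : j = 0 ∨ j = 1 ∨ j = 2 := by revert j; decide
    · rw [if_neg (by decide)]
      have e : Cj ω ((0 : K3) - 1, (0 : K3)) (k 0) = k 0 := by
        rw [hk0]; ext p q
        by_cases hpq : p = q <;> simp [Cj, Matrix.one_apply, hpq]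
      rw [e]; exact hk₁ 0
    · rw [if_neg (by decide)]
      have e : Cj ω ((1 : K3) - 1, (0 : K3)) (k 1) = k 1 := by ext p q; simp [Cj]
      rw [e]; exact hk₁ 1
    · rw [if_pos rfl]
      have e1 : Cj ω ((2 : K3) - 1, (0 : K3)) (k 2) =
          1 + Matrix.single 0 1 (wp ω ((1 : K3) * (0 - 1)) * (ω - 1)) := by
        have e := P3_conj_single hG.om 1 0 1 (ω - 1)
        rw [show (2 : K3) - 1 = 1 from by decide]
        rw [← hk2, Cj_mul hG.om] at e
        exact (isUnit_P3 hG.om _).mul_left_inj.1 e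
      have e2 : k₁ 2 = 1 + Matrix.single 0 1 (-(ω - 1)) := by
        have := hk₁ 2
        rw [hk2] at this
        have hu2 : IsUnit (1 + Matrix.single 0 1 (ω - 1) : Matrix K3 K3 F) :=
          IsUnit.of_mul_eq_one _ (inv_one_add_single (by decide) _)
        exact hu2.mul_right_inj.1 (this.trans (inv_one_add_single (by decide) _).symm)
      rw [e1, e2, add_mul, one_mul, mul_add, mul_one,
        Matrix.single_mul_single_of_ne _ _ _ _ (by decide), add_zero, add_assoc, ← Matrix.single_add,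
        hγ]
      ring_nf
  rw [hblk] at hm
  have hγ0 : γ ≠ 0 := by
    refine mul_ne_zero (sub_ne_zero.2 ?_) (sub_ne_zero.2 hG.om.ne_one)
    rw [← wp_zero (ω := ω)]
    exact fun e => absurd (hG.om.wp_inj e) (by decide)
  refine hns (spread' hG (a := 0) (b := 1) (by decide) (A := γ • Matrix.single 2 2 1) ?_ ?_)
  · convert hm using 1
    ext ⟨p, q⟩ ⟨r, s⟩
    by_cases hpr : p = r
    · subst hpr
      by_cases hp : p = 2
      · subst hp
        simp [blk, Matrix.one_apply, Matrix.single]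
      · simp [blk, Matrix.one_apply, hp, Ne.symm hp]
    · simp [blk, Matrix.one_apply, Matrix.single, hpr]
      intro _ _ h1 h2; exact absurd (h1.symm.trans h2) hpr
  · intro c hc
    have e2 := congrFun (congrFun hc 2) 2
    have e0 := congrFun (congrFun hc 0) 0
    simp [show (2 : K3) ≠ 0 from by decide] at e2 e0
    exact hγ0 (e2.trans e0.symm)

end Cfsg.Agent.CSixNine
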