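import Cfsg.Agent.CSixNine.CentKer

/-!
The centraliser of `1 ⊗ π` in an overgroup normalises the weight lines.
-/

set_option autoImplicit false
set_option linter.unusedSectionVars false

namespace Cfsg.Agent.CSixNine

open Matrix
open scoped MatrixGroups Matrix Kronecker

variable {F : Type*} [Field F] {ω : F} {G : Subgroup (GL I9 F)}

lemma cube_rel {M : Type*} [Monoid M] {g W c : M} (hrel : g * W = c * W * g) (hcW : Commute c W)
    (hcg : Commute c g) (hW : W ^ 3 = 1) (hu : IsUnit g) : g ^ 3 * W = W * g ^ 3 := by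
  have h1 : ∀ n : ℕ, g * W ^ n = (c * W) ^ n * g := by
    intro n
    induction n with
    | zero => simp
    | succ n ih =>
      rw [pow_succ, ← mul_assoc, ih, mul_assoc, hrel, ← mul_assoc, ← mul_assoc, pow_succ,
        ← mul_assoc]
  have h2 : ∀ n : ℕ, g ^ n * W = c ^ n * W * g ^ n := by
    intro n
    induction n with
    | zero => simp
    | succ n ih =>
      rw [pow_succ', mul_assoc, ih, ← mul_assoc, ← mul_assoc, ← (hcg.pow_left n).eq, mul_assoc (c ^ n) g,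
        hrel, ← mul_assoc, ← mul_assoc, ← pow_succ, mul_assoc (c ^ (n + 1) * W) g, pow_succ']
  have h3 : c ^ 3 = 1 := by
    have e := h1 3
    rw [hcW.mul_pow, hW, mul_one, mul_one] at e
    exact hu.mul_left_inj.1 (e.symm.trans (one_mul g).symm)
  rw [h2 3, h3, one_mul]

set_option maxHeartbeats 1000000 in
/-- Elements of the overgroup commuting with `1 ⊗ π` normalise the weight lines. -/
theorem centJ [Finite F] (hG : Gen ω G) (hD : Dicho ω) (hns : NoSL G) {A : Matrix I9 I9 F}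
    (hA : InG G A) (hp : Cp A) : Nrm9 ω A := by
  have hω := hG.om
  obtain ⟨hKN, z₀, hz₀, ez, hconj⟩ := ker_structure hG hD hns
  let I : Subgroup (GL K3 F) :=
    { carrier := {a | ∃ B, InG G B ∧ Cp B ∧ fM B = a}
      one_mem' := ⟨1, InG.one, (Ck.one (ω := ω)).1, by rw [fM_one]; rfl⟩
      mul_mem' := by
        rintro a b ⟨B, hB, hBp, ea⟩ ⟨C, hC, hCp, eb⟩
        exact ⟨B * C, hB.mul hC, hBp.mul hCp, by rw [fM_mul hBp hCp, ea, eb]; rfl⟩
      inv_mem' := by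
        rintro a ⟨B, hB, hBp, ea⟩
        obtain ⟨C, hC, h1, -⟩ := hB.exists_inv
        refine ⟨C, hC, hBp.inv h1, ?_⟩
        calc fM C = ((a⁻¹ : GL K3 F) : Matrix K3 K3 F) * (fM B * fM C) := by
              rw [← Matrix.mul_assoc, ea, a.inv_mul, Matrix.one_mul]
          _ = _ := by rw [← fM_mul hBp (hBp.inv h1), h1, fM_one, Matrix.mul_one] }
  have hI : ∀ {B : Matrix I9 I9 F}, InG G B → Cp B → InG I (fM B) := by
    intro B hB hBp
    obtain ⟨C, -, h1, -⟩ := hB.exists_inv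
    have hu : IsUnit (fM B) := IsUnit.of_mul_eq_one _
      ((fM_mul hBp (hBp.inv h1)).symm.trans (by rw [h1, fM_one]))
    exact ⟨hu.unit, ⟨B, hB, hBp, hu.unit_spec.symm⟩, hu.unit_spec⟩
  have hleft : ∀ {M : Matrix K3 K3 F}, InG G (M ⊗ₖ (1 : Matrix K3 K3 F)) → InG I M := by
    intro M hM
    simpa only [fM_left] using hI hM (Ck.left (ω := ω) M).1
  rcases hD I (fun c hc => hleft (by
      rw [Matrix.smul_kronecker, Matrix.one_kronecker_one]; exact hG.scal c hc))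
      (hleft hG.lX) (hleft hG.lY) (hleft hG.lT) (hleft hG.lF) with h | h
  · have hn := h _ (hI hA hp)
    obtain ⟨u, hu, eu⟩ := hI hA hp
    have huu : IsUnit (fM A) := eu ▸ u.isUnit
    have hW := hG.lft_nrm huu hn
    obtain ⟨V, hV, h1, h2⟩ := hW.exists_inv
    have hVp : Cp V := (Ck.left (ω := ω) _).1.inv h1
    obtain ⟨g, hgG, eg⟩ := hV.mul hA
    have hf : fM (g : Matrix I9 I9 F) = 1 := by
      have : fM V * fM (fM A ⊗ₖ (1 : Matrix K3 K3 F)) = 1 := by
        rw [← fM_mul hVp (Ck.left (ω := ω) _).1, h2, fM_one]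
      rw [fM_left] at this
      rw [eg, fM_mul hVp hp, this]
    have hgN := hKN g ⟨hgG, by rw [eg]; exact hVp.mul hp, hf⟩
    have e : A = (fM A ⊗ₖ (1 : Matrix K3 K3 F)) * (g : Matrix I9 I9 F) := by
      rw [eg, ← Matrix.mul_assoc, h1, Matrix.one_mul]
    rw [e]
    exact (Nrm9.kron hn Nrm3.one).mul hgN
  exfalso
  set Dg : Matrix K3 K3 F := Matrix.diagonal fun i => if i = 2 then 1 else -1 with hDg
  obtain ⟨d, ⟨B, ⟨g, hgG, eg⟩, hBp, hBf⟩, ed⟩ := h Dg (by
    rw [hDg, Matrix.det_diagonal, show (Finset.univ : Finset K3) = {0, 1, 2} from by decide,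
      Finset.prod_insert (by decide), Finset.prod_insert (by decide), Finset.prod_singleton]
    simp (config := { decide := true }))
  rw [ed] at hBf
  have hgp : Cp (g : Matrix I9 I9 F) := eg ▸ hBp
  have hgf : fM (g : Matrix I9 I9 F) = Dg := eg ▸ hBf
  have hgi : Cp ((g⁻¹ : GL I9 F) : Matrix I9 I9 F) := hgp.inv g.mul_inv
  -- move `g z g⁻¹` back into the Sylow subgroup
  have hz'K : g * z₀ * g⁻¹ ∈ Ker G := by
    refine ⟨mul_mem (mul_mem hgG hz₀.1) (inv_mem hgG), ?_, ?_⟩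
    · rw [Units.val_mul, Units.val_mul]; exact (hgp.mul hz₀.2.1).mul hgi
    · rw [Units.val_mul, Units.val_mul, fM_mul (hgp.mul hz₀.2.1) hgi, fM_mul hgp hz₀.2.1,
        show fM (z₀ : Matrix I9 I9 F) = 1 from hz₀.2.2, Matrix.mul_one, ← fM_mul hgp hgi,
        Units.mul_inv, fM_one]
  obtain ⟨k, hk, hcomm⟩ := hconj g hz'K
  set g₁ : GL I9 F := k⁻¹ * g with hg₁
  have hki : Cp ((k⁻¹ : GL I9 F) : Matrix I9 I9 F) := (inv_mem hk).2.1
  have hg₁G : g₁ ∈ G := mul_mem (inv_mem hk.1) hgG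
  have hg₁p : Cp (g₁ : Matrix I9 I9 F) := by rw [hg₁, Units.val_mul]; exact hki.mul hgp
  have hg₁f : fM (g₁ : Matrix I9 I9 F) = Dg := by
    rw [hg₁, Units.val_mul, fM_mul hki hgp, hgf, (inv_mem hk).2.2, Matrix.one_mul]
  have hg₁k : Ck ω (g₁ : Matrix I9 I9 F) := by
    refine ⟨hg₁p, ?_⟩
    have e' := congrArg (fun x : GL I9 F => (x : Matrix I9 I9 F)) hcomm
    simp only [Units.val_mul, ez, Matrix.mul_smul, Matrix.smul_mul] at e'
    exact smul_right_injective (Matrix I9 I9 F) (pow_ne_zero 2 hω.ne_zero) e'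
  -- commutator with `X ⊗ 1`
  set W := P3 ω ((1 : K3), (0 : K3)) ⊗ₖ (1 : Matrix K3 K3 F) with hWdef
  have hWk : Ck ω W := Ck.left _
  have hWG : InG G W := hG.lX
  obtain ⟨V, hV, hV1, hV2⟩ := hWG.exists_inv
  have hVk := hWk.inv hV1
  set g₁i := ((g₁⁻¹ : GL I9 F) : Matrix I9 I9 F) with hg₁i
  have hik : Ck ω g₁i := hg₁k.inv g₁.mul_inv
  set cm := (g₁ : Matrix I9 I9 F) * W * g₁i * V with hcm
  have hcmk : Ck ω cm := ((hg₁k.mul hWk).mul hik).mul hVk
  have hDX : Dg * P3 ω ((1 : K3), (0 : K3)) = P3 ω ((1 : K3), (0 : K3)) * Dg := by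
    ext i k
    rw [hDg, Matrix.diagonal_mul, Matrix.mul_diagonal, P3_apply]
    by_cases hik : i = k
    · subst hik; ring
    · simp [hik]
  have hcmf : fM cm = 1 := by
    rw [hcm, fM_mul ((hg₁k.mul hWk).mul hik).1 hVk.1, fM_mul (hg₁k.mul hWk).1 hik.1,
      fM_mul hg₁k.1 hWk.1, hg₁f, hWdef, fM_left, hDX, Matrix.mul_assoc (P3 ω _) Dg, ← hg₁f,
      ← fM_mul hg₁k.1 hik.1, hg₁i, Units.mul_inv, fM_one, Matrix.mul_one]
    nth_rewrite 1 [← fM_left (P3 ω ((1 : K3), (0 : K3)))]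
    rw [← hWdef, ← fM_mul hWk.1 hVk.1, hV1, fM_one]
  obtain ⟨σ, t, hσ, hca, hcb⟩ := k0_all hG hD hns
    ⟨((InG.mul (InG.mul ⟨g₁, hg₁G, rfl⟩ hWG) ⟨g₁⁻¹, inv_mem hg₁G, rfl⟩).mul hV), hcmk, hcmf⟩
  have hcc : ∀ {M : Matrix I9 I9 F}, Ck ω M → cm * M = M * cm := by
    intro M hM
    refine ck_ext hω hG.two (hcmk.mul hM) (hM.mul hcmk) ?_ ?_ ?_
    · rw [fM_mul hcmk.1 hM.1, fM_mul hM.1 hcmk.1, hcmf, Matrix.one_mul, Matrix.mul_one]
    · rw [aM_mul hω hcmk hM, aM_mul hω hM hcmk, hca, Matrix.smul_mul, Matrix.mul_smul,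
        Matrix.one_mul, Matrix.mul_one]
    · rw [bM_mul hω hcmk hM, bM_mul hω hM hcmk, hcb, Matrix.smul_mul, Matrix.mul_smul,
        Matrix.one_mul, Matrix.mul_one]
  have hrel : (g₁ : Matrix I9 I9 F) * W = cm * W * (g₁ : Matrix I9 I9 F) := by
    rw [hcm, Matrix.mul_assoc (_ * _ * g₁i) V, hV2, Matrix.mul_one,
      Matrix.mul_assoc ((g₁ : Matrix I9 I9 F) * W), hg₁i, Units.inv_mul, Matrix.mul_one]
  have hW3 : W ^ 3 = 1 := by
    rw [hWdef, kron_pow, pow_succ, pow_two, pow_three_smul hω, Matrix.one_kronecker_one]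
  have hg3 : (g₁ : Matrix I9 I9 F) * g₁ * g₁ * W = W * ((g₁ : Matrix I9 I9 F) * g₁ * g₁) := by
    have h := cube_rel hrel (hcc hWk) (hcc hg₁k) hW3 g₁.isUnit
    rwa [pow_succ, pow_two] at h
  have hN := proj_centraliser hG hD hns
    ((InG.mul ⟨g₁, hg₁G, rfl⟩ ⟨g₁, hg₁G, rfl⟩).mul ⟨g₁, hg₁G, rfl⟩)
    (r := (((1 : K3), (0 : K3)), (0 : K3 × K3))) (by decide) (c := 1)
    (by rw [one_smul, P9, P3_zero]; exact hg3)
  -- weight normalising elements act by weight normalising maps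
  have hDD : Dg * Dg * Dg = Dg := by
    rw [hDg, Matrix.diagonal_mul_diagonal, Matrix.diagonal_mul_diagonal]
    congr 1; funext i
    split_ifs <;> ring
  obtain ⟨⟨w₁, w₂⟩, c, hc, e⟩ := hN ((0, 1), 0)
  have hP9p : ∀ v : W9, pj * P9 ω v = P9 ω (v.1, -v.2) * pj := by
    intro v
    rw [pj, P9, P9, kron_mul, kron_mul, Matrix.one_mul, Matrix.mul_one]
    congr 1
    ext i k
    rw [Matrix.mul_apply, Matrix.mul_apply, Finset.sum_eq_single (-i), Finset.sum_eq_single (-k)]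
    · simp only [Pim, Matrix.of_apply, P3_apply, Prod.fst_neg, Prod.snd_neg, add_neg_cancel,
        if_true, one_mul, neg_add_cancel, mul_one]
      by_cases h : -i = k + v.2.2
      · rw [if_pos h, if_pos (show i = -k + -v.2.2 by linear_combination (-1 : K3) * h)]
        congr 1; ring
      · rw [if_neg h, if_neg fun hh => h (by linear_combination (-1 : K3) * hh)]
    · intro b _ hb
      rw [Pim, Matrix.of_apply, if_neg (fun h => hb (eq_neg_of_add_eq_zero_left h)), mul_zero]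
    · simp
    · intro b _ hb
      rw [Pim, Matrix.of_apply, if_neg (fun h => hb (eq_neg_of_add_eq_zero_right h)), zero_mul]
    · simp
  set G3 := (g₁ : Matrix I9 I9 F) * g₁ * g₁ with hG3
  have hG3p : Cp G3 := (hg₁p.mul hg₁p).mul hg₁p
  have hu : IsUnit (G3 * pj) := ((g₁.isUnit.mul g₁.isUnit).mul g₁.isUnit).mul
    (IsUnit.of_mul_eq_one pj (by rw [pj, kron_mul, Matrix.one_mul, Pim_sq, Matrix.one_kronecker_one]))
  have hw : w₂ = 0 := by
    have he : G3 * pj = pj * G3 := hG3p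
    have e0 : G3 * P9 ω ((0, 1), 0) = c • (P9 ω (w₁, w₂) * G3) := e
    have h1 : c • (P9 ω (w₁, w₂) * (G3 * pj)) = c • (P9 ω (w₁, -w₂) * (G3 * pj)) := by
      calc c • (P9 ω (w₁, w₂) * (G3 * pj)) = G3 * P9 ω ((0, 1), 0) * pj := by
            rw [e0, Matrix.smul_mul, Matrix.mul_assoc (P9 ω (w₁, w₂)) G3 pj]
        _ = G3 * (pj * P9 ω ((0, 1), 0)) := by
            rw [hP9p, Matrix.mul_assoc]; simp only [neg_zero]
        _ = pj * (c • (P9 ω (w₁, w₂) * G3)) := by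
            rw [← Matrix.mul_assoc, he, Matrix.mul_assoc, e0]
        _ = c • (P9 ω (w₁, -w₂) * (G3 * pj)) := by
            rw [Matrix.mul_smul, ← Matrix.mul_assoc, hP9p, Matrix.mul_assoc, ← he]
    have h2 := hu.mul_left_inj.1 (smul_right_injective (Matrix I9 I9 F) hc h1)
    have h3 : P9 ω (w₁, w₂) = (1 : F) • P9 ω (w₁, -w₂) := by rw [one_smul]; exact h2
    have h4 : ∀ x : K3 × K3, x = -x → x = 0 := by decide
    exact h4 _ (congrArg Prod.snd (P9_line hω h3))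
  subst hw
  have hwk : Cp (P9 ω (w₁, (0 : K3 × K3))) := by
    rw [P9, P3_zero]; exact (Ck.left (ω := ω) _).1
  have h0k : Cp (P9 ω (((0 : K3), (1 : K3)), (0 : K3 × K3))) := by
    rw [P9, P3_zero]; exact (Ck.left (ω := ω) _).1
  have ef := congrArg fM e
  rw [fM_mul hG3p h0k, hG3, fM_mul (hg₁p.mul hg₁p) hg₁p, fM_mul hg₁p hg₁p, hg₁f, hDD] at ef
  have hfs : ∀ M, fM (c • M) = c • fM M := fun M => by
    ext i k
    show c * M (i, 1) (k, 1) - c * M (i, 1) (k, 2) = c * (M (i, 1) (k, 1) - M (i, 1) (k, 2))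
    ring
  rw [hfs, fM_mul hwk hG3p, hG3, fM_mul (hg₁p.mul hg₁p) hg₁p, fM_mul hg₁p hg₁p, hg₁f, hDD,
    P9, P9, P3_zero, fM_left, fM_left] at ef
  have e10 := congrFun (congrFun ef 1) 0
  have e02 := congrFun (congrFun ef 0) 2
  simp only [hDg, Matrix.diagonal_mul, Matrix.smul_apply, Matrix.mul_diagonal, P3_apply,
    smul_eq_mul] at e10 e02
  by_cases hw2 : w₁.2 = 1
  · simp (config := { decide := true }) [hw2] at e10 e02
    have h1 : wp ω w₁.1 = -1 := by
      rw [← e02] at e10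
      linear_combination (1 : F) * e10
    have h2 := wp_cube hω w₁.1
    rw [h1] at h2
    exact hG.two (by linear_combination -h2)
  · simp (config := { decide := true }) [Ne.symm hw2] at e10

end Cfsg.Agent.CSixNine
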