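import Cfsg.Agent.CSixNine.Fix

/-!
Elements of an overgroup which fix one weight line normalise all weight lines.
-/

set_option autoImplicit false
set_option linter.unusedSectionVars false

namespace Cfsg.Agent.CSixNine

open Matrix
open scoped MatrixGroups Matrix Kronecker

variable {F : Type*} [Field F] {ω : F} {G : Subgroup (GL I9 F)}

lemma P9_line (hω : Omega ω) {v w : W9} {c : F} (h : P9 ω v = c • P9 ω w) : v = w := by
  have h' := congrArg (fun M => M * P9 ω (-w)) h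
  simp only [Matrix.smul_mul, P9_mul hω, add_neg_cancel, P9_zero, smul_smul] at h'
  set k := wp ω (-((-w).1.1 * v.1.2) + -((-w).2.1 * v.2.2)) with hk
  refine sub_eq_zero.1 (P9_ne_smul_one hω
    (c := k⁻¹ * (c * wp ω (-((-w).1.1 * w.1.2) + -((-w).2.1 * w.2.2)))) ?_)
  rw [sub_eq_add_neg, mul_smul, ← h', smul_smul, inv_mul_cancel₀ (hω.wp_ne_zero _), one_smul]

lemma P9_cube (hω : Omega ω) (v : W9) : P9 ω v * P9 ω v * P9 ω v = 1 := by
  simp only [P9, kron_mul, pow_three_smul hω, Matrix.one_kronecker_one]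

/-- The scalar in a conjugation of weight operators is a cube root of unity. -/
lemma conj_cube9 (hω : Omega ω) {W : Matrix I9 I9 F} (hW : IsUnit W) {v w : W9} {k : F}
    (e : W * P9 ω v = k • (P9 ω w * W)) : k ^ 3 = 1 := by
  set Q := P9 ω v
  set Q' := P9 ω w
  have h2 : W * (Q * Q * Q) = (k ^ 3) • (Q' * Q' * Q' * W) := by
    calc W * (Q * Q * Q) = (W * Q) * Q * Q := by simp only [Matrix.mul_assoc]
      _ = (k • (Q' * W)) * Q * Q := by rw [e]
      _ = k • (Q' * (W * Q) * Q) := by simp only [Matrix.smul_mul, Matrix.mul_assoc]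
      _ = k • (Q' * (k • (Q' * W)) * Q) := by rw [e]
      _ = (k * k) • (Q' * Q' * (W * Q)) := by
          simp only [Matrix.mul_smul, Matrix.smul_mul, smul_smul, Matrix.mul_assoc]
      _ = (k ^ 3) • (Q' * Q' * Q' * W) := by
          rw [e]; simp only [Matrix.mul_smul, smul_smul, Matrix.mul_assoc]; congr 1; ring
  rw [P9_cube hω, P9_cube hω, Matrix.mul_one, Matrix.one_mul] at h2
  exact (smul_left_injective F hW.ne_zero ((one_smul F W).trans h2)).symm

lemma Nrm9.of_mul_eq_one (hω : Omega ω) {A B : Matrix I9 I9 F} (h : A * B = 1) (hA : Nrm9 ω A) :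
    Nrm9 ω B := by
  have h' : B * A = 1 := mul_eq_one_comm.1 h
  choose f c hc e using hA
  have hf : Function.Injective f := by
    intro v w hvw
    have e1 := congrArg (fun M => B * M) (e v)
    have e2 := congrArg (fun M => B * M) (e w)
    simp only [← Matrix.mul_assoc, h', Matrix.one_mul, Matrix.mul_smul, hvw] at e1 e2
    refine P9_line hω (c := c v * (c w)⁻¹) ?_
    rw [e1, e2, smul_smul, inv_mul_cancel_right₀ (hc w)]
  intro v
  obtain ⟨u, rfl⟩ := Finite.surjective_of_injective hf v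
  refine ⟨u, (c u)⁻¹, inv_ne_zero (hc u), ?_⟩
  calc B * P9 ω (f u) = B * (P9 ω (f u) * A) * B := by
        rw [Matrix.mul_assoc, Matrix.mul_assoc, h, Matrix.mul_one]
    _ = B * ((c u)⁻¹ • (A * P9 ω u)) * B := by
        rw [e u, smul_smul, inv_mul_cancel₀ (hc u), one_smul]
    _ = (c u)⁻¹ • (P9 ω u * B) := by
        rw [Matrix.mul_smul, Matrix.smul_mul, ← Matrix.mul_assoc B A, h', Matrix.one_mul]

lemma kron_pow (A : Matrix K3 K3 F) (n : ℕ) :
    (A ⊗ₖ (1 : Matrix K3 K3 F)) ^ n = (A ^ n) ⊗ₖ (1 : Matrix K3 K3 F) := by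
  induction n with
  | zero => rw [pow_zero, pow_zero, Matrix.one_kronecker_one]
  | succ n ih => rw [pow_succ, ih, kron_mul, Matrix.one_mul, pow_succ]

namespace Gen

variable (hG : Gen ω G)
include hG

lemma wordW_mem (a b c : ℕ) : InG G
    ((tauM ω ^ a * fourM ω ^ b * tauM ω ^ c) ⊗ₖ (1 : Matrix K3 K3 F)) := by
  have := ((hG.lT.pow a).mul (hG.lF.pow b)).mul (hG.lT.pow c)
  rwa [kron_pow, kron_pow, kron_pow, kron_mul, kron_mul, Matrix.one_mul, Matrix.one_mul] at this

lemma wordW_induces (a b c : ℕ) :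
    Induces ω (tauM ω ^ a * fourM ω ^ b * tauM ω ^ c) (Tt^[a] ∘ Tf^[b] ∘ Tt^[c]) := by
  have := ((Induces.pow (tau_P3 hG.om) a).mul (Induces.pow (four_P3 hG.om) b)).mul
    (Induces.pow (tau_P3 hG.om) c)
  simpa [Function.comp_assoc] using this

lemma P9_mem (v : W9) : InG G (P9 ω v) := by
  have := (hG.lft_P v.1).mul (hG.rep_P v.2)
  rwa [kron_mul, Matrix.one_mul, Matrix.mul_one] at this

lemma swap_mem : Mem9 ω G swM := ⟨hG.swp, Nrm9.swap⟩

lemma cx_mem : Mem9 ω G (blk fun i => P3 ω (i, 0)) := ⟨hG.cx, Nrm9.cx hG.om⟩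

end Gen

/-- Some member of `G` normalising the weight lines carries the line of `r` to that of `s`. -/
def Mv (ω : F) (G : Subgroup (GL I9 F)) (r s : W9) : Prop :=
  ∃ W, Mem9 ω G W ∧ ∃ k : F, k ≠ 0 ∧ W * P9 ω r = k • (P9 ω s * W)

lemma Mv.trans {r s t : W9} (h : Mv ω G r s) (h' : Mv ω G s t) : Mv ω G r t := by
  obtain ⟨W, hW, k, hk, e⟩ := h
  obtain ⟨V, hV, l, hl, e'⟩ := h'
  refine ⟨V * W, hV.mul hW, k * l, mul_ne_zero hk hl, ?_⟩
  rw [Matrix.mul_assoc, e, Matrix.mul_smul, ← Matrix.mul_assoc, e', Matrix.smul_mul, smul_smul,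
    Matrix.mul_assoc]

section Transitive

variable (hG : Gen ω G)
include hG

lemma mv_fst {u v : K3 × K3} (hu : u ≠ 0) (hv : v ≠ 0) (x : K3 × K3) :
    Mv ω G (u, x) (v, x) := by
  obtain ⟨a, b, c, habc⟩ := word_transitive u v hu hv
  have hI := hG.wordW_induces a b c
  refine ⟨_, ⟨hG.wordW_mem a b c, Nrm9.kron (Nrm3.of_induces hI) Nrm3.one⟩, ?_⟩
  obtain ⟨k, hk, e⟩ := hI u
  refine ⟨k, hk, ?_⟩
  rw [habc] at e
  simp only [P9, kron_mul, Matrix.one_mul, Matrix.mul_one, e, Matrix.smul_kronecker]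

lemma mv_swap (u x : K3 × K3) : Mv ω G (u, x) (x, u) := by
  refine ⟨_, hG.swap_mem, 1, one_ne_zero, ?_⟩
  rw [one_smul, swM_mul, P9, P9, sw_kronecker]

lemma mv_cx : Mv ω G ((0, 1), (2, 0)) ((0, 1), (0, 0)) := by
  have hcx := hG.cx_mem
  refine ⟨_, hcx, ?_⟩
  obtain ⟨w, c, hc, e⟩ := hcx.2 ((0, 1), (2, 0))
  refine ⟨1, one_ne_zero, ?_⟩
  rw [one_smul, cx_eq]
  ext ⟨i, j⟩ ⟨k, l⟩
  rw [Matrix.diagonal_mul, Matrix.mul_diagonal]
  simp only [P9, Matrix.kroneckerMap_apply, P3_apply]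
  have key : ∀ k l : K3, (k + 1) * l + (0 * (k + 1) + 2 * l) = (0 * (k + 1) + 0 * l) + k * l := by
    decide
  by_cases h1 : i = k + 1
  · by_cases h2 : j = l
    · subst h1 h2
      simp only [add_zero, if_pos, ← hG.om.wp_add]
      exact congrArg _ (key k j)
    · simp [h2]
  · simp [h1]

lemma mv_base {r : W9} (hr : r ≠ 0) : Mv ω G r ((1, 0), (0, 0)) := by
  obtain ⟨u, x⟩ := r
  have hone : ((1 : K3), (0 : K3)) ≠ 0 := by decide
  have hY : ((0 : K3), (1 : K3)) ≠ 0 := by decide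
  have h2 : ((2 : K3), (0 : K3)) ≠ 0 := by decide
  by_cases hu : u = 0
  · subst hu
    have hx : x ≠ 0 := fun h => hr (by rw [h]; rfl)
    exact (mv_swap hG 0 x).trans (mv_fst hG hx hone _)
  · by_cases hx : x = 0
    · subst hx; exact mv_fst hG hu hone _
    · exact ((((((mv_fst hG hu hY x).trans (mv_swap hG _ x)).trans
        (mv_fst hG hx h2 _)).trans (mv_swap hG _ _))).trans (mv_cx hG)).trans
        (mv_fst hG hY hone _)

end Transitive

/-- A matrix commuting with `X ⊗ 1` is block diagonal. -/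
lemma eq_blk_of_commute (hω : Omega ω) {B : Matrix I9 I9 F}
    (h : B * P9 ω ((1, 0), 0) = P9 ω ((1, 0), 0) * B) :
    B = blk fun i => Matrix.of fun j l => B (i, j) (i, l) := by
  have hP : P9 ω (((1 : K3), (0 : K3)), (0 : K3 × K3)) = Matrix.diagonal fun p : I9 => wp ω p.1 := by
    ext p q
    rw [P9, P3_zero, Matrix.kroneckerMap_apply, P3_apply]
    by_cases h1 : p.1 = q.1 <;> by_cases h2 : p.2 = q.2 <;>
      simp [Matrix.diagonal, Matrix.one_apply, Prod.ext_iff, h1, h2]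
  ext ⟨i, j⟩ ⟨k, l⟩
  by_cases hik : i = k
  · subst hik; simp [blk]
  · have := congrFun (congrFun h (i, j)) (k, l)
    rw [hP, Matrix.mul_diagonal, Matrix.diagonal_mul] at this
    simp only [blk, Matrix.of_apply, if_neg hik]
    by_contra hne
    exact hik (hω.wp_inj (mul_left_cancel₀ hne (by linear_combination this))).symm

/-- A member of `G` fixing one nonzero weight line normalises all weight lines. -/
theorem proj_centraliser (hG : Gen ω G) (hD : Dicho ω) (hns : NoSL G) {A : Matrix I9 I9 F}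
    (hA : InG G A) {r : W9} (hr : r ≠ 0) {c : F} (e : A * P9 ω r = c • (P9 ω r * A)) :
    Nrm9 ω A := by
  have base : ∀ {B : Matrix I9 I9 F}, InG G B → ∀ {d : F},
      B * P9 ω ((1, 0), 0) = d • (P9 ω ((1, 0), 0) * B) → Nrm9 ω B := by
    intro B hB d eB
    obtain ⟨t, rfl⟩ := hG.om.exists_wp (conj_cube9 hG.om hB.isUnit eB)
    set u : W9 := ((0, t), 0) with hu
    have hcom : P9 ω u * B * P9 ω ((1, 0), 0) = P9 ω ((1, 0), 0) * (P9 ω u * B) := by
      rw [Matrix.mul_assoc, eB, Matrix.mul_smul, ← Matrix.mul_assoc, P9_comm hG.om u,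
        Matrix.smul_mul, smul_smul, ← hG.om.wp_add, Matrix.mul_assoc]
      have : t + sym9 u (((1 : K3), (0 : K3)), (0 : K3 × K3)) = 0 := by
        simp [sym9, sym, hu]
      rw [this, wp_zero, one_smul]
    have hmem := (hG.P9_mem u).mul hB
    rw [eq_blk_of_commute hG.om hcom] at hmem
    have hn := fix_blk hG hD hns hmem
    rw [← eq_blk_of_commute hG.om hcom] at hn
    obtain ⟨V, -, h1, h2⟩ := (hG.P9_mem u).exists_inv
    have := (Nrm9.of_mul_eq_one hG.om h1 (Nrm9.weight hG.om u)).mul hn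
    rwa [← Matrix.mul_assoc, h2, Matrix.one_mul] at this
  obtain ⟨W, hW, k, hk, eW⟩ := mv_base hG hr
  obtain ⟨V, hV, h1, h2⟩ := hW.1.exists_inv
  have eV : V * P9 ω ((1, 0), 0) = k⁻¹ • (P9 ω r * V) := by
    calc V * P9 ω ((1, 0), 0) = V * (P9 ω ((1, 0), 0) * W) * V := by
          rw [Matrix.mul_assoc, Matrix.mul_assoc, h1, Matrix.mul_one]
      _ = V * (k⁻¹ • (W * P9 ω r)) * V := by
          rw [eW, smul_smul, inv_mul_cancel₀ hk, one_smul]; rfl
      _ = _ := by rw [Matrix.mul_smul, Matrix.smul_mul, ← Matrix.mul_assoc V W, h2, Matrix.one_mul]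
  have hn : Nrm9 ω (W * A * V) := by
    refine base ((hW.1.mul hA).mul hV) (d := c) ?_
    rw [Matrix.mul_assoc, eV, Matrix.mul_smul, ← Matrix.mul_assoc, Matrix.mul_assoc W A, e,
      Matrix.mul_smul, ← Matrix.mul_assoc, eW, Matrix.smul_mul, Matrix.smul_mul, Matrix.smul_mul,
      smul_smul, smul_smul]
    simp only [Matrix.mul_assoc]
    congr 1
    field_simp
  have := ((Nrm9.of_mul_eq_one hG.om h1 hW.2).mul hn).mul hW.2
  simp only [← Matrix.mul_assoc, h2, Matrix.one_mul] at this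
  rwa [Matrix.mul_assoc, h2, Matrix.mul_one] at this

/-- An invertible matrix fixing every weight line is a weight operator. -/
lemma exists_P9_of_id (hω : Omega ω) {A : Matrix I9 I9 F} (hA : IsUnit A)
    (h : ∀ v : W9, ∃ c : F, A * P9 ω v = c • (P9 ω v * A)) :
    ∃ (s : F) (e : W9), s ≠ 0 ∧ A = s • P9 ω e := by
  have ht : ∀ v : W9, ∃ t : K3, A * P9 ω v = wp ω t • (P9 ω v * A) := fun v => by
    obtain ⟨c, e⟩ := h v
    obtain ⟨t, rfl⟩ := hω.exists_wp (conj_cube9 hω hA e)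
    exact ⟨t, e⟩
  choose t ht using ht
  set e : W9 := ((t ((0, 1), 0), -t ((1, 0), 0)), (t (0, (0, 1)), -t (0, (1, 0)))) with he
  set B := P9 ω (-e) * A with hB
  have hc : ∀ v : W9, t v + sym9 (-e) v = 0 → B * P9 ω v = P9 ω v * B := fun v hv => by
    rw [hB, Matrix.mul_assoc, ht v, Matrix.mul_smul, ← Matrix.mul_assoc, P9_comm hω (-e),
      Matrix.smul_mul, smul_smul, ← hω.wp_add, hv, wp_zero, one_smul, Matrix.mul_assoc]
  have hx := hc ((1, 0), 0) (by simp [sym9, sym, he])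
  have hy := hc ((0, 1), 0) (by simp [sym9, sym, he])
  have hx' := hc (0, (1, 0)) (by simp [sym9, sym, he])
  have hy' := hc (0, (0, 1)) (by simp [sym9, sym, he])
  set g : K3 → Matrix K3 K3 F := fun i => Matrix.of fun j l => B (i, j) (i, l)
  have hblk : B = blk g := eq_blk_of_commute hω hx
  have hr : ∀ A' : Matrix K3 K3 F, P3 ω (0 : K3 × K3) ⊗ₖ A' = blk fun _ => A' := fun A' => by
    rw [P3_zero, blk_const]
  have hs : ∀ i, g i = g i 0 0 • 1 := by
    intro i
    refine scalar_of_commute hω ?_ ?_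
    · have := hx'
      rw [hblk, P9, hr, blk_mul, blk_mul] at this
      exact congrFun (blk_inj this) i
    · have := hy'
      rw [hblk, P9, hr, blk_mul, blk_mul] at this
      exact congrFun (blk_inj this) i
  have hconst : ∀ i, g i = g 0 := by
    have := hy
    rw [hblk, P9, P3_zero, shift_blk, hblk] at *
    intro i
    have hu : IsUnit (P3 ω ((0 : K3), (1 : K3)) ⊗ₖ (1 : Matrix K3 K3 F)) := by
      have := isUnit_P9 hω (((0 : K3), (1 : K3)), (0 : K3 × K3))
      rwa [P9, P3_zero] at this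
    have e1 := blk_inj (hu.mul_left_inj.1 this)
    have step : ∀ k, g k = g (k - 1) := fun k => congrFun e1 k
    obtain rfl | rfl | rfl := k3_cases i
    · rfl
    · simpa using step 1
    · rw [step 2, show (2 : K3) - 1 = 1 from by decide]; simpa using step 1
  have hBs : B = g 0 0 0 • (1 : Matrix I9 I9 F) := by
    rw [hblk, ← blk_one, blk_smul]
    congr 1; funext i; rw [hconst i]; exact hs 0
  have hh := congrArg (fun M => P9 ω e * M) hBs
  rw [hB, ← Matrix.mul_assoc, P9_mul hω, add_neg_cancel, P9_zero, Matrix.smul_mul, Matrix.one_mul,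
    Matrix.mul_smul, Matrix.mul_one] at hh
  set k := wp ω (-((-e).1.1 * e.1.2) + -((-e).2.1 * e.2.2)) with hk
  refine ⟨k⁻¹ * g 0 0 0, e, mul_ne_zero (inv_ne_zero (hω.wp_ne_zero _)) fun h0 => ?_, ?_⟩
  · rw [h0, zero_smul] at hBs
    exact ((isUnit_P9 hω _).mul hA).ne_zero hBs
  · rw [mul_smul, ← hh, smul_smul, inv_mul_cancel₀ (hω.wp_ne_zero _), one_smul]

end Cfsg.Agent.CSixNine
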