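import Cfsg.Agent.CSixNine.Norml
import Cfsg.Agent.SLThree.SympGroup
import Cfsg.Agent.SLThree.SympPlane
import Cfsg.Agent.SLThree.Root

/-!
The three dimensional dichotomy for overgroups of the weight normaliser.
-/

set_option autoImplicit false
set_option linter.unusedSectionVars false

namespace Cfsg.Agent.CSixNine

open Matrix
open scoped MatrixGroups Matrix

variable {F : Type*} [Field F] {ω : F}

/-- The linear extension of the images of the two basis weights. -/
def linP (a b v : K3 × K3) : K3 × K3 := (v.1 * a.1 + v.2 * b.1, v.1 * a.2 + v.2 * b.2)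

lemma word_linear : ∀ a : Fin 3, ∀ b : Fin 4, ∀ c : Fin 3, ∀ d : Fin 4,
    sym ((Tt^[a.val] ∘ Tf^[b.val] ∘ Tt^[c.val] ∘ Tf^[d.val]) (1, 0))
      ((Tt^[a.val] ∘ Tf^[b.val] ∘ Tt^[c.val] ∘ Tf^[d.val]) (0, 1)) = 1 ∧
    ∀ v : K3 × K3, (Tt^[a.val] ∘ Tf^[b.val] ∘ Tt^[c.val] ∘ Tf^[d.val]) v =
      linP ((Tt^[a.val] ∘ Tf^[b.val] ∘ Tt^[c.val] ∘ Tf^[d.val]) (1, 0))
        ((Tt^[a.val] ∘ Tf^[b.val] ∘ Tt^[c.val] ∘ Tf^[d.val]) (0, 1)) v := by
  decide +kernel

set_option synthInstance.maxSize 2000 in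
lemma commuting_three : ∀ a b : K3 × K3, sym a b = 1 →
    (∀ v, linP a b (linP a b (linP a b v)) = v) →
    ∀ a' b' : K3 × K3, sym a' b' = 1 → (∀ v, linP a' b' (linP a' b' (linP a' b' v)) = v) →
    (∀ v, linP a b (linP a' b' v) = linP a' b' (linP a b v)) →
    (a = (1, 0) ∧ b = (0, 1)) ∨ ∃ j : Fin 3, ∀ v, linP a' b' ((linP a b)^[j.val] v) = v := by
  decide +kernel

lemma linP_id : ∀ v : K3 × K3, linP (1, 0) (0, 1) v = v := by decide

lemma wp_natCast_pow (hω : Omega ω) (n : ℕ) : ω ^ n = wp ω (n : K3) := (hω.wp_natCast n).symm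

lemma xM_pow (hω : Omega ω) (n : ℕ) : (P3 ω ((1 : K3), (0 : K3)) : Matrix K3 K3 F) ^ n =
    P3 ω ((n : K3), 0) := by
  induction n with
  | zero => simp [Prod.mk_zero_zero]
  | succ n ih =>
    rw [pow_succ, ih, P3_mul hω]
    simp

lemma yM_pow (hω : Omega ω) (n : ℕ) : (P3 ω ((0 : K3), (1 : K3)) : Matrix K3 K3 F) ^ n =
    P3 ω (0, (n : K3)) := by
  induction n with
  | zero => simp [Prod.mk_zero_zero]
  | succ n ih =>
    rw [pow_succ, ih, P3_mul hω]
    simp

/-- The statement proved for the overgroups without transvections. -/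
def SympCoreStatement (F : Type*) [Field F] [Fintype F] : Prop :=
  ∀ (R : Cfsg.Agent.SLThree.Symp.Root3 F) (X : Subgroup (GL (Fin 3) F)), (5 : F) ≠ 0 →
    (∀ g ∈ X, Matrix.det (g : Matrix (Fin 3) (Fin 3) F) = 1) → R.gX ∈ X →
    Cfsg.Agent.SLThree.Symp.Root3.gY ∈ X → R.gW₁ ∈ X → R.gW₂ ∈ X →
    Cfsg.Agent.SLThree.Symp.NT X → ∀ g ∈ X, ∀ r ∈ R.Rs, g * r * g⁻¹ ∈ R.Rs

lemma xM_eq (R : Cfsg.Agent.SLThree.Symp.Root3 F) :
    (R.xM : Matrix (Fin 3) (Fin 3) F) = P3 R.ω ((1 : K3), (0 : K3)) := by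
  ext i k
  fin_cases i <;> fin_cases k <;>
    simp (config := { decide := true }) [Cfsg.Agent.SLThree.Symp.Root3.xM, P3, wp]
  all_goals first
    | rfl
    | exact (pow_zero R.ω).symm
    | exact (pow_one R.ω).symm
    | exact (mul_one R.r).symm.trans (congrArg (R.r * ·) (pow_zero R.ω).symm)
    | exact congrArg (R.r * ·) (pow_one R.ω).symm

lemma yM_eq (R : Cfsg.Agent.SLThree.Symp.Root3 F) :
    (Cfsg.Agent.SLThree.Symp.Root3.yM : Matrix (Fin 3) (Fin 3) F) =
      P3 R.ω ((0 : K3), (1 : K3)) := by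
  ext i k
  fin_cases i <;> fin_cases k <;>
    simp (config := { decide := true }) [Cfsg.Agent.SLThree.Symp.Root3.yM, P3, wp]
  all_goals first
    | rfl
    | exact (pow_zero R.ω).symm
    | exact (pow_one R.ω).symm
    | exact (mul_one R.r).symm.trans (congrArg (R.r * ·) (pow_zero R.ω).symm)
    | exact congrArg (R.r * ·) (pow_one R.ω).symm

lemma tM_eq (R : Cfsg.Agent.SLThree.Symp.Root3 F) :
    (R.tM : Matrix (Fin 3) (Fin 3) F) = tauM R.ω := by
  ext i k
  fin_cases i <;> fin_cases k <;>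
    simp (config := { decide := true }) [Cfsg.Agent.SLThree.Symp.Root3.tM, tauM, Matrix.diagonal]
  all_goals first
    | rfl
    | exact (pow_zero R.ω).symm
    | exact (pow_one R.ω).symm
    | exact (mul_one R.r).symm.trans (congrArg (R.r * ·) (pow_zero R.ω).symm)
    | exact congrArg (R.r * ·) (pow_one R.ω).symm

lemma w₁M_eq (R : Cfsg.Agent.SLThree.Symp.Root3 F) :
    (R.w₁M : Matrix (Fin 3) (Fin 3) F) = R.r • fourM R.ω := by
  ext i k
  fin_cases i <;> fin_cases k <;>
    simp (config := { decide := true }) [Cfsg.Agent.SLThree.Symp.Root3.w₁M, fourM, wp]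
  all_goals first
    | rfl
    | exact (pow_zero R.ω).symm
    | exact (pow_one R.ω).symm
    | exact (mul_one R.r).symm.trans (congrArg (R.r * ·) (pow_zero R.ω).symm)
    | exact congrArg (R.r * ·) (pow_one R.ω).symm

/-- The matrix of an element, indexed by `K3`. -/
def cv (g : GL (Fin 3) F) : Matrix K3 K3 F := (g : Matrix (Fin 3) (Fin 3) F)

lemma cv_mul (g h : GL (Fin 3) F) : cv (g * h) = cv g * cv h := Units.val_mul g h

/-- A line of weights carried to a line of weights. -/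
lemma dicho_line {H : Subgroup (GL K3 F)} (hω : Omega ω)
    (hW : ∀ a b c : ℕ, InG H (tauM ω ^ a * fourM ω ^ b * tauM ω ^ c))
    (hP : ∀ v, InG H (P3 ω v))
    (hcomm : ∀ M N N' : Matrix K3 K3 F, InG H M → InG H N → Nrm3 ω N → M * N = N' * M → Nrm3 ω N')
    {M : Matrix K3 K3 F} (hM : InG H M) {x y : K3 × K3} (hx : x ≠ 0) (hy : y ≠ 0) {c : F}
    (e : M * P3 ω y = c • (P3 ω x * M)) : Nrm3 ω M := by
  have hone : ((1 : K3), (0 : K3)) ≠ 0 := by decide
  obtain ⟨a, b, d, hx'⟩ := word_transitive x (1, 0) hx hone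
  obtain ⟨a', b', d', hy'⟩ := word_transitive (1, 0) y hone hy
  have hI : ∀ a b d : ℕ, Induces ω (tauM ω ^ a * fourM ω ^ b * tauM ω ^ d)
      (Tt^[a] ∘ Tf^[b] ∘ Tt^[d]) := fun a b d => by
    have := ((Induces.pow (tau_P3 hω) a).mul (Induces.pow (four_P3 hω) b)).mul
      (Induces.pow (tau_P3 hω) d)
    simpa [Function.comp_assoc] using this
  set W := tauM ω ^ a.val * fourM ω ^ b.val * tauM ω ^ d.val with hWdef
  set W' := tauM ω ^ a'.val * fourM ω ^ b'.val * tauM ω ^ d'.val with hW'def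
  obtain ⟨k, hk, ek⟩ := hI a b d x
  obtain ⟨k', hk', ek'⟩ := hI a' b' d' (1, 0)
  rw [hx', ← hWdef] at ek
  rw [hy', ← hW'def] at ek'
  have hWG : InG H W := hW _ _ _
  have hW'G : InG H W' := hW _ _ _
  have hWn : Nrm3 ω W := Nrm3.of_induces (hI _ _ _)
  have hW'n : Nrm3 ω W' := Nrm3.of_induces (hI _ _ _)
  clear_value W W'
  -- `N` fixes the line of `X`
  set N := W * M * W' with hN
  have hNG : InG H N := (hWG.mul hM).mul hW'G
  have eN : N * P3 ω (1, 0) = (k' * (c * k)) • (P3 ω (1, 0) * N) := by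
    rw [hN, Matrix.mul_assoc, ek', Matrix.mul_smul, ← Matrix.mul_assoc, Matrix.mul_assoc W M, e,
      Matrix.mul_smul, ← Matrix.mul_assoc, ek, Matrix.smul_mul, Matrix.smul_mul, Matrix.smul_mul,
      smul_smul, smul_smul]
    simp only [Matrix.mul_assoc]
    congr 1
    ring
  obtain ⟨t, ht⟩ := hω.exists_wp (conj_cube hω hNG.isUnit eN)
  rw [ht] at eN
  set D := P3 ω (0, t) * N with hD
  have hDG : InG H D := (hP _).mul hNG
  have hDX : D * P3 ω (1, 0) = P3 ω (1, 0) * D := by
    rw [hD, Matrix.mul_assoc, eN, Matrix.mul_smul, ← Matrix.mul_assoc, P3_comm hω (0, t),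
      Matrix.smul_mul, smul_smul, ← hω.wp_add, Matrix.mul_assoc]
    have : t + sym ((0, t) : K3 × K3) (1, 0) = 0 := by simp [sym]
    rw [this, wp_zero, one_smul]
  have hd : ∀ i k, i ≠ k → D i k = 0 := by
    intro i k hik
    have := congrFun (congrFun hDX i) k
    rw [mul_P3_apply, P3_mul_apply] at this
    simp only [one_mul, add_zero, sub_zero] at this
    by_contra hne
    exact hik (hω.wp_inj (mul_left_cancel₀ hne (by linear_combination this))).symm
  set d0 : K3 → F := fun i => D i i with hd0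
  have hDd : D = Matrix.diagonal d0 := by
    ext i k
    by_cases h : i = k
    · subst h; simp [hd0]
    · simp [hd i k h, h]
  have hne : ∀ i, d0 i ≠ 0 := by
    have := hDG.isUnit
    rw [hDd, Matrix.isUnit_diagonal, Pi.isUnit_iff] at this
    exact fun i => (this i).ne_zero
  -- the conjugate of the Fourier matrix
  set F' : Matrix K3 K3 F := Matrix.of fun i k => d0 i * wp ω (i * k) * (d0 k)⁻¹ with hF'
  have hF4 : InG H (fourM ω) := by simpa using hW 0 1 0
  have eF : D * fourM ω = F' * D := by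
    ext i k
    rw [hDd, Matrix.diagonal_mul, Matrix.mul_diagonal, hF']
    simp only [fourM, Matrix.of_apply]
    rw [inv_mul_cancel_right₀ (hne k)]
  have hFn := hcomm D (fourM ω) F' hDG hF4 (Nrm3.of_induces (four_P3 hω)) eF
  obtain ⟨w, c', -, eX⟩ := hFn (1, 0)
  have E : ∀ i k : K3, d0 i * wp ω (i * k) * (d0 k)⁻¹ * wp ω k =
      c' * (wp ω (w.1 * i) * (d0 (i - w.2) * wp ω ((i - w.2) * k) * (d0 k)⁻¹)) := by
    intro i k
    have := congrFun (congrFun eX i) k
    rw [mul_P3_apply, Matrix.smul_apply, P3_mul_apply] at this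
    simpa [hF'] using this
  have E' : ∀ i k : K3, d0 i * wp ω (i * k + k) =
      c' * wp ω (w.1 * i) * d0 (i - w.2) * wp ω ((i - w.2) * k) := by
    intro i k
    rw [hω.wp_add]
    linear_combination (d0 k) * (E i k) + (c' * wp ω (w.1 * i) * d0 (i - w.2) *
      wp ω ((i - w.2) * k) - d0 i * wp ω (i * k) * wp ω k) * inv_mul_cancel₀ (hne k)
  have hb : w.2 = -1 := by
    have h0 := E' 0 0
    have h1 := E' 0 1
    simp only [mul_zero, zero_mul, zero_add, wp_zero, mul_one, zero_sub] at h0 h1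
    rw [← h0] at h1
    have := hω.wp_inj (mul_left_cancel₀ (hne 0) h1)
    linear_combination this
  have hrec : ∀ i, d0 i = c' * wp ω (w.1 * i) * d0 (i + 1) := by
    intro i
    have := E' i 0
    simpa [hb, sub_neg_eq_add] using this
  have hDn : Nrm3 ω D := by
    have hlin : ∀ v : K3 × K3, ∃ u, ∃ f : F, f ≠ 0 ∧ D * P3 ω v = f • (P3 ω u * D) := by
      have hY : ∃ u, ∃ f : F, f ≠ 0 ∧
          D * P3 ω (0, 1) = f • (P3 ω u * D) := by
        refine ⟨(-w.1, 1), (c' * wp ω (-w.1))⁻¹, inv_ne_zero (mul_ne_zero (fun h => hne 0 (by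
          rw [hrec 0, h]; simp)) (hω.wp_ne_zero _)), ?_⟩
        ext i k
        rw [hDd, Matrix.diagonal_mul, Matrix.smul_apply, Matrix.mul_diagonal, P3_apply, P3_apply,
          smul_eq_mul]
        by_cases h : i = k + 1
        · subst h
          rw [if_pos rfl, if_pos rfl, zero_mul, wp_zero, mul_one, hrec k,
            show w.1 * k = -w.1 + w.1 * (k + 1) by ring, hω.wp_add,
            show -w.1 * (k + 1) = -(w.1 * (k + 1)) by ring]
          have hc0 : c' ≠ 0 := fun h => hne 0 (by rw [hrec 0, h]; simp)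
          have hww : wp ω (w.1 * (k + 1)) * wp ω (-(w.1 * (k + 1))) = 1 := by
            rw [← hω.wp_add, add_neg_cancel, wp_zero]
          have := hω.wp_ne_zero (-w.1)
          generalize wp ω (w.1 * (k + 1)) = A at *
          generalize wp ω (-(w.1 * (k + 1))) = B at *
          generalize wp ω (-w.1) = C at *
          field_simp
          linear_combination (-(d0 (k + 1))) * hww
        · rw [if_neg h, if_neg h]; simp
      obtain ⟨u, f, hf, eY⟩ := hY
      have hYn : ∀ n : ℕ, ∃ u, ∃ f : F, f ≠ 0 ∧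
          D * P3 ω (0, (n : K3)) = f • (P3 ω u * D) := by
        intro n
        induction n with
        | zero => exact ⟨0, 1, one_ne_zero, by simp [Prod.mk_zero_zero]⟩
        | succ n ih =>
          obtain ⟨u', f', hf', e'⟩ := ih
          refine ⟨u' + u, f' * f * wp ω (-(u.1 * u'.2)), mul_ne_zero (mul_ne_zero hf' hf)
            (hω.wp_ne_zero _), ?_⟩
          rw [← yM_pow hω, pow_succ, yM_pow hω, ← Matrix.mul_assoc, e', Matrix.smul_mul,
            Matrix.mul_assoc, eY, Matrix.mul_smul, smul_smul, ← Matrix.mul_assoc, P3_mul hω,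
            Matrix.smul_mul, smul_smul]
      have hXn : ∀ n : ℕ, D * P3 ω ((n : K3), 0) = P3 ω ((n : K3), 0) * D := by
        intro n
        rw [← xM_pow hω]
        exact ((Commute.pow_right (show Commute D _ from hDX) n)).eq
      intro v
      obtain ⟨u', f', hf', e'⟩ := hYn v.2.val
      rw [ZMod.natCast_zmod_val] at e'
      have hx1 := hXn v.1.val
      rw [ZMod.natCast_zmod_val] at hx1
      have hv : P3 ω v = (wp ω (-(((0 : K3), v.2) : K3 × K3).1 * ((v.1, (0 : K3)) : K3 × K3).2))⁻¹ •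
          (P3 ω (v.1, 0) * P3 ω (0, v.2)) := by
        rw [P3_mul hω, smul_smul]
        simp
      refine ⟨((v.1, (0 : K3)) : K3 × K3) + u', f' * wp ω (-(u'.1 * 0)),
        mul_ne_zero hf' (hω.wp_ne_zero _), ?_⟩
      rw [hv, Matrix.mul_smul, ← Matrix.mul_assoc, hx1, Matrix.mul_assoc, e', Matrix.mul_smul,
        ← Matrix.mul_assoc, P3_mul hω, Matrix.smul_mul]
      simp
    exact hlin
  obtain ⟨V, -, hV1, hV2⟩ := hWG.exists_inv
  obtain ⟨V', -, hV1', hV2'⟩ := hW'G.exists_inv
  obtain ⟨Z, -, hZ1, hZ2⟩ := (hP (0, t)).exists_inv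
  have hNn : Nrm3 ω N := by
    have := (Nrm3.of_mul_eq_one hω hZ1
      (fun v => ⟨v, _, hω.wp_ne_zero _, P3_comm hω (0, t) v⟩)).mul hDn
    rwa [hD, ← Matrix.mul_assoc, hZ2, Matrix.one_mul] at this
  have := ((Nrm3.of_mul_eq_one hω hV1 hWn).mul hNn).mul (Nrm3.of_mul_eq_one hω hV1' hW'n)
  rwa [hN, ← Matrix.mul_assoc, ← Matrix.mul_assoc, hV2, Matrix.one_mul, Matrix.mul_assoc, hV1',
    Matrix.mul_one] at this

/-- An overgroup whose derived part normalises the weight lines normalises them. -/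
lemma nrm_of_commutators {H : Subgroup (GL K3 F)} (hω : Omega ω)
    (hW : ∀ a b c : ℕ, InG H (tauM ω ^ a * fourM ω ^ b * tauM ω ^ c))
    (hP : ∀ v, InG H (P3 ω v))
    (hcomm : ∀ M N N' : Matrix K3 K3 F, InG H M → InG H N → Nrm3 ω N → M * N = N' * M → Nrm3 ω N')
    {M : Matrix K3 K3 F} (hM : InG H M) : Nrm3 ω M := by
  obtain ⟨V, hV, h1, h2⟩ := hM.exists_inv
  have hQ : ∀ v, ∃ Q : Matrix K3 K3 F, IsUnit Q ∧ M * P3 ω v = Q * M ∧ Nrm3 ω Q := by
    intro v
    refine ⟨M * P3 ω v * V, (hM.isUnit.mul (isUnit_P3 hω v)).mul hV.isUnit, ?_, ?_⟩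
    · rw [Matrix.mul_assoc _ V M, h2, Matrix.mul_one]
    · refine hcomm M _ _ hM (hP v) (fun u => ⟨u, _, hω.wp_ne_zero _, P3_comm hω v u⟩) ?_
      rw [Matrix.mul_assoc _ V M, h2, Matrix.mul_one]
  obtain ⟨Q, hQu, eQ, hQn⟩ := hQ (1, 0)
  obtain ⟨R, hRu, eR, hRn⟩ := hQ (0, 1)
  obtain ⟨a, b, c, d, hQI⟩ := exists_word_of_nrm hω hQu hQn
  obtain ⟨a', b', c', d', hRI⟩ := exists_word_of_nrm hω hRu hRn
  obtain ⟨sQ, lQ⟩ := word_linear a b c d
  obtain ⟨sR, lR⟩ := word_linear a' b' c' d'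
  set T := Tt^[a.val] ∘ Tf^[b.val] ∘ Tt^[c.val] ∘ Tf^[d.val]
  set S := Tt^[a'.val] ∘ Tf^[b'.val] ∘ Tt^[c'.val] ∘ Tf^[d'.val]
  have hu : IsUnit M := hM.isUnit
  have hQ3 : ∀ {v} {Q : Matrix K3 K3 F}, M * P3 ω v = Q * M → Q * Q * Q = 1 := by
    intro v Q e
    refine hu.mul_left_inj.1 ?_
    calc Q * Q * Q * M = M * (P3 ω v * P3 ω v * P3 ω v) := by
          rw [Matrix.mul_assoc (Q * Q) Q M, ← e, ← Matrix.mul_assoc (Q * Q), Matrix.mul_assoc Q Q M,
            ← e, ← Matrix.mul_assoc Q, ← e]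
          simp only [Matrix.mul_assoc]
      _ = 1 * M := by rw [pow_three_smul hω, Matrix.mul_one, Matrix.one_mul]
  have hT3 : ∀ v, T (T (T v)) = v := fun v => by
    have := (hQI.mul hQI).mul hQI
    rw [hQ3 eQ] at this
    exact induces_unique hω isUnit_one this Induces.one v
  have hS3 : ∀ v, S (S (S v)) = v := fun v => by
    have := (hRI.mul hRI).mul hRI
    rw [hQ3 eR] at this
    exact induces_unique hω isUnit_one this Induces.one v
  have hrel : Q * R = wp ω (sym ((1, 0) : K3 × K3) (0, 1)) • (R * Q) := by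
    refine hu.mul_left_inj.1 ?_
    rw [Matrix.mul_assoc, ← eR, ← Matrix.mul_assoc, ← eQ, Matrix.mul_assoc, P3_comm hω,
      Matrix.mul_smul, ← Matrix.mul_assoc, eR, Matrix.mul_assoc, eQ, Matrix.smul_mul,
      Matrix.mul_assoc]
  have hTS : ∀ v, T (S v) = S (T v) := fun v => by
    have h := hQI.mul hRI
    rw [hrel] at h
    have h' : Induces ω (wp ω (sym ((1, 0) : K3 × K3) (0, 1)) • (R * Q)) (S ∘ T) := by
      intro v
      obtain ⟨f, hf, e⟩ := hRI.mul hQI v
      refine ⟨f, hf, ?_⟩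
      rw [Matrix.smul_mul, e, Matrix.mul_smul, smul_comm]
    exact induces_unique hω (by rw [← hrel]; exact hQu.mul hRu) h h' v
  have fix : ∀ (y : K3 × K3) (Z : Matrix K3 K3 F), y ≠ 0 → IsUnit Z → M * P3 ω y = Z * M →
      Induces ω Z id → Nrm3 ω M := by
    intro y Z hy hZu eZ hZI
    obtain ⟨s, x, hs, rfl⟩ := exists_P_of_id hω hZu hZI
    have hx : x ≠ 0 := by
      rintro rfl
      rw [P3_zero, Matrix.smul_mul, Matrix.one_mul] at eZ
      refine hy (P3_ne_smul_one hω (c := s) ?_)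
      refine hu.mul_right_inj.1 ?_
      rw [eZ, Matrix.mul_smul, Matrix.mul_one]
    exact dicho_line hω hW hP hcomm hM hx hy (by rw [eZ, Matrix.smul_mul])
  rcases commuting_three (T (1, 0)) (T (0, 1)) sQ (fun v => by rw [← lQ, ← lQ, ← lQ, hT3])
      (S (1, 0)) (S (0, 1)) sR (fun v => by rw [← lR, ← lR, ← lR, hS3])
      (fun v => by rw [← lQ, ← lR, ← lR, ← lQ, hTS]) with ⟨h1, h2⟩ | ⟨j, hj⟩
  · refine fix (1, 0) Q (by decide) hQu eQ fun v => ?_
    have := hQI v
    rwa [show T v = v by rw [lQ v, h1, h2, linP_id]] at this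
  · have hjI := hRI.mul (hQI.pow j.val)
    have e : M * (P3 ω ((0 : K3), (1 : K3)) * P3 ω (1, 0) ^ j.val) = R * Q ^ j.val * M := by
      have : ∀ n : ℕ, M * P3 ω (1, 0) ^ n = Q ^ n * M := by
        intro n
        induction n with
        | zero => simp
        | succ n ih => rw [pow_succ, ← Matrix.mul_assoc, ih, Matrix.mul_assoc, eQ, pow_succ,
            Matrix.mul_assoc]
      rw [← Matrix.mul_assoc, eR, Matrix.mul_assoc, this, Matrix.mul_assoc]
    rw [xM_pow hω, P3_mul hω, Matrix.mul_smul] at e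
    set κ := wp ω (-(((j.val : K3), (0 : K3)) : K3 × K3).1 * (((0 : K3), (1 : K3)) : K3 × K3).2)
      with hκ
    refine fix ((0, 1) + ((j.val : K3), 0)) (κ⁻¹ • (R * Q ^ j.val)) ?_ ?_ ?_ ?_
    · intro h
      have := congrArg Prod.snd h
      simp at this
    · rw [← Matrix.one_mul (R * Q ^ j.val), ← Matrix.smul_mul]
      exact (IsUnit.of_mul_eq_one (κ • (1 : Matrix K3 K3 F)) (by
        rw [Matrix.smul_mul, Matrix.one_mul, smul_smul,
          inv_mul_cancel₀ (by rw [hκ]; exact hω.wp_ne_zero _), one_smul])).mul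
        (hRu.mul (hQu.pow _))
    · rw [Matrix.smul_mul, ← e, smul_smul]
      have : κ⁻¹ * wp ω (-((((j.val : K3), (0 : K3)) : K3 × K3).1 *
          (((0 : K3), (1 : K3)) : K3 × K3).2)) = 1 := by
        rw [hκ, neg_mul]
        exact inv_mul_cancel₀ (hω.wp_ne_zero _)
      rw [this, one_smul]
    · intro v
      obtain ⟨f, hf, e'⟩ := hjI v
      refine ⟨f, hf, ?_⟩
      have : (S ∘ T^[j.val]) v = v := by
        show S (T^[j.val] v) = v
        have hiter : ∀ n : ℕ, ∀ u, T^[n] u = (linP (T (1, 0)) (T (0, 1)))^[n] u := by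
          intro n u
          induction n generalizing u with
          | zero => rfl
          | succ n ih =>
            rw [Function.iterate_succ_apply, Function.iterate_succ_apply, ← lQ u]
            exact ih (T u)
        rw [hiter, lR]
        exact hj v
      rw [this] at e'
      rw [Matrix.smul_mul, e', Matrix.mul_smul, smul_comm]
      rfl

/-- The three dimensional dichotomy over a prime field. -/
theorem dicho_of_core [Fintype F] (hcore : SympCoreStatement F) (hω : Omega ω)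
    (hnat : ∀ c : F, ∃ n : ℕ, (n : F) = c) (h2 : (2 : F) ≠ 0) (h5 : (5 : F) ≠ 0) : Dicho ω := by
  intro H hscal hX hY hT hF
  let R : Cfsg.Agent.SLThree.Symp.Root3 F := ⟨ω, hω.eqn, h2, hω.three⟩
  let H3 : Subgroup (GL (Fin 3) F) := H
  set Y : Subgroup (GL (Fin 3) F) := H3 ⊓ Cfsg.Geo.specialLinear (Fin 3) F with hYdef
  have hin : ∀ (g : GL (Fin 3) F) (M : Matrix (Fin 3) (Fin 3) F), InG H M →
      (g : Matrix (Fin 3) (Fin 3) F) = M → g ∈ H3 := by
    intro g M hM e
    obtain ⟨g', hg', eg⟩ := hM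
    have : g' = g := Units.ext (eg.trans e.symm)
    exact this ▸ hg'
  have hmY : ∀ g : GL (Fin 3) F, g ∈ Y ↔ g ∈ H3 ∧ Matrix.det (g : Matrix (Fin 3) (Fin 3) F) = 1 := by
    intro g
    rw [hYdef, Subgroup.mem_inf, Cfsg.Agent.GeoClasses.mem_specialLinear_iff]
  have hP : ∀ v : K3 × K3, InG H (P3 ω v) := by
    intro v
    have := (hX.pow v.1.val).mul (hY.pow v.2.val)
    rw [xM_pow hω, yM_pow hω, P3_mul hω, ZMod.natCast_zmod_val, ZMod.natCast_zmod_val] at this
    have h := (hscal _ (inv_ne_zero (hω.wp_ne_zero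
      (-((((0 : K3), v.2) : K3 × K3).1 * ((v.1, (0 : K3)) : K3 × K3).2))))).mul this
    rw [Matrix.smul_mul, Matrix.one_mul, smul_smul, inv_mul_cancel₀ (hω.wp_ne_zero _),
      one_smul] at h
    simpa using h
  have hW : ∀ a b c : ℕ, InG H (tauM ω ^ a * fourM ω ^ b * tauM ω ^ c) := fun a b c =>
    ((hT.pow a).mul (hF.pow b)).mul (hT.pow c)
  have hTH : R.gT ∈ H3 := hin _ _ hT (tM_eq R)
  have hW1H : R.gW₁ ∈ H3 := by
    refine hin _ (R.r • fourM ω) ?_ (w₁M_eq R)
    have hr : R.r ≠ 0 := by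
      intro h
      have := R.r_sq
      rw [h] at this
      simp at this
    have := (hscal R.r hr).mul hF
    rwa [Matrix.smul_mul, Matrix.one_mul] at this
  have hW2H : R.gW₂ ∈ H3 := mul_mem (mul_mem hTH hW1H) (inv_mem hTH)
  have hXY : R.gX ∈ Y := (hmY _).2 ⟨hin _ _ hX (xM_eq R), R.det_gX⟩
  have hYY : Cfsg.Agent.SLThree.Symp.Root3.gY ∈ Y :=
    (hmY _).2 ⟨hin _ _ hY (yM_eq R), Cfsg.Agent.SLThree.Symp.Root3.det_gY⟩
  by_cases hNT : Cfsg.Agent.SLThree.Symp.NT Y
  · left
    have hsl := hcore R Y h5 (fun g hg => ((hmY g).1 hg).2) hXY hYY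
      ((hmY _).2 ⟨hW1H, R.det_Qs_gen.1⟩) ((hmY _).2 ⟨hW2H, R.det_Qs_gen.2⟩) hNT
    have hYn : ∀ g ∈ Y, Nrm3 ω (cv g) := by
      intro g hg
      have hlines : ∀ (r : GL (Fin 3) F), r ∈ R.Rs →
          ∃ w, ∃ c : F, c ≠ 0 ∧ cv r = c • P3 ω w := by
        intro r hr
        obtain ⟨a, b, c, rfl⟩ := R.mem_Rs.1 hr
        have hv := R.val_el a b c
        rw [xM_eq R, yM_eq R] at hv
        have hv' : cv (R.el a b c) =
            ω ^ a • (P3 ω ((1 : K3), (0 : K3)) ^ b * P3 ω ((0 : K3), (1 : K3)) ^ c) := hv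
        rw [xM_pow hω, yM_pow hω, P3_mul hω, smul_smul] at hv'
        exact ⟨_, _, mul_ne_zero (pow_ne_zero _ hω.ne_zero) (hω.wp_ne_zero _), hv'⟩
      intro v
      obtain ⟨r, hrR, f, hf, hre⟩ : ∃ r : GL (Fin 3) F, r ∈ R.Rs ∧ ∃ f : F, f ≠ 0 ∧
          P3 ω v = f • cv r := by
        refine ⟨R.el 0 v.1.val v.2.val, R.el_mem _ _ _,
          (wp ω (-((((0 : K3), v.2) : K3 × K3).1 * ((v.1, (0 : K3)) : K3 × K3).2)))⁻¹,
          inv_ne_zero (hω.wp_ne_zero _), ?_⟩
        have hv := R.val_el 0 v.1.val v.2.val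
        rw [xM_eq R, yM_eq R] at hv
        have hv' : cv (R.el 0 v.1.val v.2.val) =
            ω ^ 0 • (P3 ω ((1 : K3), (0 : K3)) ^ v.1.val *
              P3 ω ((0 : K3), (1 : K3)) ^ v.2.val) := hv
        rw [xM_pow hω, yM_pow hω, P3_mul hω, pow_zero, one_smul, ZMod.natCast_zmod_val,
          ZMod.natCast_zmod_val] at hv'
        rw [hv', smul_smul, inv_mul_cancel₀ (hω.wp_ne_zero _), one_smul]
        simp
      obtain ⟨w, c, hc, hw⟩ := hlines _ (hsl g hg r hrR)
      refine ⟨w, f * c, mul_ne_zero hf hc, ?_⟩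
      rw [hre, Matrix.mul_smul, mul_smul]
      congr 1
      rw [← Matrix.smul_mul, ← hw, ← cv_mul, ← cv_mul, inv_mul_cancel_right]
    have hcomm : ∀ M N N' : Matrix K3 K3 F, InG H M → InG H N → Nrm3 ω N → M * N = N' * M →
        Nrm3 ω N' := by
      rintro M N N' ⟨g, hg, rfl⟩ ⟨n, hn, rfl⟩ hNn e
      have hY : g * n * g⁻¹ * n⁻¹ ∈ Y := by
        refine (hmY _).2 ⟨mul_mem (mul_mem (mul_mem hg hn) (inv_mem hg)) (inv_mem hn), ?_⟩
        show Matrix.det ((g * n * g⁻¹ * n⁻¹ : GL K3 F) : Matrix K3 K3 F) = 1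
        rw [Units.val_mul, Units.val_mul, Units.val_mul, Matrix.det_mul, Matrix.det_mul,
          Matrix.det_mul]
        have e1 : Matrix.det (g : Matrix K3 K3 F) *
            Matrix.det ((g⁻¹ : GL K3 F) : Matrix K3 K3 F) = 1 := by
          rw [← Matrix.det_mul, ← Units.val_mul, mul_inv_cancel, Units.val_one, Matrix.det_one]
        have e2 : Matrix.det (n : Matrix K3 K3 F) *
            Matrix.det ((n⁻¹ : GL K3 F) : Matrix K3 K3 F) = 1 := by
          rw [← Matrix.det_mul, ← Units.val_mul, mul_inv_cancel, Units.val_one, Matrix.det_one]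
        linear_combination (Matrix.det (n : Matrix K3 K3 F) *
          Matrix.det ((n⁻¹ : GL K3 F) : Matrix K3 K3 F)) * e1 + e2
      have h0 : Nrm3 ω ((g * n * g⁻¹ * n⁻¹ : GL K3 F) : Matrix K3 K3 F) := hYn _ hY
      have := h0.mul hNn
      rw [← Units.val_mul, inv_mul_cancel_right, Units.val_mul, Units.val_mul, e,
        Matrix.mul_assoc, Units.mul_inv, Matrix.mul_one] at this
      exact this
    intro M hM
    exact nrm_of_commutators hω hW hP hcomm hM
  · right
    unfold Cfsg.Agent.SLThree.Symp.NT at hNT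
    push Not at hNT
    obtain ⟨g, hg, hsq, hne⟩ := hNT
    set N : Matrix (Fin 3) (Fin 3) F := (g : Matrix (Fin 3) (Fin 3) F) - 1 with hNdef
    obtain ⟨u, a, hu, ha, hua⟩ : ∃ u a : Fin 3 → F, u ≠ 0 ∧ a ≠ 0 ∧
        N = Matrix.vecMulVec u a := by
      set L := Matrix.toLin' N with hL
      have hN0 : N ≠ 0 := fun h => hne (Units.ext (by
        rw [Units.val_one]; exact sub_eq_zero.1 h))
      have hle : LinearMap.range L ≤ LinearMap.ker L := by
        rintro _ ⟨v, rfl⟩
        rw [LinearMap.mem_ker, hL, ← LinearMap.comp_apply, ← Matrix.toLin'_mul, hsq, map_zero,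
          LinearMap.zero_apply]
      have h3 := L.finrank_range_add_finrank_ker
      rw [Module.finrank_pi, Fintype.card_fin] at h3
      have hr1 : Module.finrank F (LinearMap.range L) ≤ 1 := by
        have := Submodule.finrank_mono hle
        omega
      obtain ⟨⟨u, hu⟩, hspan⟩ := finrank_le_one_iff.1 hr1
      have hcol : ∀ k : Fin 3, ∃ c : F, c • u = L (Pi.single k 1) := by
        intro k
        obtain ⟨c, hc⟩ := hspan ⟨L (Pi.single k 1), LinearMap.mem_range_self L _⟩
        exact ⟨c, congrArg Subtype.val hc⟩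
      choose a ha using hcol
      refine ⟨u, a, fun h => hN0 ?_, fun h => hN0 ?_, ?_⟩
      · ext i k
        have := congrFun (ha k) i
        rw [hL, Matrix.toLin'_apply, Matrix.mulVec_single_one] at this
        simpa [h] using this.symm
      · ext i k
        have := congrFun (ha k) i
        rw [hL, Matrix.toLin'_apply, Matrix.mulVec_single_one] at this
        simpa [h] using this.symm
      · ext i k
        have := congrFun (ha k) i
        rw [hL, Matrix.toLin'_apply, Matrix.mulVec_single_one] at this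
        simpa [Matrix.vecMulVec_apply, mul_comm] using this.symm
    have hdot : a ⬝ᵥ u = 0 := by
      obtain ⟨i, hi⟩ := Function.ne_iff.1 hu
      obtain ⟨k, hk⟩ := Function.ne_iff.1 ha
      have := congrFun (congrFun hsq i) k
      rw [hua, Matrix.vecMulVec_mul_vecMulVec] at this
      simp [Matrix.vecMulVec_apply] at this
      rcases this with h | h | h
      · exact absurd h (by simpa using hi)
      · exact h
      · exact absurd h (by simpa using hk)
    have hroot : Cfsg.Agent.SLThree.RootIn Y u a := by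
      intro c
      obtain ⟨n, rfl⟩ := hnat c
      refine ⟨g ^ n, pow_mem hg n, ?_⟩
      have hp : ∀ m : ℕ, ((g : Matrix (Fin 3) (Fin 3) F)) ^ m = 1 + (m : F) • N := by
        intro m
        induction m with
        | zero => simp
        | succ m ih =>
          have hg1 : (g : Matrix (Fin 3) (Fin 3) F) = 1 + N := by rw [hNdef]; abel
          rw [pow_succ, ih, hg1, add_mul, one_mul, mul_add, mul_one, Matrix.smul_mul, hsq,
            smul_zero, add_zero, Nat.cast_succ, add_smul, one_smul]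
          abel
      rw [Units.val_pow_eq_pow_val, hp, hua]
      congr 1
      ext i k
      simp [Matrix.vecMulVec_apply]
      ring
    have hirr : Cfsg.Geo.ActsIrreducibly (Cfsg.Geo.matrixSet Y) := by
      intro W hW
      by_cases hb : W = ⊥
      · exact Or.inl hb
      right
      obtain ⟨v, hv, hv0⟩ := Submodule.exists_mem_ne_zero_of_ne_bot hb
      have hact : ∀ g ∈ Y, ∀ x ∈ W, (g : Matrix (Fin 3) (Fin 3) F) *ᵥ x ∈ W := by
        intro g hg x hx
        have := hW _ ⟨g, hg, rfl⟩ (Submodule.mem_map_of_mem (f := Matrix.toLin' _) hx)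
        rwa [Matrix.toLin'_apply] at this
      have hXv : ∀ x ∈ W, R.xM *ᵥ x ∈ W := fun x hx => hact _ hXY x hx
      have hYv : ∀ x ∈ W,
          (Cfsg.Agent.SLThree.Symp.Root3.yM : Matrix (Fin 3) (Fin 3) F) *ᵥ x ∈ W :=
        fun x hx => hact _ hYY x hx
      have hsome : ∃ i, Pi.single i (1 : F) ∈ W := by
        obtain ⟨i, hi⟩ := Function.ne_iff.1 hv0
        refine ⟨i, ?_⟩
        have h1 := hXv v hv
        have h2 := hXv _ h1
        have key : ∀ s : F, (v + s • (R.xM *ᵥ v) + s ^ 2 • (R.xM *ᵥ (R.xM *ᵥ v))) ∈ W := fun s =>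
          W.add_mem (W.add_mem hv (W.smul_mem _ h1)) (W.smul_mem _ h2)
        have hXc : ∀ (x : Fin 3 → F) (j : Fin 3), (R.xM *ᵥ x) j = ω ^ (j : ℕ) * x j := by
          intro x j
          fin_cases j <;>
            simp [R, Cfsg.Agent.SLThree.Symp.Root3.xM, Matrix.mulVec, dotProduct,
              Fin.sum_univ_three, Matrix.vecHead, Matrix.vecTail]
        have hroot : ∀ m : ℕ, 1 + ω ^ m + (ω ^ m) ^ 2 = if m % 3 = 0 then 3 else 0 := by
          intro m
          rw [hω.pow_mod m]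
          have hlt : m % 3 < 3 := Nat.mod_lt _ (by norm_num)
          interval_cases hm : m % 3 <;> simp
          · norm_num
          · linear_combination hω.eqn
          · linear_combination hω.eqn + ω * hω.cube
        have e3 : Pi.single i (3 * v i) ∈ W := by
          convert key (ω ^ ((3 - (i : ℕ)) % 3)) using 1
          funext j
          simp only [Pi.add_apply, Pi.smul_apply, hXc, smul_eq_mul]
          have e : v j + ω ^ ((3 - (i : ℕ)) % 3) * (ω ^ (j : ℕ) * v j) +
              (ω ^ ((3 - (i : ℕ)) % 3)) ^ 2 * (ω ^ (j : ℕ) * (ω ^ (j : ℕ) * v j)) =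
              (1 + ω ^ ((3 - (i : ℕ)) % 3 + (j : ℕ)) +
                (ω ^ ((3 - (i : ℕ)) % 3 + (j : ℕ))) ^ 2) * v j := by
            rw [pow_add]; ring
          rw [e, hroot]
          by_cases hji : j = i
          · subst hji
            rw [Pi.single_eq_same, if_pos (by omega)]
          · rw [Pi.single_eq_of_ne hji, if_neg (by
              have := fun h => hji (Fin.ext h); omega), zero_mul]
        have h3v : 3 * v i ≠ 0 := mul_ne_zero hω.three (by simpa using hi)
        have := W.smul_mem (3 * v i)⁻¹ e3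
        rwa [← Pi.single_smul, smul_eq_mul, inv_mul_cancel₀ h3v] at this
      obtain ⟨i, hi⟩ := hsome
      have hshift : ∀ j : Fin 3, Pi.single j (1 : F) ∈ W → Pi.single (j + 1) (1 : F) ∈ W := by
        intro j hj
        convert hYv _ hj using 1
        funext k
        rw [Matrix.mulVec_single_one]
        fin_cases j <;> fin_cases k <;>
          simp [Cfsg.Agent.SLThree.Symp.Root3.yM, Pi.single_apply]
      have hall : ∀ j : Fin 3, Pi.single j (1 : F) ∈ W := by
        intro j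
        have h1 := hshift i hi
        have h2 := hshift _ h1
        have : j = i ∨ j = i + 1 ∨ j = i + 1 + 1 := by clear * -; revert i j; decide
        rcases this with rfl | rfl | rfl <;> assumption
      refine eq_top_iff.2 fun x _ => ?_
      rw [pi_eq_sum_univ' x]
      exact W.sum_mem fun j _ => W.smul_mem _ (hall j)
    intro M hM
    have hle := Cfsg.Agent.SLThree.sl_le_of_root hirr hu ha hdot hroot
    let M3 : Matrix (Fin 3) (Fin 3) F := M
    have hM3 : Matrix.det M3 = 1 := hM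
    have hu' : IsUnit M3 := (Matrix.isUnit_iff_isUnit_det _).2 (by rw [hM3]; exact isUnit_one)
    have hmem : hu'.unit ∈ Y := hle (Cfsg.Agent.GeoClasses.mem_specialLinear_iff.2 (by
      rw [IsUnit.unit_spec]; exact hM3))
    exact ⟨hu'.unit, ((hmY _).1 hmem).1, hu'.unit_spec⟩

end Cfsg.Agent.CSixNine
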