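import Cfsg.Agent.CSixNine.NoE

/-!
The centraliser of the weight operator `X ⊗ 1` in an overgroup normalises the weight lines.
-/

set_option autoImplicit false
set_option linter.unusedSectionVars false

namespace Cfsg.Agent.CSixNine

open Matrix
open scoped MatrixGroups Matrix Kronecker

variable {F : Type*} [Field F] {ω : F} {G : Subgroup (GL I9 F)}

/-- The scalar in a conjugation of weight operators is a cube root of unity. -/
lemma conj_cube (hω : Omega ω) {W : Matrix K3 K3 F} (hW : IsUnit W) {v w : K3 × K3} {k : F}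
    (e : W * P3 ω v = k • (P3 ω w * W)) : k ^ 3 = 1 := by
  set Q := P3 ω v
  set Q' := P3 ω w
  have h2 : W * (Q * Q * Q) = (k ^ 3) • (Q' * Q' * Q' * W) := by
    calc W * (Q * Q * Q) = (W * Q) * Q * Q := by simp only [Matrix.mul_assoc]
      _ = (k • (Q' * W)) * Q * Q := by rw [e]
      _ = k • (Q' * (W * Q) * Q) := by simp only [Matrix.smul_mul, Matrix.mul_assoc]
      _ = k • (Q' * (k • (Q' * W)) * Q) := by rw [e]
      _ = (k * k) • (Q' * Q' * (W * Q)) := by
          simp only [Matrix.mul_smul, Matrix.smul_mul, smul_smul, Matrix.mul_assoc]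
      _ = (k ^ 3) • (Q' * Q' * Q' * W) := by
          rw [e]; simp only [Matrix.mul_smul, smul_smul, Matrix.mul_assoc]; congr 1; ring
  rw [pow_three_smul hω, pow_three_smul hω, Matrix.mul_one, Matrix.one_mul] at h2
  exact (smul_left_injective F hW.ne_zero ((one_smul F W).trans h2)).symm

lemma induces_unique (hω : Omega ω) {A : Matrix K3 K3 F} (hA : IsUnit A)
    {S T : K3 × K3 → K3 × K3} (hS : Induces ω A S) (hT : Induces ω A T) (v : K3 × K3) :
    S v = T v := by
  obtain ⟨c, hc, e⟩ := hS v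
  obtain ⟨d, hd, e'⟩ := hT v
  rw [e, ← Matrix.smul_mul, ← Matrix.smul_mul] at e'
  have := hA.mul_left_inj.1 e'
  refine P3_line hω (c := c⁻¹ * d) ?_
  rw [mul_smul, ← this, smul_smul, inv_mul_cancel₀ hc, one_smul]

lemma exists_word_of_nrm (hω : Omega ω) {A : Matrix K3 K3 F} (hA : IsUnit A) (h : Nrm3 ω A) :
    ∃ a : Fin 3, ∃ b : Fin 4, ∃ c : Fin 3, ∃ d : Fin 4,
      Induces ω A (Tt^[a.val] ∘ Tf^[b.val] ∘ Tt^[c.val] ∘ Tf^[d.val]) := by
  obtain ⟨s, a, b, c, d, e, rfl⟩ := nrm3_word hω hA h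
  have hs : s ≠ 0 := by rintro rfl; rw [zero_smul] at hA; exact hA.ne_zero rfl
  have t3 : Tt^[3] = id := by
    funext v; revert v; decide
  have f4 : Tf^[4] = id := by
    funext v; revert v; decide
  have redt : ∀ n, Tt^[n] = Tt^[n % 3] := fun n => by
    conv_lhs => rw [← Nat.mod_add_div n 3, Function.iterate_add, Function.iterate_mul, t3,
      Function.iterate_id]
    rfl
  have redf : ∀ n, Tf^[n] = Tf^[n % 4] := fun n => by
    conv_lhs => rw [← Nat.mod_add_div n 4, Function.iterate_add, Function.iterate_mul, f4,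
      Function.iterate_id]
    rfl
  refine ⟨⟨a % 3, Nat.mod_lt _ (by norm_num)⟩, ⟨b % 4, Nat.mod_lt _ (by norm_num)⟩,
    ⟨c % 3, Nat.mod_lt _ (by norm_num)⟩, ⟨d % 4, Nat.mod_lt _ (by norm_num)⟩, ?_⟩
  show Induces ω _ (Tt^[a % 3] ∘ Tf^[b % 4] ∘ Tt^[c % 3] ∘ Tf^[d % 4])
  rw [← redt, ← redf, ← redt, ← redf]
  have hP : Induces ω (P3 ω e) id := fun v => ⟨_, hω.wp_ne_zero _, P3_comm hω e v⟩
  have hsI : Induces ω (s • (1 : Matrix K3 K3 F)) id := fun v => ⟨1, one_ne_zero, by simp⟩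
  have hτ : Induces ω (tauM ω) Tt := tau_P3 hω
  have hf : Induces ω (fourM ω) Tf := four_P3 hω
  have := hsI.mul (((((hτ.pow a).mul (hf.pow b)).mul (hτ.pow c)).mul (hf.pow d)).mul hP)
  rw [Matrix.smul_mul, Matrix.one_mul] at this
  simpa [Function.comp_assoc] using this

/-- An invertible matrix fixing every weight line is a weight operator. -/
lemma exists_P_of_id (hω : Omega ω) {A : Matrix K3 K3 F} (hA : IsUnit A) (h : Induces ω A id) :
    ∃ (s : F) (e : K3 × K3), s ≠ 0 ∧ A = s • P3 ω e := by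
  obtain ⟨c₁, -, e₁⟩ := h (1, 0)
  obtain ⟨c₂, -, e₂⟩ := h (0, 1)
  obtain ⟨t₁, rfl⟩ := hω.exists_wp (conj_cube hω hA e₁)
  obtain ⟨t₂, rfl⟩ := hω.exists_wp (conj_cube hω hA e₂)
  simp only [id_eq] at e₁ e₂
  set e : K3 × K3 := (t₂, -t₁) with he
  have g1 : P3 ω (-e) * A * P3 ω (1, 0) = P3 ω (1, 0) * (P3 ω (-e) * A) := by
    rw [Matrix.mul_assoc, e₁, Matrix.mul_smul, ← Matrix.mul_assoc, P3_comm hω (-e),
      Matrix.smul_mul, smul_smul, ← hω.wp_add, Matrix.mul_assoc]
    have : t₁ + sym (-e) ((1, 0) : K3 × K3) = 0 := by simp [sym, he]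
    rw [this, wp_zero, one_smul]
  have g2 : P3 ω (-e) * A * P3 ω (0, 1) = P3 ω (0, 1) * (P3 ω (-e) * A) := by
    rw [Matrix.mul_assoc, e₂, Matrix.mul_smul, ← Matrix.mul_assoc, P3_comm hω (-e),
      Matrix.smul_mul, smul_smul, ← hω.wp_add, Matrix.mul_assoc]
    have : t₂ + sym (-e) ((0, 1) : K3 × K3) = 0 := by simp [sym, he]
    rw [this, wp_zero, one_smul]
  have hsc := scalar_of_commute hω g1 g2
  have hh := congrArg (fun M => P3 ω e * M) hsc
  rw [← Matrix.mul_assoc, P3_mul hω, add_neg_cancel, P3_zero, Matrix.smul_mul, Matrix.one_mul,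
    Matrix.mul_smul, Matrix.mul_one] at hh
  refine ⟨(wp ω (-((-e).1 * e.2)))⁻¹ * (P3 ω (-e) * A) 0 0, e, ?_, ?_⟩
  · refine mul_ne_zero (inv_ne_zero (hω.wp_ne_zero _)) fun h0 => ?_
    rw [h0, zero_smul] at hsc
    exact ((isUnit_P3 hω _).mul hA).ne_zero hsc
  · rw [mul_smul, ← hh, smul_smul, inv_mul_cancel₀ (hω.wp_ne_zero _), one_smul]

lemma four_X (hω : Omega ω) (a : K3) :
    fourM ω * P3 ω (a, 0) = P3 ω (0, -a) * fourM ω := by
  ext i k
  rw [mul_P3_apply, P3_mul_apply]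
  simp only [fourM, Matrix.of_apply, zero_mul, wp_zero, one_mul, add_zero, ← hω.wp_add]
  congr 1; ring

lemma four_four (hω : Omega ω) : fourM ω ^ 4 = (9 : F) • (1 : Matrix K3 K3 F) := by
  have h : fourM ω * fourM ω = (3 : F) • Pim := by
    rw [four_sq hω]; ext i k; by_cases h : i + k = 0 <;> simp [Pim, h]
  calc fourM ω ^ 4 = (fourM ω * fourM ω) * (fourM ω * fourM ω) := by noncomm_ring
    _ = _ := by rw [h, Matrix.smul_mul, Matrix.mul_smul, smul_smul, Pim_sq]; norm_num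

lemma tau_cube (hω : Omega ω) : tauM ω ^ 3 = (1 : Matrix K3 K3 F) := by
  rw [tauM, Matrix.diagonal_pow, ← Matrix.diagonal_one]; congr 1; funext i
  by_cases h : i = 0 <;> simp [h, hω.cube]

/-- A member of `G` normalising the weight lines. -/
def Mem9 (ω : F) (G : Subgroup (GL I9 F)) (A : Matrix I9 I9 F) : Prop := InG G A ∧ Nrm9 ω A

lemma Mem9.mul {A B : Matrix I9 I9 F} (hA : Mem9 ω G A) (hB : Mem9 ω G B) :
    Mem9 ω G (A * B) := ⟨hA.1.mul hB.1, hA.2.mul hB.2⟩

/-- The mixing element attached to a weight. -/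
def uM (ω : F) (b : K3 × K3) : Matrix I9 I9 F := blk fun i => P3 ω (i * b.1, i * b.2)

namespace Gen

variable (hG : Gen ω G)
include hG

lemma uM_mem (b : K3 × K3) : Mem9 ω G (uM ω b) := by
  have hx : Mem9 ω G (blk fun i => P3 ω (i, 0)) := ⟨hG.cx, Nrm9.cx hG.om⟩
  have hF : Mem9 ω G ((1 : Matrix K3 K3 F) ⊗ₖ fourM ω) :=
    ⟨hG.rep_mem hG.lF, Nrm9.kron Nrm3.one (Nrm3.of_induces (four_P3 hG.om))⟩
  have hy : Mem9 ω G (blk fun i => P3 ω (0, -i)) := by
    have h9 : (9 : F) ≠ 0 := by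
      rw [show (9 : F) = 3 * 3 by norm_num]; exact mul_ne_zero hG.om.three hG.om.three
    have h3' : Mem9 ω G ((9 : F)⁻¹ • ((1 : Matrix K3 K3 F) ⊗ₖ (fourM ω ^ 3))) := by
      have h := (hF.mul hF).mul hF
      rw [kron_mul, kron_mul, Matrix.one_mul, Matrix.one_mul] at h
      refine ⟨hG.smul (inv_ne_zero h9) ?_, Nrm9.smul ?_ _⟩
      · convert h.1 using 2; noncomm_ring
      · convert h.2 using 2; noncomm_ring
    have := (hF.mul hx).mul h3'
    convert this using 1
    rw [← blk_const, blk_mul, ← blk_const, blk_smul, blk_mul]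
    congr 1; funext i
    rw [four_X hG.om, Matrix.mul_smul, Matrix.mul_assoc, ← pow_succ', four_four hG.om,
      Matrix.mul_smul, smul_smul, inv_mul_cancel₀ h9, one_smul, Matrix.mul_one]
  have hpow : ∀ (f : K3 → K3 × K3), Mem9 ω G (blk fun i => P3 ω (f i)) →
      (∀ i n : K3, (f i).1 = 0 ∨ (f i).2 = 0) → ∀ n : ℕ, Mem9 ω G (blk fun i => P3 ω (n • f i)) := by
    intro f hf h0 n
    induction n with
    | zero => simp only [zero_smul, P3_zero, blk_one]; exact ⟨InG.one, Nrm9.one⟩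
    | succ n ih =>
      have := ih.mul hf
      rw [blk_mul] at this
      convert this using 1
      congr 1; funext i
      rw [P3_mul hG.om]
      rw [succ_nsmul]
      rcases h0 i 0 with h | h <;> simp [h, nsmul_eq_mul]
  have h1 := hpow _ hx (fun i _ => Or.inr rfl) b.1.val
  have h2 := hpow _ hy (fun i _ => Or.inl rfl) (2 * b.2.val)
  have := h1.mul h2
  rw [blk_mul] at this
  convert this using 1
  rw [uM]; congr 1; funext i
  rw [P3_mul hG.om]
  simp
  congr 1
  refine Prod.ext ?_ ?_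
  · simp [mul_comm]
  · simp only [show (2 : K3) = -1 from by decide]
    ring

/-- The weights of the blocks of such an element sum to zero. -/
lemma sum_weights (hD : Dicho ω) (hns : NoSL G) {w : K3 → K3 × K3} {s : K3 → F}
    (hs : ∀ i, s i ≠ 0) (h : InG G (blk fun i => s i • P3 ω (w i))) : w 0 + w 1 + w 2 = 0 := by
  by_contra hr
  set r := w 0 + w 1 + w 2 with hrdef
  have h1 := (h.mul (hG.uM_mem (w 0 - w 1)).1).mul (hG.rep_blk (hG.lft_P (-(w 0))))
  rw [uM, blk_mul, blk_mul] at h1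
  obtain ⟨s', hs', h2⟩ : ∃ s' : K3 → F, (∀ i, s' i ≠ 0) ∧
      InG G (blk fun i => s' i • P3 ω (if i = 2 then r else 0)) := by
    refine ⟨fun i => s i * wp ω (-(i * (w 0 - w 1).1 * (w i).2)) *
      wp ω (-((-(w 0)).1 * ((w i) + (i * (w 0 - w 1).1, i * (w 0 - w 1).2)).2)),
      fun i => mul_ne_zero (mul_ne_zero (hs i) (hG.om.wp_ne_zero _)) (hG.om.wp_ne_zero _), ?_⟩
    convert h1 using 2
    funext i
    rw [Matrix.smul_mul, P3_mul hG.om, Matrix.smul_mul, Matrix.smul_mul, P3_mul hG.om, smul_smul,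
      smul_smul]
    congr 2
    have key : ∀ a b c : K3 × K3, ∀ i : K3,
        (if i = 2 then a + b + c else 0) = (if i = 0 then a else if i = 1 then b else c) +
          (i * (a - b).1, i * (a - b).2) + -a := by decide +kernel
    rw [hrdef, key (w 0) (w 1) (w 2) i]
    obtain rfl | rfl | rfl : i = 0 ∨ i = 1 ∨ i = 2 := by revert i; decide
    all_goals simp (config := { decide := true })
  obtain ⟨B, hB, hb1, hb2⟩ := h2.exists_inv
  obtain ⟨g', rfl, hg'⟩ := blocks_inv hb1 hb2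
  have hmove : ∀ v : K3 × K3, v ≠ 0 → Tt v ≠ v ∨ Tf v ≠ v := by decide
  obtain ⟨W, T, hW, hI, hTr⟩ : ∃ (W : Matrix K3 K3 F) (T : K3 × K3 → K3 × K3),
      InG G (W ⊗ₖ (1 : Matrix K3 K3 F)) ∧ Induces ω W T ∧ T r ≠ r := by
    rcases hmove r hr with h' | h'
    · exact ⟨_, _, hG.lT, tau_P3 hG.om, h'⟩
    · exact ⟨_, _, hG.lF, four_P3 hG.om, h'⟩
  obtain ⟨k, hk, ek⟩ := hI r
  have hk3 := conj_cube hG.om (by obtain ⟨g, -, rfl⟩ := mem_comp (hG.rep_blk hW) 0; exact g.isUnit) ek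
  have h3 : InG G (blk fun i => s' i • (if i = 2 then k • P3 ω (T r) else 1)) :=
    (hG.rep_blk hW).conj h2 (by
      rw [blk_mul, blk_mul]; congr 1; funext i
      by_cases hi : i = 2
      · simp only [if_pos hi]
        rw [Matrix.mul_smul, ek, Matrix.smul_mul, Matrix.smul_mul]
      · simp [hi])
  have h4 := h3.mul hB
  rw [blk_mul] at h4
  set m : F := k * (wp ω (-((-r).1 * r.2)))⁻¹ * wp ω (-((-r).1 * (T r).2))
  have h5 : InG G (eBlk 2 (m • P3 ω (T r + -r))) := by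
    convert h4 using 1
    rw [eBlk]; congr 1; funext i
    have hgi : g' i = (s' i)⁻¹ • (if i = 2 then (wp ω (-((-r).1 * r.2)))⁻¹ • P3 ω (-r) else 1) := by
      have := hg' i
      refine ((isUnit_block h2 i)).mul_right_inj.1 (this.trans ?_)
      by_cases hi : i = 2
      · simp only [if_pos hi]
        rw [Matrix.smul_mul, Matrix.mul_smul, Matrix.mul_smul, smul_smul, P3_mul hG.om, smul_smul,
          smul_smul, add_neg_cancel, P3_zero]
        rw [← one_smul F (1 : Matrix K3 K3 F)]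
        congr 1
        · rw [mul_inv_cancel₀ (hs' i), one_mul, inv_mul_cancel₀ (hG.om.wp_ne_zero _)]
        · simp
      · simp [hi, smul_smul, inv_mul_cancel₀ (hs' i)]
    rw [hgi]
    by_cases hi : i = 2
    · simp only [if_pos hi]
      rw [Matrix.smul_mul, Matrix.smul_mul, Matrix.mul_smul, Matrix.mul_smul, P3_mul hG.om,
        smul_smul, smul_smul, smul_smul, smul_smul]
      congr 1
      have hsi := hs' i
      simp only [m]
      field_simp
    · simp [hi, smul_smul, inv_mul_cancel₀ (hs' i)]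
  refine no_eBlk hG hD hns ?_ ?_ h5
  · have wcube : ∀ a : K3, wp ω a ^ 3 = 1 := fun a => by
      rw [wp, ← pow_mul, mul_comm, pow_mul, hG.om.cube, one_pow]
    simp only [m, mul_pow, inv_pow, wcube, hk3]; norm_num
  · rw [← sub_eq_add_neg]; exact sub_ne_zero.2 hTr

/-- Sum condition for the induced maps. -/
lemma sum_induced (hD : Dicho ω) (hns : NoSL G) {h : K3 → Matrix K3 K3 F} (hh : InG G (blk h))
    {σ : K3 → K3 × K3 → K3 × K3} (hσ : ∀ i, Induces ω (h i) (σ i)) (v : K3 × K3) :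
    σ 0 v + σ 1 v + σ 2 v = 0 := by
  choose c hc e using fun i => hσ i v
  refine hG.sum_weights hD hns (w := fun i => σ i v) (s := c) hc
    (hh.conj (hG.rep_blk (hG.lft_P v)) ?_)
  rw [blk_mul, blk_mul]; congr 1; funext i
  rw [e i, Matrix.smul_mul]

end Gen

lemma linear_parts_decide : ∀ a : Fin 3, ∀ b : Fin 4, ∀ c : Fin 3, ∀ d : Fin 4,
    (∀ v : K3 × K3,
      v + (Tt^[a.val] ∘ Tf^[b.val] ∘ Tt^[c.val] ∘ Tf^[d.val])
          (Tt ((Tt^[a.val] ∘ Tf^[b.val] ∘ Tt^[c.val] ∘ Tf^[d.val]) (Tt^[2] v))) +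
        (-(Tt (-(Tt^[2] v) - (Tt^[a.val] ∘ Tf^[b.val] ∘ Tt^[c.val] ∘ Tf^[d.val]) (Tt^[2] v))) -
          (Tt^[a.val] ∘ Tf^[b.val] ∘ Tt^[c.val] ∘ Tf^[d.val])
            (Tt (-(Tt^[2] v) - (Tt^[a.val] ∘ Tf^[b.val] ∘ Tt^[c.val] ∘ Tf^[d.val]) (Tt^[2] v)))) = 0 ∧
      v + (Tt^[a.val] ∘ Tf^[b.val] ∘ Tt^[c.val] ∘ Tf^[d.val])
          (Tf ((Tt^[a.val] ∘ Tf^[b.val] ∘ Tt^[c.val] ∘ Tf^[d.val]) (Tf^[3] v))) +
        (-(Tf (-(Tf^[3] v) - (Tt^[a.val] ∘ Tf^[b.val] ∘ Tt^[c.val] ∘ Tf^[d.val]) (Tf^[3] v))) -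
          (Tt^[a.val] ∘ Tf^[b.val] ∘ Tt^[c.val] ∘ Tf^[d.val])
            (Tf (-(Tf^[3] v) - (Tt^[a.val] ∘ Tf^[b.val] ∘ Tt^[c.val] ∘ Tf^[d.val]) (Tf^[3] v)))) = 0) →
    ∀ v : K3 × K3, (Tt^[a.val] ∘ Tf^[b.val] ∘ Tt^[c.val] ∘ Tf^[d.val]) v = v := by
  decide +kernel

lemma k3_cases : ∀ i : K3, i = 0 ∨ i = 1 ∨ i = 2 := by decide

/-- Block diagonal members of an overgroup normalise the weight lines. -/
theorem fix_blk (hG : Gen ω G) (hD : Dicho ω) (hns : NoSL G) {g : K3 → Matrix K3 K3 F}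
    (hg : InG G (blk g)) : Nrm9 ω (blk g) := by
  have hn0 := good hG hD hns hg 0
  have hu0 := isUnit_block hg 0
  have hr0 := hG.rep_blk (hG.lft_nrm hu0 hn0)
  obtain ⟨B, hB, hb1, hb2⟩ := hr0.exists_inv
  obtain ⟨b, rfl, hb⟩ := blocks_inv hb1 hb2
  have hg' := hg.mul hB
  rw [blk_mul] at hg'
  set g' : K3 → Matrix K3 K3 F := fun i => g i * b i with hg'def
  have hg0 : g' 0 = 1 := hb 0
  have hrest : Nrm9 ω (blk g') := by
    have hσ : ∀ i, ∃ σ, Induces ω (g' i) σ := fun i => by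
      obtain ⟨a, b, c, d, h⟩ := exists_word_of_nrm hG.om (isUnit_block hg' i) (good hG hD hns hg' i)
      exact ⟨_, h⟩
    obtain ⟨a, b', c, d, hw1⟩ :=
      exists_word_of_nrm hG.om (isUnit_block hg' 1) (good hG hD hns hg' 1)
    set σ1 := Tt^[a.val] ∘ Tf^[b'.val] ∘ Tt^[c.val] ∘ Tf^[d.val] with hσ1
    obtain ⟨σ2, hw2⟩ := hσ 2
    let σ : K3 → K3 × K3 → K3 × K3 := fun i => if i = 0 then id else if i = 1 then σ1 else σ2
    have hσI : ∀ i, Induces ω (g' i) (σ i) := by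
      intro i
      obtain rfl | rfl | rfl : i = 0 ∨ i = 1 ∨ i = 2 := by revert i; decide
      · simp only [σ, if_pos rfl, hg0]; exact Induces.one
      · simpa (config := { decide := true }) [σ] using hw1
      · simpa (config := { decide := true }) [σ] using hw2
    have h0 : ∀ v, v + σ1 v + σ2 v = 0 := fun v => by
      simpa (config := { decide := true }) [σ] using hG.sum_induced hD hns hg' hσI v
    have h2v : ∀ v, σ2 v = -v - σ1 v := fun v => by linear_combination h0 v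
    have prod : ∀ (W V : Matrix K3 K3 F) (T U : K3 × K3 → K3 × K3),
        InG G (W ⊗ₖ (1 : Matrix K3 K3 F)) → InG G (V ⊗ₖ (1 : Matrix K3 K3 F)) →
        Induces ω W T → Induces ω V U → (∀ v, T (U v) = v) →
        ∀ v, v + σ1 (T (σ1 (U v))) + σ2 (T (σ2 (U v))) = 0 := by
      intro W V T U hW hV hI hJ hTU v
      have h2 := ((hg'.mul (hG.rep_blk hW)).mul hg').mul (hG.rep_blk hV)
      rw [blk_mul, blk_mul, blk_mul] at h2
      have hh : ∀ i, Induces ω (g' i * W * g' i * V) (σ i ∘ T ∘ σ i ∘ U) := fun i =>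
        (((hσI i).mul hI).mul (hσI i)).mul hJ
      have := hG.sum_induced hD hns h2 hh v
      simpa (config := { decide := true }) [σ, hTU] using this
    have hTinv : ∀ v : K3 × K3, Tt (Tt^[2] v) = v ∧ Tf (Tf^[3] v) = v := by decide
    have hτ2 : InG G ((tauM ω ^ 2) ⊗ₖ (1 : Matrix K3 K3 F)) := by
      have := hG.lT.mul hG.lT
      rwa [kron_mul, Matrix.one_mul, ← sq] at this
    have hF3 : InG G ((fourM ω ^ 3) ⊗ₖ (1 : Matrix K3 K3 F)) := by
      have := (hG.lF.mul hG.lF).mul hG.lF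
      rwa [kron_mul, kron_mul, Matrix.one_mul, Matrix.one_mul, ← sq, ← pow_succ] at this
    have hid : ∀ v, σ1 v = v := by
      refine linear_parts_decide a b' c d fun v => ⟨?_, ?_⟩
      · have := prod _ _ Tt (Tt^[2]) hG.lT hτ2 (tau_P3 hG.om)
          (Induces.pow (tau_P3 hG.om) 2) (fun v => (hTinv v).1) v
        rw [h2v, h2v] at this
        exact this
      · have := prod _ _ Tf (Tf^[3]) hG.lF hF3 (four_P3 hG.om)
          (Induces.pow (four_P3 hG.om) 3) (fun v => (hTinv v).2) v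
        rw [h2v, h2v] at this
        exact this
    have h3z : ∀ v : K3 × K3, -v - v = v := by decide
    have hall : ∀ i, Induces ω (g' i) id := by
      intro i v
      obtain ⟨c', hc', e⟩ := hσI i v
      refine ⟨c', hc', ?_⟩
      have : σ i v = v := by
        obtain rfl | rfl | rfl := k3_cases i
        · simp [σ]
        · simpa (config := { decide := true }) [σ] using hid v
        · simp (config := { decide := true }) [σ, h2v, hid, h3z]
      rwa [this] at e
    choose s e hs he using fun i => exists_P_of_id hG.om (isUnit_block hg' i) (hall i)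
    have he0 : e 0 = 0 := P3_ne_smul_one hG.om (c := (s 0)⁻¹) (by
      rw [← hg0, he 0, smul_smul, inv_mul_cancel₀ (hs 0), one_smul])
    have hsum : e 0 + e 1 + e 2 = 0 := hG.sum_weights hD hns hs (by
      convert hg' using 2; funext i; exact (he i).symm)
    have hei : ∀ i, e i = (i * (e 1).1, i * (e 1).2) := by
      intro i
      have key : ∀ a b : K3 × K3, 0 + a + b = 0 → b = (2 * a.1, 2 * a.2) := by decide
      obtain rfl | rfl | rfl := k3_cases i
      · rw [he0]; simp [Prod.mk_zero_zero]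
      · simp
      · exact key _ _ (by simpa [he0] using hsum)
    set u := e 1
    have e1 : blk g' = (Matrix.diagonal s ⊗ₖ (1 : Matrix K3 K3 F)) * uM ω u := by
      rw [← blk_scalar, uM, blk_mul]; congr 1; funext i
      rw [he i, hei i, Matrix.smul_mul, Matrix.one_mul]
    have hd' : InG G (Matrix.diagonal s ⊗ₖ (1 : Matrix K3 K3 F)) :=
      InG.cancel_right (hG.uM_mem u).1 (e1 ▸ hg')
    have hdN : Nrm3 ω (Matrix.diagonal s) := good hG hD hns (hG.rep_blk hd') 0
    rw [e1]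
    exact (Nrm9.kron hdN Nrm3.one).mul (hG.uM_mem u).2
  have e2 : blk g = blk g' * blk (fun _ => g 0) := by
    rw [blk_mul]; congr 1; funext i
    rw [hg'def]
    show g i = g i * b i * g 0
    rw [Matrix.mul_assoc, mul_eq_one_comm.1 (hb i), Matrix.mul_one]
  rw [e2, blk_const]
  exact hrest.mul (Nrm9.kron Nrm3.one hn0)

end Cfsg.Agent.CSixNine
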