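import Cfsg.Agent.CSixNine.CentJ

/-!
Involutions commuting with `1 ⊗ π` which normalise the weight lines.
-/

set_option autoImplicit false
set_option linter.unusedSectionVars false

namespace Cfsg.Agent.CSixNine

open Matrix
open scoped MatrixGroups Matrix Kronecker

variable {F : Type*} [Field F] {ω : F} {G : Subgroup (GL I9 F)}

/-- Inversion on both factors. -/
def JJ : Matrix I9 I9 F := Pim ⊗ₖ Pim

/-- Inversion on the first factor. -/
def pl : Matrix I9 I9 F := Pim ⊗ₖ (1 : Matrix K3 K3 F)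

lemma Pim_P3 (v : K3 × K3) : (Pim : Matrix K3 K3 F) * P3 ω v = P3 ω (-v) * Pim := by
  ext i k
  rw [Matrix.mul_apply, Matrix.mul_apply, Finset.sum_eq_single (-i), Finset.sum_eq_single (-k)]
  · simp only [Pim, Matrix.of_apply, P3_apply, Prod.fst_neg, Prod.snd_neg, add_neg_cancel,
      if_true, one_mul, neg_add_cancel, mul_one]
    by_cases h : -i = k + v.2
    · rw [if_pos h, if_pos (show i = -k + -v.2 by linear_combination (-1 : K3) * h)]
      congr 1; ring
    · rw [if_neg h, if_neg fun hh => h (by linear_combination (-1 : K3) * hh)]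
  · intro b _ hb
    rw [Pim, Matrix.of_apply, if_neg (fun h => hb (eq_neg_of_add_eq_zero_left h)), mul_zero]
  · simp
  · intro b _ hb
    rw [Pim, Matrix.of_apply, if_neg (fun h => hb (eq_neg_of_add_eq_zero_right h)), zero_mul]
  · simp

lemma pj_P9 (v : W9) : (pj : Matrix I9 I9 F) * P9 ω v = P9 ω (v.1, -v.2) * pj := by
  rw [pj, P9, P9, kron_mul, kron_mul, Matrix.one_mul, Matrix.mul_one, Pim_P3]

lemma pl_P9 (v : W9) : (pl : Matrix I9 I9 F) * P9 ω v = P9 ω (-v.1, v.2) * pl := by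
  rw [pl, P9, P9, kron_mul, kron_mul, Matrix.one_mul, Matrix.mul_one, Pim_P3]

lemma JJ_P9 (v : W9) : (JJ : Matrix I9 I9 F) * P9 ω v = P9 ω (-v) * JJ := by
  rw [JJ, P9, P9, kron_mul, kron_mul, Pim_P3, Pim_P3]
  rfl

lemma pj_sq : (pj : Matrix I9 I9 F) * pj = 1 := by
  rw [pj, kron_mul, Matrix.one_mul, Pim_sq, Matrix.one_kronecker_one]

lemma pl_sq : (pl : Matrix I9 I9 F) * pl = 1 := by
  rw [pl, kron_mul, Matrix.one_mul, Pim_sq, Matrix.one_kronecker_one]

lemma JJ_sq : (JJ : Matrix I9 I9 F) * JJ = 1 := by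
  rw [JJ, kron_mul, Pim_sq, Matrix.one_kronecker_one]

set_option synthInstance.maxSize 2000 in
lemma sign_table : ∀ a b : K3 × K3, sym a b = 1 →
    (a.1 * a.1 + a.2 * b.1, a.1 * a.2 + a.2 * b.2) = ((1 : K3), (0 : K3)) →
    (b.1 * a.1 + b.2 * b.1, b.1 * a.2 + b.2 * b.2) = ((0 : K3), (1 : K3)) →
    (a = (1, 0) ∧ b = (0, 1)) ∨ (a = (2, 0) ∧ b = (0, 2)) := by
  decide +kernel

lemma lin_comb : ∀ v : K3 × K3, (v.1.val : ℕ) • ((1 : K3), (0 : K3)) +
    (v.2.val : ℕ) • ((0 : K3), (1 : K3)) = v ∧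
    (v.1.val : ℕ) • ((2 : K3), (0 : K3)) + (v.2.val : ℕ) • ((0 : K3), (2 : K3)) = -v := by decide

lemma nsmul_pair : ∀ v a b : K3 × K3, (v.1.val : ℕ) • a + (v.2.val : ℕ) • b =
    (v.1 * a.1 + v.2 * b.1, v.1 * a.2 + v.2 * b.2) := by decide +kernel

/-- An involution preserving a nondegenerate plane of weights acts on it as a sign. -/
lemma sign_of_restrict (hω : Omega ω) (ι : K3 × K3 →+ W9) (hι : Function.Injective ι)
    (hsym : ∀ v w, sym9 (ι v) (ι w) = sym v w) {z : Matrix I9 I9 F} (hu : IsUnit z)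
    (hz : z * z = 1)
    (h : ∀ v, ∃ w, ∃ c : F, c ≠ 0 ∧ z * P9 ω (ι v) = c • (P9 ω (ι w) * z)) :
    (∀ v, ∃ c : F, z * P9 ω (ι v) = c • (P9 ω (ι v) * z)) ∨
      ∀ v, ∃ c : F, z * P9 ω (ι v) = c • (P9 ω (ι (-v)) * z) := by
  choose T c hc e using h
  have hadd : ∀ v w, T (v + w) = T v + T w := by
    intro v w
    set α := wp ω (-((ι w).1.1 * (ι v).1.2) + -((ι w).2.1 * (ι v).2.2))
    set β := wp ω (-((ι (T w)).1.1 * (ι (T v)).1.2) + -((ι (T w)).2.1 * (ι (T v)).2.2))
    have e1 : z * (P9 ω (ι v) * P9 ω (ι w)) =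
        (c v * c w) • (P9 ω (ι (T v)) * P9 ω (ι (T w)) * z) := by
      rw [← Matrix.mul_assoc, e v, Matrix.smul_mul, Matrix.mul_assoc, e w, Matrix.mul_smul,
        smul_smul, Matrix.mul_assoc]
    rw [P9_mul hω, P9_mul hω, ← map_add, ← map_add, Matrix.mul_smul, e (v + w), smul_smul,
      Matrix.smul_mul, smul_smul] at e1
    have h1 : α * c (v + w) ≠ 0 := mul_ne_zero (hω.wp_ne_zero _) (hc _)
    have e2 : P9 ω (ι (T (v + w))) * z =
        ((α * c (v + w))⁻¹ * (c v * c w * β)) • (P9 ω (ι (T v + T w)) * z) := by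
      rw [mul_smul, ← e1, smul_smul, inv_mul_cancel₀ h1, one_smul]
    rw [← Matrix.smul_mul] at e2
    exact hι (P9_line hω (hu.mul_left_inj.1 e2))
  have hinv : ∀ v, T (T v) = v := by
    intro v
    have e1 : P9 ω (ι v) = (c v * c (T v)) • P9 ω (ι (T (T v))) := by
      refine hu.mul_left_inj.1 (hu.mul_left_inj.1 ?_)
      calc P9 ω (ι v) * z * z = z * (z * P9 ω (ι v)) := by
            rw [Matrix.mul_assoc, hz, Matrix.mul_one, ← Matrix.mul_assoc, hz, Matrix.one_mul]
        _ = (c v * c (T v)) • P9 ω (ι (T (T v))) * z * z := by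
            rw [e v, Matrix.mul_smul, ← Matrix.mul_assoc, e (T v), Matrix.smul_mul, smul_smul,
              Matrix.smul_mul, Matrix.smul_mul]
    exact (hι (P9_line hω e1)).symm
  have hs : sym (T (1, 0)) (T (0, 1)) = 1 := by
    have L : z * (P9 ω (ι (1, 0)) * P9 ω (ι (0, 1))) =
        (c (1, 0) * c (0, 1)) • (P9 ω (ι (T (1, 0))) * P9 ω (ι (T (0, 1))) * z) := by
      rw [← Matrix.mul_assoc, e, Matrix.smul_mul, Matrix.mul_assoc, e, Matrix.mul_smul, smul_smul,
        Matrix.mul_assoc]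
    have R : z * (P9 ω (ι (0, 1)) * P9 ω (ι (1, 0))) =
        (c (1, 0) * c (0, 1)) • (P9 ω (ι (T (0, 1))) * P9 ω (ι (T (1, 0))) * z) := by
      rw [← Matrix.mul_assoc, e, Matrix.smul_mul, Matrix.mul_assoc, e, Matrix.mul_smul, smul_smul,
        Matrix.mul_assoc, mul_comm (c (0, 1))]
    rw [P9_comm hω (ι (1, 0)), Matrix.mul_smul, R, P9_comm hω (ι (T (1, 0))), Matrix.smul_mul,
      smul_smul, smul_smul, hsym, hsym] at L
    have hu' : IsUnit (P9 ω (ι (T (0, 1))) * P9 ω (ι (T (1, 0))) * z) :=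
      ((isUnit_P9 hω _).mul (isUnit_P9 hω _)).mul hu
    have := smul_left_injective F hu'.ne_zero L
    have h1 : sym ((1, 0) : K3 × K3) (0, 1) = 1 := by decide
    rw [h1, mul_comm (c (1, 0) * c (0, 1))] at this
    exact (hω.wp_inj (mul_right_cancel₀ (mul_ne_zero (hc _) (hc _)) this)).symm
  have hT0 : T 0 = 0 := by
    have := hadd 0 0
    rw [add_zero] at this
    exact left_eq_add.1 this
  have hsm : ∀ (n : ℕ) v, T (n • v) = n • T v := by
    intro n v
    induction n with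
    | zero => rw [zero_smul, zero_smul, hT0]
    | succ n ih => rw [succ_nsmul, succ_nsmul, hadd, ih]
  have hlin : ∀ v : K3 × K3, T v = (v.1.val : ℕ) • T (1, 0) + (v.2.val : ℕ) • T (0, 1) := by
    intro v
    conv_lhs => rw [← (lin_comb v).1, hadd, hsm, hsm]
  rcases sign_table (T (1, 0)) (T (0, 1)) hs
      (by rw [← nsmul_pair, ← hlin, hinv]) (by rw [← nsmul_pair, ← hlin, hinv]) with
    ⟨h1, h2⟩ | ⟨h1, h2⟩
  · refine Or.inl fun v => ⟨c v, ?_⟩
    have : T v = v := by rw [hlin, h1, h2]; exact (lin_comb v).1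
    simpa only [this] using e v
  · refine Or.inr fun v => ⟨c v, ?_⟩
    have : T v = -v := by rw [hlin, h1, h2]; exact (lin_comb v).2
    simpa only [this] using e v

/-- Embedding of a plane of weights as the first factor. -/
def inFst : K3 × K3 →+ W9 := AddMonoidHom.inl _ _

/-- Embedding of a plane of weights as the second factor. -/
def inSnd : K3 × K3 →+ W9 := AddMonoidHom.inr _ _

lemma P9_split (v : W9) : P9 ω v = P9 ω (v.1, (0 : K3 × K3)) * P9 ω ((0 : K3 × K3), v.2) := by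
  simp only [P9, P3_zero, kron_mul, Matrix.one_mul, Matrix.mul_one]

lemma double_eq_zero : ∀ x : K3 × K3, x + x = 0 → x = 0 := by decide

/-- An involution commuting with `1 ⊗ π` which normalises the weight lines. -/
theorem invol_kind [Finite F] (hG : Gen ω G) (hD : Dicho ω) (hns : NoSL G) {z : Matrix I9 I9 F}
    (hzn : Nrm9 ω z) (hzp : Cp z) (hz2 : z * z = 1) (hzs : ∀ c : F, z ≠ c • 1) :
    (∀ A, InG G A → A * z = z * A → Nrm9 ω A) ∨
      ∃ (s : F) (r : W9), s ≠ 0 ∧ r.2 = 0 ∧ z = s • (P9 ω r * JJ) := by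
  have hω := hG.om
  have hu : IsUnit z := IsUnit.of_mul_eq_one z hz2
  have he : z * pj = pj * z := hzp
  have hup : IsUnit (z * pj) := hu.mul (IsUnit.of_mul_eq_one pj pj_sq)
  have hconj : ∀ {v w : W9} {c : F}, z * P9 ω v = c • (P9 ω w * z) →
      z * P9 ω (v.1, -v.2) = c • (P9 ω (w.1, -w.2) * z) := by
    intro v w c e
    refine (IsUnit.of_mul_eq_one pj pj_sq : IsUnit (pj : Matrix I9 I9 F)).mul_left_inj.1 ?_
    calc z * P9 ω (v.1, -v.2) * pj = z * pj * P9 ω v := by
          rw [Matrix.mul_assoc, ← pj_P9, ← Matrix.mul_assoc]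
      _ = pj * (c • (P9 ω w * z)) := by rw [he, Matrix.mul_assoc, e]
      _ = c • (P9 ω (w.1, -w.2) * z) * pj := by
          rw [Matrix.mul_smul, ← Matrix.mul_assoc, pj_P9, Matrix.smul_mul, Matrix.mul_assoc, ← he,
            Matrix.mul_assoc]
  have r1 : ∀ v, ∃ w, ∃ c : F, c ≠ 0 ∧ z * P9 ω (inFst v) = c • (P9 ω (inFst w) * z) := by
    intro v
    obtain ⟨⟨w₁, w₂⟩, c, hc, e⟩ := hzn (v, 0)
    have e' := hconj e
    simp only [neg_zero] at e'
    rw [e] at e'
    have h2 := hu.mul_left_inj.1 (smul_right_injective (Matrix I9 I9 F) hc e')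
    have h4 : ∀ x : K3 × K3, x = -x → x = 0 := by decide
    have : w₂ = 0 := h4 _ (congrArg Prod.snd
      (P9_line hω (show P9 ω (w₁, w₂) = (1 : F) • P9 ω (w₁, -w₂) by rw [one_smul]; exact h2)))
    subst this
    exact ⟨w₁, c, hc, e⟩
  have r2 : ∀ v, ∃ w, ∃ c : F, c ≠ 0 ∧ z * P9 ω (inSnd v) = c • (P9 ω (inSnd w) * z) := by
    intro v
    obtain ⟨⟨w₁, w₂⟩, c, hc, e⟩ := hzn (0, v)
    have e' := hconj e
    set α := wp ω (-((((0 : K3 × K3), -v) : W9).1.1 * (((0 : K3 × K3), v) : W9).1.2) +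
      -((((0 : K3 × K3), -v) : W9).2.1 * (((0 : K3 × K3), v) : W9).2.2))
    set β := wp ω (-(((w₁, -w₂) : W9).1.1 * ((w₁, w₂) : W9).1.2) +
      -(((w₁, -w₂) : W9).2.1 * ((w₁, w₂) : W9).2.2))
    have e1 : z * (P9 ω ((0 : K3 × K3), v) * P9 ω ((0 : K3 × K3), -v)) =
        (c * c) • (P9 ω (w₁, w₂) * P9 ω (w₁, -w₂) * z) := by
      rw [← Matrix.mul_assoc, e, Matrix.smul_mul, Matrix.mul_assoc, e', Matrix.mul_smul, smul_smul,
        Matrix.mul_assoc]
    rw [P9_mul hω, P9_mul hω,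
      show ((((0 : K3 × K3), v) : W9) + (0, -v)) = 0 from Prod.ext (add_zero _) (add_neg_cancel _),
      show (((w₁, w₂) : W9) + (w₁, -w₂)) = (w₁ + w₁, 0) from Prod.ext rfl (add_neg_cancel _),
      P9_zero, Matrix.mul_smul, Matrix.mul_one, Matrix.smul_mul,
      smul_smul] at e1
    have hb : c * c * β ≠ 0 := mul_ne_zero (mul_ne_zero hc hc) (hω.wp_ne_zero _)
    have e2 : P9 ω (w₁ + w₁, (0 : K3 × K3)) = ((c * c * β)⁻¹ * α) • (1 : Matrix I9 I9 F) := by
      refine hu.mul_left_inj.1 ?_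
      rw [Matrix.smul_mul, Matrix.one_mul, mul_smul, e1, smul_smul, inv_mul_cancel₀ hb, one_smul]
    have : w₁ = 0 := double_eq_zero _ (congrArg Prod.fst (P9_ne_smul_one hω e2))
    subst this
    exact ⟨w₂, c, hc, e⟩
  have hboth : ∀ (M : Matrix I9 I9 F) (S₁ S₂ : K3 × K3 → K3 × K3), M * M = 1 →
      (∀ v : W9, M * P9 ω v = P9 ω (S₁ v.1, S₂ v.2) * M) →
      (∀ v, S₁ (S₁ v) = v) → (∀ v, S₂ (S₂ v) = v) →
      (∀ v, ∃ c : F, z * P9 ω (inFst v) = c • (P9 ω (inFst (S₁ v)) * z)) →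
      (∀ v, ∃ c : F, z * P9 ω (inSnd v) = c • (P9 ω (inSnd (S₂ v)) * z)) →
      ∃ (s : F) (e : W9), s ≠ 0 ∧ z = s • (P9 ω e * M) := by
    intro M S₁ S₂ hM hMP hS₁ hS₂ h1 h2
    have hall : ∀ v : W9, ∃ c : F, z * P9 ω v = c • (P9 ω (S₁ v.1, S₂ v.2) * z) := by
      intro v
      obtain ⟨c, e⟩ := h1 v.1
      obtain ⟨d, e'⟩ := h2 v.2
      simp only [inFst, inSnd, AddMonoidHom.inl_apply, AddMonoidHom.inr_apply] at e e'
      refine ⟨c * d, ?_⟩
      rw [P9_split v, ← Matrix.mul_assoc, e, Matrix.smul_mul, Matrix.mul_assoc, e', Matrix.mul_smul,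
        smul_smul, ← Matrix.mul_assoc, ← P9_split (S₁ v.1, S₂ v.2)]
    obtain ⟨s, e, hs, hse⟩ := exists_P9_of_id hω (A := z * M)
      (hu.mul (IsUnit.of_mul_eq_one M hM)) (fun v => by
        obtain ⟨c, hc⟩ := hall (S₁ v.1, S₂ v.2)
        refine ⟨c, ?_⟩
        rw [hS₁, hS₂] at hc
        rw [Matrix.mul_assoc, hMP, ← Matrix.mul_assoc, hc, Matrix.smul_mul, Matrix.mul_assoc])
    refine ⟨s, e, hs, ?_⟩
    calc z = z * M * M := by rw [Matrix.mul_assoc, hM, Matrix.mul_one]
      _ = _ := by rw [hse, Matrix.smul_mul]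
  have hsymF : ∀ v w, sym9 (inFst v) (inFst w) = sym v w := fun v w => by
    simp [inFst, sym9, sym]
  have hsymS : ∀ v w, sym9 (inSnd v) (inSnd w) = sym v w := fun v w => by
    simp [inSnd, sym9, sym]
  have sqz : ∀ {s : F} {M : Matrix I9 I9 F} {e e' : W9}, s ≠ 0 → M * M = 1 →
      M * P9 ω e = P9 ω e' * M → z = s • (P9 ω e * M) → e + e' = 0 := by
    intro s M e e' hs hM hMP hz
    have h := hz2
    rw [hz, Matrix.smul_mul, Matrix.mul_smul, smul_smul, Matrix.mul_assoc,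
      ← Matrix.mul_assoc M, hMP, Matrix.mul_assoc (P9 ω e') M, hM, Matrix.mul_one,
      P9_mul hω, smul_smul] at h
    set k := s * s * wp ω (-(e'.1.1 * e.1.2) + -(e'.2.1 * e.2.2))
    have hk : k ≠ 0 := mul_ne_zero (mul_ne_zero hs hs) (hω.wp_ne_zero _)
    exact P9_ne_smul_one hω (c := k⁻¹) (by rw [← h, smul_smul, inv_mul_cancel₀ hk, one_smul])
  have cpz : ∀ {s : F} {M : Matrix I9 I9 F} {e : W9}, s ≠ 0 → M * M = 1 → M * pj = pj * M →
      z = s • (P9 ω e * M) → e.2 = 0 := by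
    intro s M e hs hM hMp hz
    have h := he
    rw [hz, Matrix.smul_mul, Matrix.mul_smul, Matrix.mul_assoc, hMp, ← Matrix.mul_assoc,
      ← Matrix.mul_assoc pj, pj_P9] at h
    have h2 := smul_right_injective (Matrix I9 I9 F) hs h
    have hu' : IsUnit (pj * M : Matrix I9 I9 F) :=
      (IsUnit.of_mul_eq_one pj pj_sq).mul (IsUnit.of_mul_eq_one M hM)
    rw [Matrix.mul_assoc, Matrix.mul_assoc] at h2
    have h3 : P9 ω e = (1 : F) • P9 ω (e.1, -e.2) := by
      rw [one_smul]; exact hu'.mul_left_inj.1 h2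
    have h4 : ∀ x : K3 × K3, x = -x → x = 0 := by decide
    exact h4 _ (congrArg Prod.snd (P9_line hω h3))
  rcases sign_of_restrict hω inFst (fun a b h => congrArg Prod.fst h) hsymF hu hz2 r1 with h1 | h1
  · rcases sign_of_restrict hω inSnd (fun a b h => congrArg Prod.snd h) hsymS hu hz2 r2 with
      h2 | h2
    · exfalso
      obtain ⟨s, e, hs, hse⟩ := hboth 1 id id (mul_one _)
        (fun v => by rw [Matrix.one_mul, Matrix.mul_one]; rfl) (fun _ => rfl) (fun _ => rfl) h1 h2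
      have hee := sqz hs (mul_one _) (by rw [Matrix.one_mul, Matrix.mul_one]) hse
      have h4 : ∀ e : W9, e + e = 0 → e = 0 := fun e h =>
        Prod.ext (double_eq_zero _ (congrArg Prod.fst h)) (double_eq_zero _ (congrArg Prod.snd h))
      rw [h4 e hee, P9_zero, Matrix.one_mul] at hse
      exact hzs s hse
    · left
      obtain ⟨s, e, hs, hse⟩ := hboth pj id (fun v => -v) pj_sq (fun v => pj_P9 v) (fun _ => rfl)
        (fun v => neg_neg v) h1 h2
      have e2 := cpz hs pj_sq rfl hse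
      have hee := sqz hs pj_sq (pj_P9 e) hse
      have e1 : e.1 = 0 := double_eq_zero _ (congrArg Prod.fst hee)
      rw [show e = 0 from Prod.ext e1 e2, P9_zero, Matrix.one_mul] at hse
      intro A hA hAz
      rw [hse, Matrix.mul_smul, Matrix.smul_mul] at hAz
      exact centJ hG hD hns hA (smul_right_injective (Matrix I9 I9 F) hs hAz)
  · rcases sign_of_restrict hω inSnd (fun a b h => congrArg Prod.snd h) hsymS hu hz2 r2 with
      h2 | h2
    · left
      obtain ⟨s, e, hs, hse⟩ := hboth pl (fun v => -v) id pl_sq (fun v => pl_P9 v)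
        (fun v => neg_neg v) (fun _ => rfl) h1 h2
      have hee := sqz hs pl_sq (pl_P9 e) hse
      have e2 : e.2 = 0 := double_eq_zero _ (congrArg Prod.snd hee)
      set x : W9 := (-e.1, 0) with hx
      obtain ⟨V, hV, hV1, hV2⟩ := (hG.P9_mem x).exists_inv
      set k : F := s * wp ω (-((-x).1.1 * e.1.2) + -((-x).2.1 * e.2.2)) with hk
      have hk0 : k ≠ 0 := mul_ne_zero hs (hω.wp_ne_zero _)
      have hzW : z * P9 ω x = k • (P9 ω x * pl) := by
        rw [hse, Matrix.smul_mul, Matrix.mul_assoc, pl_P9, ← Matrix.mul_assoc,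
          show ((-x.1, x.2) : W9) = -x from Prod.ext rfl (by simp [hx]), P9_mul hω,
          Matrix.smul_mul, smul_smul]
        congr 2
        have h3 : ∀ x : K3 × K3, x + x = -x := by decide
        refine congrArg _ (Prod.ext ?_ ?_)
        · simp [hx, h3]
        · simp [hx, e2]
      intro A hA hAz
      have hB := (hV.mul hA).mul (hG.P9_mem x)
      have hVz : V * z = k • (pl * V) := by
        calc V * z = V * (z * P9 ω x) * V := by
              rw [Matrix.mul_assoc, Matrix.mul_assoc, hV1, Matrix.mul_one]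
          _ = _ := by
              rw [hzW, Matrix.mul_smul, Matrix.smul_mul, ← Matrix.mul_assoc V, hV2, Matrix.one_mul]
      have hBp : V * A * P9 ω x * pl = pl * (V * A * P9 ω x) := by
        refine smul_right_injective (Matrix I9 I9 F) hk0 ?_
        show k • _ = k • _
        calc k • (V * A * P9 ω x * pl) = V * A * (k • (P9 ω x * pl)) := by
              rw [Matrix.mul_smul, Matrix.mul_assoc (V * A)]
          _ = V * (A * z) * P9 ω x := by rw [← hzW]; simp only [Matrix.mul_assoc]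
          _ = V * z * A * P9 ω x := by rw [hAz]; simp only [Matrix.mul_assoc]
          _ = _ := by rw [hVz]; simp only [Matrix.smul_mul, Matrix.mul_assoc]
      have hswpl : sw (pl : Matrix I9 I9 F) = pj := sw_kronecker _ _
      have hswB : Cp (sw (V * A * P9 ω x)) := by
        rw [Cp, ← hswpl, ← sw_mul, ← sw_mul, hBp]
      have hn := centJ hG hD hns (hG.sw_mem hB) hswB
      have hswM2 : (swM : Matrix I9 I9 F) * swM = 1 := by
        ext p q
        rw [Matrix.mul_apply, Finset.sum_eq_single p.swap]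
        · by_cases h : p = q <;> simp [swM, Matrix.one_apply, h]
        · intro b _ hb
          have : p ≠ b.swap := fun h => hb (by rw [h, Prod.swap_swap])
          simp [swM, this]
        · simp
      have hn2 : Nrm9 ω (V * A * P9 ω x) := by
        have := (Nrm9.swap.mul hn).mul Nrm9.swap
        rwa [swM_mul, sw_sw, Matrix.mul_assoc, hswM2, Matrix.mul_one] at this
      have hxn := Nrm9.weight (F := F) hω x
      have := (hxn.mul hn2).mul (Nrm9.of_mul_eq_one hω hV1 hxn)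
      simp only [← Matrix.mul_assoc, hV1, Matrix.one_mul] at this
      rwa [Matrix.mul_assoc, hV1, Matrix.mul_one] at this
    · right
      obtain ⟨s, e, hs, hse⟩ := hboth JJ (fun v => -v) (fun v => -v) JJ_sq (fun v => JJ_P9 v)
        (fun v => neg_neg v) (fun v => neg_neg v) h1 h2
      refine ⟨s, e, hs, cpz hs JJ_sq ?_ hse, hse⟩
      rw [JJ, pj, kron_mul, kron_mul, Matrix.one_mul, Matrix.mul_one]

end Cfsg.Agent.CSixNine
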