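import Cfsg.Agent.CSixNine.KerK

/-!
The group `K0` is scalar on the two remaining eigenspaces.
-/

set_option autoImplicit false
set_option linter.unusedSectionVars false

namespace Cfsg.Agent.CSixNine

open Matrix
open scoped MatrixGroups Matrix Kronecker

variable {F : Type*} [Field F] {ω : F} {G : Subgroup (GL I9 F)}

/-- The action of the members of `K0` trivial on `F^3 ⊗ e₀`. -/
def imgA (hω : Omega ω) (G : Subgroup (GL I9 F)) : Subgroup (GL K3 F) where
  carrier := {a | ∃ A, K0 ω G A ∧ bM A = 1 ∧ aM A = a}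
  one_mem' := ⟨1, K0.one, bM_one, by rw [aM_one]; rfl⟩
  mul_mem' := by
    rintro a b ⟨A, hA, hA1, ea⟩ ⟨B, hB, hB1, eb⟩
    exact ⟨A * B, hA.mul hB, by rw [bM_mul hω hA.2.1 hB.2.1, hA1, hB1, one_mul],
      by rw [aM_mul hω hA.2.1 hB.2.1, ea, eb]; rfl⟩
  inv_mem' := by
    rintro a ⟨A, hA, hA1, ea⟩
    obtain ⟨B, hB, -, ha, hb⟩ := hA.exists_inv hω
    rw [hA1, one_mul] at hb
    refine ⟨B, hB, hb, ?_⟩
    calc aM B = ((a⁻¹ : GL K3 F) : Matrix K3 K3 F) * (aM A * aM B) := by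
          rw [← Matrix.mul_assoc, ea, a.inv_mul, Matrix.one_mul]
      _ = _ := by rw [ha, Matrix.mul_one]

/-- The action of `K0` on `F^3 ⊗ e₀`. -/
def imgB (hω : Omega ω) (G : Subgroup (GL I9 F)) : Subgroup (GL K3 F) where
  carrier := {a | ∃ A, K0 ω G A ∧ bM A = a}
  one_mem' := ⟨1, K0.one, by rw [bM_one]; rfl⟩
  mul_mem' := by
    rintro a b ⟨A, hA, ea⟩ ⟨B, hB, eb⟩
    exact ⟨A * B, hA.mul hB, by rw [bM_mul hω hA.2.1 hB.2.1, ea, eb]; rfl⟩
  inv_mem' := by
    rintro a ⟨A, hA, ea⟩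
    obtain ⟨B, hB, -, -, hb⟩ := hA.exists_inv hω
    refine ⟨B, hB, ?_⟩
    calc bM B = ((a⁻¹ : GL K3 F) : Matrix K3 K3 F) * (bM A * bM B) := by
          rw [← Matrix.mul_assoc, ea, a.inv_mul, Matrix.one_mul]
      _ = _ := by rw [hb, Matrix.mul_one]

lemma mem_imgA (hω : Omega ω) {A : Matrix I9 I9 F} (hA : K0 ω G A) (hb : bM A = 1) :
    InG (imgA hω G) (aM A) := by
  obtain ⟨B, -, -, ha, -⟩ := hA.exists_inv hω
  have hu : IsUnit (aM A) := IsUnit.of_mul_eq_one _ ha
  exact ⟨hu.unit, ⟨A, hA, hb, hu.unit_spec.symm⟩, hu.unit_spec⟩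

lemma mem_imgB (hω : Omega ω) {A : Matrix I9 I9 F} (hA : K0 ω G A) :
    InG (imgB hω G) (bM A) := by
  obtain ⟨B, -, -, -, hb⟩ := hA.exists_inv hω
  have hu : IsUnit (bM A) := IsUnit.of_mul_eq_one _ hb
  exact ⟨hu.unit, ⟨A, hA, hu.unit_spec.symm⟩, hu.unit_spec⟩

lemma P3_div (hω : Omega ω) (v w : K3 × K3) :
    ∃ k : F, P3 ω w = k • (P3 ω (w - v) * P3 ω v) := by
  refine ⟨(wp ω (-(v.1 * (w - v).2)))⁻¹, ?_⟩
  rw [P3_mul hω, smul_smul, inv_mul_cancel₀ (hω.wp_ne_zero _), sub_add_cancel, one_smul]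

lemma exists_weight (hω : Omega ω) (d : K3 × K3) :
    ∃ d' : K3 × K3, d' ≠ 0 ∧ ∀ k : F,
      (k • P3 ω d) * P3 ω d' = P3 ω d' * (k • P3 ω d) := by
  by_cases hd : d = 0
  · exact ⟨(1, 0), by decide, fun k => by subst hd; simp⟩
  · exact ⟨d, hd, fun k => by rw [Matrix.smul_mul, Matrix.mul_smul]⟩

section Main

variable (hG : Gen ω G) (hD : Dicho ω) (hns : NoSL G)
include hG hD hns

lemma form_of_commute_both {A : Matrix I9 I9 F} (hA : K0 ω G A) {d : K3 × K3} (hd : d ≠ 0)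
    (ha : aM A * P3 ω d = P3 ω d * aM A) (hb : bM A * P3 ω d = P3 ω d * bM A) :
    ∃ (σ : F) (t : K3), σ ^ 2 = 1 ∧ aM A = σ • 1 ∧ bM A = (σ * wp ω t) • 1 := by
  have hω := hG.om
  have hW : Ck ω (P3 ω d ⊗ₖ (1 : Matrix K3 K3 F)) := Ck.left _
  have e : A * (P3 ω d ⊗ₖ (1 : Matrix K3 K3 F)) = (P3 ω d ⊗ₖ (1 : Matrix K3 K3 F)) * A := by
    refine ck_ext hω hG.two (hA.2.1.mul hW) (hW.mul hA.2.1) ?_ ?_ ?_
    · rw [fM_mul hA.2.1.1 hW.1, fM_mul hW.1 hA.2.1.1, hA.2.2, fM_left, one_mul, mul_one]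
    · rw [aM_mul hω hA.2.1 hW, aM_mul hω hW hA.2.1, aM_left, ha]
    · rw [bM_mul hω hA.2.1 hW, bM_mul hω hW hA.2.1, bM_left, hb]
  refine k0_form hG hA (proj_centraliser hG hD hns hA.1 (r := (d, 0)) ?_ (c := 1) ?_)
  · exact fun h => hd (congrArg Prod.fst h)
  · rw [one_smul, P9, P3_zero, e]

/-- The commutator of a member of `K0` with a weight operator. -/
lemma k0_commutator {A : Matrix I9 I9 F} (hA : K0 ω G A) (v : K3 × K3) :
    ∃ A', K0 ω G A' ∧ (bM A = 1 → bM A' = 1) ∧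
      aM A' * P3 ω v * aM A = aM A * P3 ω v ∧ bM A' * P3 ω v * bM A = bM A * P3 ω v := by
  have hω := hG.om
  obtain ⟨B, hB, -, ha, hb⟩ := hA.exists_inv hω
  obtain ⟨B', hB', ea, eb, -⟩ :=
    hB.conj hG (isUnit_P3 hω v) (fun u => ⟨u, _, hω.wp_ne_zero _, P3_comm hω v u⟩)
  refine ⟨A * B', hA.mul hB', fun h1 => ?_, ?_, ?_⟩
  · rw [h1, one_mul] at hb
    rw [hb, Matrix.mul_one] at eb
    rw [bM_mul hω hA.2.1 hB'.2.1, h1, one_mul]
    exact ((isUnit_P3 hω v).mul_left_inj.1 (eb.symm.trans (Matrix.one_mul _).symm))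
  · rw [aM_mul hω hA.2.1 hB'.2.1, Matrix.mul_assoc (aM A), ← ea, Matrix.mul_assoc,
      Matrix.mul_assoc, mul_eq_one_comm.1 ha, Matrix.mul_one]
  · rw [bM_mul hω hA.2.1 hB'.2.1, Matrix.mul_assoc (bM A), ← eb, Matrix.mul_assoc,
      Matrix.mul_assoc, mul_eq_one_comm.1 hb, Matrix.mul_one]

lemma aM_eq_one {A : Matrix I9 I9 F} (hA : K0 ω G A) (hb : bM A = 1) : aM A = 1 := by
  have hω := hG.om
  have sigma : ∀ {σ : F} {t : K3}, σ ^ 2 = 1 → (1 : Matrix K3 K3 F) = (σ * wp ω t) • 1 → σ = 1 := by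
    intro σ t h e
    have e' := congrFun (congrFun e 0) 0
    simp only [Matrix.one_apply_eq, Matrix.smul_apply, smul_eq_mul, mul_one] at e'
    linear_combination (-σ * wp ω t * (σ * wp ω t + 1) - 1) * e' - σ * wp_cube hω t -
      σ * wp ω t ^ 3 * h
  rcases dicho_normalised hG hD (imgA hω G) (fun X hX hn M M' hM e => by
    obtain ⟨g, ⟨C, hC, hC1, eC⟩, rfl⟩ := hM
    obtain ⟨C', hC', ea, eb, -⟩ := hC.conj hG hX hn
    rw [hC1, Matrix.mul_one] at eb
    have hb' : bM C' = 1 := (hX.mul_left_inj.1 (eb.symm.trans (Matrix.one_mul _).symm))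
    rw [eC, e] at ea
    rw [hX.mul_left_inj.1 ea]
    exact mem_imgA hω hC' hb') with h | h
  · have hn := h _ (mem_imgA hω hA hb)
    have hcomm : ∀ v, aM A * P3 ω v = P3 ω v * aM A := by
      intro v
      obtain ⟨w, c, -, e⟩ := hn v
      obtain ⟨k, hk⟩ := P3_div hω v w
      obtain ⟨A', hA', hb', ea, -⟩ := k0_commutator hG hD hns hA v
      have hu : IsUnit (P3 ω v * aM A) := by
        obtain ⟨B, -, -, ha, -⟩ := hA.exists_inv hω
        exact (isUnit_P3 hω v).mul (IsUnit.of_mul_eq_one _ ha)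
      have e' : aM A' = (c * k) • P3 ω (w - v) := by
        refine hu.mul_left_inj.1 ?_
        rw [← Matrix.mul_assoc, ea, e, hk, Matrix.smul_mul, smul_smul, Matrix.smul_mul,
          Matrix.mul_assoc]
      obtain ⟨d, hd, hdd⟩ := exists_weight hω (w - v)
      obtain ⟨σ, t, hσ, ha1, hb1⟩ := form_of_commute_both hG hD hns hA' hd
        (by rw [e']; exact hdd _) (by rw [hb' hb, one_mul, mul_one])
      rw [hb' hb] at hb1
      rw [ha1, sigma hσ hb1, one_smul, one_mul] at ea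
      exact ea.symm
    obtain ⟨σ, t, hσ, ha1, hb1⟩ := form_of_commute_both hG hD hns hA (d := (1, 0)) (by decide)
      (hcomm _) (by rw [hb, one_mul, mul_one])
    rw [hb] at hb1
    rw [ha1, sigma hσ hb1, one_smul]
  · exfalso
    obtain ⟨g, ⟨C, hC, hC1, eC⟩, eg⟩ := h 0 1 (by decide) 1
    rw [eg] at eC
    set Q : Matrix K3 K3 F := Matrix.of fun a b : K3 => if a = 0 ∨ b = 0 then 0 else (2 : F)⁻¹
    have e : C = 1 + Matrix.single 0 1 (1 : F) ⊗ₖ Q := by
      have hQ : Ck ω (1 + Matrix.single 0 1 (1 : F) ⊗ₖ Q) := by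
        constructor
        · rw [Cp, add_mul, mul_add, one_mul, mul_one, pj, kron_mul, kron_mul, Matrix.one_mul,
            Matrix.mul_one]
          congr 2
          ext a b
          rw [Matrix.mul_apply, Matrix.mul_apply, sum_three, sum_three]
          simp only [Q, Pim, Matrix.of_apply]
          obtain rfl | rfl | rfl := k3_cases a <;> obtain rfl | rfl | rfl := k3_cases b <;>
            simp (config := { decide := true })
        · rw [add_mul, mul_add, one_mul, mul_one, tk, kron_mul, kron_mul, Matrix.one_mul,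
            Matrix.mul_one]
          congr 2
          ext a b
          rw [tauM, Matrix.mul_diagonal, Matrix.diagonal_mul]
          obtain rfl | rfl | rfl := k3_cases a <;> obtain rfl | rfl | rfl := k3_cases b <;>
            simp (config := { decide := true }) [Q, mul_comm]
      refine ck_ext hω hG.two hC.2.1 hQ ?_ ?_ ?_
      · rw [hC.2.2]
        ext i k
        simp [fM, sub3, Q, Matrix.one_apply, Matrix.single, show (1 : K3) ≠ 2 from by decide,
          show (2 : K3) ≠ 0 from by decide]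
      · rw [eC]
        ext i k
        have h2 := hG.two
        simp [aM, sub3, Q, Matrix.one_apply, Matrix.single, show (1 : K3) ≠ 2 from by decide,
          show (2 : K3) ≠ 0 from by decide]
        split_ifs <;> field_simp <;> ring
      · rw [hC1]
        ext i k
        simp [bM, sub3, Q, Matrix.one_apply]
    have hC0 := hC.1
    rw [e] at hC0
    refine hns (spread hG (a := 0) (b := 1) (by decide) (A := Q) hC0 fun c hc => ?_)
    have := congrFun (congrFun hc 1) 2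
    simp [Q, show (2 : K3) ≠ 0 from by decide, show (1 : K3) ≠ 2 from by decide] at this
    exact hG.two this

lemma k0_inj {A B : Matrix I9 I9 F} (hA : K0 ω G A) (hB : K0 ω G B) (h : bM A = bM B) :
    A = B := by
  have hω := hG.om
  obtain ⟨C, hC, h1, -, hb⟩ := hA.exists_inv hω
  have h2 := mul_eq_one_comm.1 h1
  have hk := hC.mul hB
  have hb1 : bM (C * B) = 1 := by
    rw [bM_mul hω hC.2.1 hB.2.1, ← h]; exact mul_eq_one_comm.1 hb
  have ha1 := aM_eq_one hG hD hns hk hb1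
  have e : C * B = 1 := ck_ext hω hG.two hk.2.1 Ck.one (by rw [hk.2.2, fM_one])
    (by rw [ha1, aM_one]) (by rw [hb1, bM_one])
  calc A = A * (C * B) := by rw [e, Matrix.mul_one]
    _ = B := by rw [← Matrix.mul_assoc, h1, Matrix.one_mul]

lemma form_of_commute {A : Matrix I9 I9 F} (hA : K0 ω G A) {d : K3 × K3} (hd : d ≠ 0)
    (hb : bM A * P3 ω d = P3 ω d * bM A) :
    ∃ (σ : F) (t : K3), σ ^ 2 = 1 ∧ aM A = σ • 1 ∧ bM A = (σ * wp ω t) • 1 := by
  have hω := hG.om
  obtain ⟨A', hA', ea, eb, e⟩ := hA.conj hG (isUnit_P3 hω d)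
    (fun u => ⟨u, _, hω.wp_ne_zero _, P3_comm hω d u⟩)
  have : A' = A := k0_inj hG hD hns hA' hA
    ((isUnit_P3 hω d).mul_left_inj.1 (eb.symm.trans hb.symm))
  subst this
  exact form_of_commute_both hG hD hns hA hd ea.symm eb.symm

/-- `K0` acts by scalars on the two remaining eigenspaces. -/
theorem k0_all {A : Matrix I9 I9 F} (hA : K0 ω G A) :
    ∃ (σ : F) (t : K3), σ ^ 2 = 1 ∧ aM A = σ • 1 ∧ bM A = (σ * wp ω t) • 1 := by
  have hω := hG.om
  rcases dicho_normalised hG hD (imgB hω G) (fun X hX hn M M' hM e => by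
    obtain ⟨g, ⟨C, hC, eC⟩, rfl⟩ := hM
    obtain ⟨C', hC', -, eb, -⟩ := hC.conj hG hX hn
    rw [eC, e] at eb
    rw [hX.mul_left_inj.1 eb]
    exact mem_imgB hω hC') with h | h
  · have hn := h _ (mem_imgB hω hA)
    have hu : IsUnit (bM A) := by
      obtain ⟨B, -, -, -, hb⟩ := hA.exists_inv hω
      exact IsUnit.of_mul_eq_one _ hb
    have hid : Induces ω (bM A) id := by
      intro v
      obtain ⟨w, c, hc, e⟩ := hn v
      obtain ⟨k, hk⟩ := P3_div hω v w
      obtain ⟨A', hA', -, -, eb⟩ := k0_commutator hG hD hns hA v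
      have e' : bM A' = (c * k) • P3 ω (w - v) := by
        refine ((isUnit_P3 hω v).mul hu).mul_left_inj.1 ?_
        rw [← Matrix.mul_assoc, eb, e, hk, Matrix.smul_mul, smul_smul, Matrix.smul_mul,
          Matrix.mul_assoc]
      obtain ⟨d, hd, hdd⟩ := exists_weight hω (w - v)
      obtain ⟨σ, t, hσ, -, hb1⟩ := form_of_commute hG hD hns hA' hd (by rw [e']; exact hdd _)
      refine ⟨σ * wp ω t, mul_ne_zero (fun h0 => ?_) (hω.wp_ne_zero _), ?_⟩
      · rw [h0] at hσ; simp at hσ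
      · rw [hb1, Matrix.smul_mul, Matrix.one_mul, Matrix.smul_mul] at eb
        exact eb.symm
    obtain ⟨s, e, hs, he⟩ := exists_P_of_id hω hu hid
    obtain ⟨d, hd, hdd⟩ := exists_weight hω e
    exact form_of_commute hG hD hns hA hd (by rw [he]; exact hdd _)
  · exfalso
    have m := fun i k hik c => h i k hik c
    have hD' := (((m 0 1 (by decide) 1).mul (m 1 0 (by decide) (-1))).mul (m 0 1 (by decide) 1))
    have h4 := hD'.mul hD'
    set Dg : Matrix K3 K3 F := Matrix.diagonal fun i => if i = 2 then 1 else -1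
    have e : InG (imgB hω G) Dg := by
      convert h4 using 1
      ext i k
      simp only [Matrix.mul_apply, sum_three, Matrix.add_apply, Matrix.one_apply, Matrix.single,
        Matrix.of_apply, Dg, Matrix.diagonal]
      obtain rfl | rfl | rfl := k3_cases i <;> obtain rfl | rfl | rfl := k3_cases k <;>
        simp (config := { decide := true })
    obtain ⟨g, ⟨C, hC, eC⟩, eg⟩ := e
    rw [eg] at eC
    obtain ⟨σ, t, -, -, hb⟩ := form_of_commute hG hD hns hC (d := (1, 0)) (by decide) (by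
      rw [eC]
      ext i k
      rw [Matrix.diagonal_mul, Matrix.mul_diagonal, P3_apply]
      by_cases hik : i = k
      · subst hik; ring
      · simp [hik])
    rw [eC] at hb
    have e0 := congrFun (congrFun hb 0) 0
    have e2 := congrFun (congrFun hb 2) 2
    simp [Dg, show (0 : K3) ≠ 2 from by decide] at e0 e2
    exact hG.two (by linear_combination e2 - e0)

end Main

end Cfsg.Agent.CSixNine
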