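import Cfsg.Agent.CSixNine.Norml

/-!
The elements which commute with `1 ⊗ π` and `1 ⊗ τ` and act trivially on the eigenspace of
dimension three.
-/

set_option autoImplicit false
set_option linter.unusedSectionVars false

namespace Cfsg.Agent.CSixNine

open Matrix
open scoped MatrixGroups Matrix Kronecker

variable {F : Type*} [Field F] {ω : F} {G : Subgroup (GL I9 F)}

/-- Inversion on the second factor. -/
def pj : Matrix I9 I9 F := (1 : Matrix K3 K3 F) ⊗ₖ Pim

/-- The diagonal element on the second factor. -/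
def tk (ω : F) : Matrix I9 I9 F := (1 : Matrix K3 K3 F) ⊗ₖ tauM ω

/-- Commuting with `pj`. -/
def Cp (A : Matrix I9 I9 F) : Prop := A * pj = pj * A

/-- Commuting with `pj` and `tk`. -/
def Ck (ω : F) (A : Matrix I9 I9 F) : Prop := Cp A ∧ A * tk ω = tk ω * A

/-- A block of size three. -/
def sub3 (A : Matrix I9 I9 F) (a b : K3) : Matrix K3 K3 F :=
  Matrix.of fun i k => A (i, a) (k, b)

/-- Action on `F^3 ⊗ (e₁ - e₂)`. -/
def fM (A : Matrix I9 I9 F) : Matrix K3 K3 F := sub3 A 1 1 - sub3 A 1 2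

/-- Action on `F^3 ⊗ (e₁ + e₂)`. -/
def aM (A : Matrix I9 I9 F) : Matrix K3 K3 F := sub3 A 1 1 + sub3 A 1 2

/-- Action on `F^3 ⊗ e₀`. -/
def bM (A : Matrix I9 I9 F) : Matrix K3 K3 F := sub3 A 0 0

lemma pj_apply (i a k b : K3) :
    (pj : Matrix I9 I9 F) (i, a) (k, b) = if i = k ∧ a = -b then 1 else 0 := by
  simp only [pj, Matrix.kroneckerMap_apply, Matrix.one_apply, Pim, Matrix.of_apply,
    add_eq_zero_iff_eq_neg]
  by_cases h : i = k <;> simp [h]

lemma Cp.apply {A : Matrix I9 I9 F} (hA : Cp A) (i k a b : K3) :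
    A (i, a) (k, b) = A (i, -a) (k, -b) := by
  have := congrFun (congrFun hA (i, a)) (k, -b)
  rw [Matrix.mul_apply, Matrix.mul_apply, Finset.sum_eq_single (k, b),
    Finset.sum_eq_single (i, -a)] at this
  · simpa [pj_apply] using this
  · rintro ⟨x, y⟩ _ hb
    rw [pj_apply, if_neg, zero_mul]
    rintro ⟨rfl, h⟩; exact hb (by rw [h, neg_neg])
  · simp
  · rintro ⟨x, y⟩ _ hb
    rw [pj_apply, if_neg, mul_zero]
    rintro ⟨rfl, h⟩; exact hb (by rw [h, neg_neg])
  · simp

lemma tk_eq (ω : F) : tk ω = Matrix.diagonal fun p : I9 => if p.2 = 0 then 1 else ω := by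
  ext ⟨i, a⟩ ⟨k, b⟩
  rw [tk, Matrix.kroneckerMap_apply, tauM]
  by_cases h1 : i = k <;> by_cases h2 : a = b <;> simp [Matrix.diagonal, Matrix.one_apply, h1, h2]

lemma Ck.apply (hω : Omega ω) {A : Matrix I9 I9 F} (hA : Ck ω A) (i k a b : K3)
    (h : ¬ (a = 0 ↔ b = 0)) : A (i, a) (k, b) = 0 := by
  have := congrFun (congrFun hA.2 (i, a)) (k, b)
  rw [tk_eq, Matrix.mul_diagonal, Matrix.diagonal_mul] at this
  have h1 := hω.ne_one
  by_cases ha : a = 0
  · have hb : b ≠ 0 := fun hb => h (by simp [ha, hb])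
    simp only [if_pos ha, if_neg hb, one_mul] at this
    by_contra hne
    exact h1 (mul_left_cancel₀ hne (by rw [this, mul_one]))
  · have hb : b = 0 := by by_contra hb; exact h (by simp [ha, hb])
    simp only [if_neg ha, if_pos hb, mul_one] at this
    by_contra hne
    exact h1 (mul_right_cancel₀ hne (by rw [← this, one_mul]))

lemma Cp.mul {A B : Matrix I9 I9 F} (hA : Cp A) (hB : Cp B) : Cp (A * B) := by
  rw [Cp, Matrix.mul_assoc, hB, ← Matrix.mul_assoc, hA, Matrix.mul_assoc]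

lemma Ck.mul {A B : Matrix I9 I9 F} (hA : Ck ω A) (hB : Ck ω B) : Ck ω (A * B) :=
  ⟨hA.1.mul hB.1, by rw [Matrix.mul_assoc, hB.2, ← Matrix.mul_assoc, hA.2, Matrix.mul_assoc]⟩

lemma commute_inv {A B C : Matrix I9 I9 F} (h : A * C = C * A) (h1 : A * B = 1) :
    B * C = C * B := by
  have h2 : B * A = 1 := mul_eq_one_comm.1 h1
  calc B * C = B * (C * A) * B := by
        rw [Matrix.mul_assoc, Matrix.mul_assoc, h1, Matrix.mul_one]
    _ = B * (A * C) * B := by rw [h]
    _ = C * B := by rw [← Matrix.mul_assoc B A, h2, Matrix.one_mul]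

lemma Cp.inv {A B : Matrix I9 I9 F} (hA : Cp A) (h : A * B = 1) : Cp B := commute_inv hA h

lemma Ck.inv {A B : Matrix I9 I9 F} (hA : Ck ω A) (h : A * B = 1) : Ck ω B :=
  ⟨hA.1.inv h, commute_inv hA.2 h⟩

/-- A tensor with a fixed vector in the second factor. -/
def col (u : K3 → F) : Matrix I9 K3 F := Matrix.of fun p k => if p.1 = k then u p.2 else 0

lemma col_mul (u : K3 → F) (M : Matrix K3 K3 F) (i a k : K3) :
    (col u * M) (i, a) k = u a * M i k := by
  rw [Matrix.mul_apply, Finset.sum_eq_single i]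
  · simp [col]
  · intro b _ hb; simp [col, Ne.symm hb]
  · simp

lemma mul_col (u : K3 → F) (A : Matrix I9 I9 F) (i a k : K3) :
    (A * col u) (i, a) k =
      u 0 * A (i, a) (k, 0) + u 1 * A (i, a) (k, 1) + u 2 * A (i, a) (k, 2) := by
  rw [Matrix.mul_apply, Fintype.sum_prod_type, Finset.sum_eq_single k, sum_three]
  · simp [col, mul_comm]
  · intro b _ hb; simp [col, hb]
  · simp

lemma col_inj {u : K3 → F} {a : K3} (ha : u a ≠ 0) {M N : Matrix K3 K3 F}
    (h : col u * M = col u * N) : M = N := by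
  ext i k
  have := congrFun (congrFun h (i, a)) k
  rw [col_mul, col_mul] at this
  exact mul_left_cancel₀ ha this

/-- Coordinates of `e₁ - e₂`. -/
def uc : K3 → F := fun a => if a = 1 then 1 else if a = 2 then -1 else 0

/-- Coordinates of `e₁ + e₂`. -/
def ue : K3 → F := fun a => if a = 0 then 0 else 1

/-- Coordinates of `e₀`. -/
def uz : K3 → F := fun a => if a = 0 then 1 else 0

lemma fM_spec {A : Matrix I9 I9 F} (hA : Cp A) : A * col (uc (F := F)) = col (uc (F := F)) * fM A := by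
  ext ⟨i, a⟩ k
  rw [col_mul, mul_col]
  obtain rfl | rfl | rfl := k3_cases a
  · simp [uc, fM, sub3, show (2 : K3) ≠ 1 from by decide, show (0 : K3) ≠ 1 from by decide,
      show (0 : K3) ≠ 2 from by decide, hA.apply i k 0 1, show -(1 : K3) = 2 from by decide]
  · simp [uc, fM, sub3, show (2 : K3) ≠ 1 from by decide, show (0 : K3) ≠ 1 from by decide,
      show (0 : K3) ≠ 2 from by decide]
    ring
  · simp [uc, fM, sub3, show (2 : K3) ≠ 1 from by decide, show (0 : K3) ≠ 1 from by decide,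
      show (0 : K3) ≠ 2 from by decide, hA.apply i k 2 1, hA.apply i k 2 2,
      show -(1 : K3) = 2 from by decide, show -(2 : K3) = 1 from by decide]
    ring

lemma aM_spec (hω : Omega ω) {A : Matrix I9 I9 F} (hA : Ck ω A) :
    A * col (ue (F := F)) = col (ue (F := F)) * aM A := by
  ext ⟨i, a⟩ k
  rw [col_mul, mul_col]
  obtain rfl | rfl | rfl := k3_cases a
  · simp [ue, show (2 : K3) ≠ 0 from by decide, hA.apply hω i k 0 1 (by decide),
      hA.apply hω i k 0 2 (by decide)]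
  · simp [ue, aM, sub3, show (2 : K3) ≠ 0 from by decide]
  · simp [ue, aM, sub3, show (2 : K3) ≠ 0 from by decide, hA.1.apply i k 2 1, hA.1.apply i k 2 2,
      show -(1 : K3) = 2 from by decide, show -(2 : K3) = 1 from by decide, add_comm]

lemma bM_spec (hω : Omega ω) {A : Matrix I9 I9 F} (hA : Ck ω A) :
    A * col (uz (F := F)) = col (uz (F := F)) * bM A := by
  ext ⟨i, a⟩ k
  rw [col_mul, mul_col]
  obtain rfl | rfl | rfl := k3_cases a
  · simp [uz, bM, sub3, show (2 : K3) ≠ 0 from by decide]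
  · simp [uz, show (2 : K3) ≠ 0 from by decide, hA.apply hω i k 1 0 (by decide)]
  · simp [uz, show (2 : K3) ≠ 0 from by decide, hA.apply hω i k 2 0 (by decide)]

lemma fM_mul {A B : Matrix I9 I9 F} (hA : Cp A) (hB : Cp B) : fM (A * B) = fM A * fM B := by
  refine col_inj (u := uc) (a := 1) (by simp [uc]) ?_
  rw [← fM_spec (hA.mul hB), ← Matrix.mul_assoc, ← fM_spec hA, Matrix.mul_assoc, fM_spec hB,
    Matrix.mul_assoc]

lemma aM_mul (hω : Omega ω) {A B : Matrix I9 I9 F} (hA : Ck ω A) (hB : Ck ω B) :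
    aM (A * B) = aM A * aM B := by
  refine col_inj (u := ue) (a := 1) (by simp [ue]) ?_
  rw [← aM_spec hω (hA.mul hB), ← Matrix.mul_assoc, ← aM_spec hω hA, Matrix.mul_assoc,
    aM_spec hω hB, Matrix.mul_assoc]

lemma bM_mul (hω : Omega ω) {A B : Matrix I9 I9 F} (hA : Ck ω A) (hB : Ck ω B) :
    bM (A * B) = bM A * bM B := by
  refine col_inj (u := uz) (a := 0) (by simp [uz]) ?_
  rw [← bM_spec hω (hA.mul hB), ← Matrix.mul_assoc, ← bM_spec hω hA, Matrix.mul_assoc,
    bM_spec hω hB, Matrix.mul_assoc]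

lemma fM_left (X : Matrix K3 K3 F) : fM (X ⊗ₖ (1 : Matrix K3 K3 F)) = X := by
  ext i k; simp [fM, sub3, show (1 : K3) ≠ 2 from by decide]

lemma aM_left (X : Matrix K3 K3 F) : aM (X ⊗ₖ (1 : Matrix K3 K3 F)) = X := by
  ext i k; simp [aM, sub3, show (1 : K3) ≠ 2 from by decide]

lemma bM_left (X : Matrix K3 K3 F) : bM (X ⊗ₖ (1 : Matrix K3 K3 F)) = X := by
  ext i k; simp [bM, sub3]

lemma fM_one : fM (1 : Matrix I9 I9 F) = 1 := by
  rw [← Matrix.one_kronecker_one]; exact fM_left 1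

lemma aM_one : aM (1 : Matrix I9 I9 F) = 1 := by
  rw [← Matrix.one_kronecker_one]; exact aM_left 1

lemma bM_one : bM (1 : Matrix I9 I9 F) = 1 := by
  rw [← Matrix.one_kronecker_one]; exact bM_left 1

lemma Ck.left (X : Matrix K3 K3 F) : Ck ω (X ⊗ₖ (1 : Matrix K3 K3 F)) := by
  constructor <;> simp only [Cp, pj, tk, kron_mul, Matrix.one_mul, Matrix.mul_one]

lemma Ck.one : Ck ω (1 : Matrix I9 I9 F) := by
  rw [← Matrix.one_kronecker_one]; exact Ck.left 1

lemma ck_ext (hω : Omega ω) (h2 : (2 : F) ≠ 0) {A B : Matrix I9 I9 F} (hA : Ck ω A)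
    (hB : Ck ω B) (hf : fM A = fM B) (ha : aM A = aM B) (hb : bM A = bM B) : A = B := by
  have h11 : ∀ i k : K3, A (i, 1) (k, 1) = B (i, 1) (k, 1) ∧ A (i, 1) (k, 2) = B (i, 1) (k, 2) := by
    intro i k
    have e1 := congrFun (congrFun hf i) k
    have e2 := congrFun (congrFun ha i) k
    simp only [fM, aM, sub3, Matrix.sub_apply, Matrix.add_apply, Matrix.of_apply] at e1 e2
    constructor <;> refine mul_left_cancel₀ h2 ?_
    · linear_combination e1 + e2
    · linear_combination e2 - e1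
  ext ⟨i, a⟩ ⟨k, b⟩
  obtain rfl | rfl | rfl := k3_cases a <;> obtain rfl | rfl | rfl := k3_cases b
  · exact congrFun (congrFun hb i) k
  iterate 3 rw [hA.apply hω i k _ _ (by decide), hB.apply hω i k _ _ (by decide)]
  · exact (h11 i k).1
  · exact (h11 i k).2
  · rw [hA.apply hω i k _ _ (by decide), hB.apply hω i k _ _ (by decide)]
  · rw [hA.1.apply, hB.1.apply, show -(1 : K3) = 2 from by decide,
      show -(2 : K3) = 1 from by decide]
    exact (h11 i k).2
  · rw [hA.1.apply, hB.1.apply, show -(2 : K3) = 1 from by decide]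
    exact (h11 i k).1

/-- The members of `G` commuting with `pj` and `tk` and trivial on `F^3 ⊗ (e₁ - e₂)`. -/
def K0 (ω : F) (G : Subgroup (GL I9 F)) (A : Matrix I9 I9 F) : Prop :=
  InG G A ∧ Ck ω A ∧ fM A = 1

lemma K0.mul {A B : Matrix I9 I9 F} (hA : K0 ω G A) (hB : K0 ω G B) : K0 ω G (A * B) :=
  ⟨hA.1.mul hB.1, hA.2.1.mul hB.2.1, by rw [fM_mul hA.2.1.1 hB.2.1.1, hA.2.2, hB.2.2, one_mul]⟩

lemma K0.one : K0 ω G (1 : Matrix I9 I9 F) := ⟨InG.one, Ck.one, fM_one⟩

lemma K0.exists_inv (hω : Omega ω) {A : Matrix I9 I9 F} (hA : K0 ω G A) :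
    ∃ B, K0 ω G B ∧ A * B = 1 ∧ aM A * aM B = 1 ∧ bM A * bM B = 1 := by
  obtain ⟨B, hB, h1, -⟩ := hA.1.exists_inv
  have hk := hA.2.1.inv h1
  refine ⟨B, ⟨hB, hk, ?_⟩, h1, ?_, ?_⟩
  · have := fM_mul hA.2.1.1 hk.1
    rw [h1, fM_one, hA.2.2, one_mul] at this
    exact this.symm
  · rw [← aM_mul hω hA.2.1 hk, h1, aM_one]
  · rw [← bM_mul hω hA.2.1 hk, h1, bM_one]

lemma K0.conj (hG : Gen ω G) {A : Matrix I9 I9 F} (hA : K0 ω G A) {X : Matrix K3 K3 F}
    (hX : IsUnit X) (hn : Nrm3 ω X) :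
    ∃ A', K0 ω G A' ∧ X * aM A = aM A' * X ∧ X * bM A = bM A' * X ∧
      (X ⊗ₖ (1 : Matrix K3 K3 F)) * A = A' * (X ⊗ₖ (1 : Matrix K3 K3 F)) := by
  have hω := hG.om
  have hW := hG.lft_nrm hX hn
  obtain ⟨V, hV, h1, h2⟩ := hW.exists_inv
  have hWk : Ck ω (X ⊗ₖ (1 : Matrix K3 K3 F)) := Ck.left X
  have hVk := hWk.inv h1
  set W := X ⊗ₖ (1 : Matrix K3 K3 F) with hWdef
  have e : W * A = (W * A * V) * W := by
    rw [Matrix.mul_assoc (W * A), h2, Matrix.mul_one]
  have hk := (hWk.mul hA.2.1).mul hVk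
  refine ⟨W * A * V, ⟨(hW.mul hA.1).mul hV, hk, ?_⟩, ?_, ?_, e⟩
  · rw [fM_mul (hWk.1.mul hA.2.1.1) hVk.1, fM_mul hWk.1 hA.2.1.1, hA.2.2, Matrix.mul_one,
      ← fM_mul hWk.1 hVk.1, h1, fM_one]
  · have := congrArg aM e
    rwa [aM_mul hω hWk hA.2.1, aM_mul hω hk hWk, hWdef, aM_left] at this
  · have := congrArg bM e
    rwa [bM_mul hω hWk hA.2.1, bM_mul hω hk hWk, hWdef, bM_left] at this

/-- A weight normalising member of `K0` acts by scalars. -/
theorem k0_form (hG : Gen ω G) {A : Matrix I9 I9 F} (hA : K0 ω G A) (hn : Nrm9 ω A) :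
    ∃ (σ : F) (t : K3), σ ^ 2 = 1 ∧ aM A = σ • 1 ∧ bM A = (σ * wp ω t) • 1 := by
  have hω := hG.om
  have h2 := hG.two
  obtain ⟨⟨w₁, x, y⟩, c, hc, e⟩ := hn ((0, 0), (0, 1))
  have E : ∀ a b : K3, sub3 A a (b + 1) = (c * wp ω (x * a)) • (P3 ω w₁ * sub3 A (a - y) b) := by
    intro a b
    ext i k
    have h := congrFun (congrFun e (i, a)) (k, b)
    rw [Matrix.mul_apply, Finset.sum_eq_single (k, b + 1), Matrix.smul_apply, Matrix.mul_apply,
      Fintype.sum_prod_type] at h
    · simp only [P9, Matrix.kroneckerMap_apply, P3_zero, Prod.mk_zero_zero, Matrix.one_apply_eq,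
        one_mul, P3_apply, if_true, zero_mul, wp_zero, mul_one] at h
      simp only [sub3, Matrix.of_apply, Matrix.smul_apply, Matrix.mul_apply, P3_apply,
        smul_eq_mul] at h ⊢
      rw [h, mul_assoc]
      congr 1
      rw [Finset.mul_sum]
      refine Finset.sum_congr rfl fun u _ => ?_
      rw [Finset.sum_eq_single (a - y)]
      · rw [if_pos (sub_add_cancel a y).symm]; ring
      · intro v _ hv
        have : a ≠ v + y := fun h => hv (by rw [h]; ring)
        simp [this]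
      · simp
    · rintro ⟨u, v⟩ _ hne
      simp only [P9, Matrix.kroneckerMap_apply, P3_zero, Prod.mk_zero_zero, Matrix.one_apply,
        P3_apply]
      by_cases hu : u = k
      · subst hu; simp [show v ≠ b + 1 from fun h => hne (by rw [h])]
      · simp [hu]
    · simp
  have hz : ∀ a b : K3, ¬ (a = 0 ↔ b = 0) → sub3 A a b = 0 := fun a b h => by
    ext i k; exact hA.2.1.apply hω i k a b h
  have hs : ∀ a b : K3, sub3 A a b = sub3 A (-a) (-b) := fun a b => by
    ext i k; exact hA.2.1.1.apply i k a b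
  have hf : sub3 A 1 1 - sub3 A 1 2 = 1 := hA.2.2
  have h21 : sub3 A 2 1 = sub3 A 1 2 := by
    rw [hs 2 1]; rfl
  have h22 : sub3 A 2 2 = sub3 A 1 1 := by
    rw [hs 2 2]; rfl
  have hP : ∀ k : F, (1 : Matrix K3 K3 F) = k • P3 ω w₁ → P3 ω w₁ = 1 := fun k hk => by
    have hk0 : k ≠ 0 := by rintro rfl; rw [zero_smul] at hk; exact one_ne_zero hk
    have h3 : P3 ω w₁ = k⁻¹ • (1 : Matrix K3 K3 F) := by
      rw [hk, smul_smul, inv_mul_cancel₀ hk0, one_smul]
    rw [P3_ne_smul_one hω h3, P3_zero]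
  have d10 := E 1 0
  have d20 := E 2 0
  rw [zero_add] at d10 d20
  obtain rfl | rfl | rfl := k3_cases y
  · exfalso
    rw [sub_zero, hz 1 0 (by decide), Matrix.mul_zero, smul_zero] at d10
    rw [sub_zero, hz 2 0 (by decide), Matrix.mul_zero, smul_zero, h21] at d20
    rw [d10, d20, sub_zero] at hf
    exact zero_ne_one hf
  · rw [show (2 : K3) - 1 = 1 from by decide, hz 1 0 (by decide), Matrix.mul_zero, smul_zero,
      h21] at d20
    have h11 : sub3 A 1 1 = 1 := by rw [d20, sub_zero] at hf; exact hf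
    have ha : aM A = 1 := by rw [aM, h11, d20, add_zero]
    have d21 := E 2 1
    rw [show (1 : K3) + 1 = 2 from rfl, show (2 : K3) - 1 = 1 from by decide, h22, h11,
      Matrix.mul_one] at d21
    have hP1 := hP _ d21
    have hk : c * wp ω (x * 2) = 1 := by
      have := congrFun (congrFun d21 0) 0
      rw [hP1] at this
      simpa using this.symm
    rw [show (1 : K3) - 1 = 0 from by decide, h11, hP1, Matrix.one_mul, mul_one] at d10
    have hx : wp ω (x * 2) * wp ω x = 1 := by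
      rw [← hω.wp_add, show x * 2 + x = 0 from by
        rw [show x * 2 + x = (3 : K3) * x from by ring, show (3 : K3) = 0 from rfl, zero_mul],
        wp_zero]
    refine ⟨1, x, one_pow 2, by rw [ha, one_smul], ?_⟩
    have h' : c * wp ω x ≠ 0 := mul_ne_zero hc (hω.wp_ne_zero _)
    have e' : bM A = (c * wp ω x)⁻¹ • (1 : Matrix K3 K3 F) := by
      conv_rhs => rw [d10, smul_smul, inv_mul_cancel₀ h', one_smul]
      rfl
    rw [e', one_mul]
    congr 1
    refine inv_eq_of_mul_eq_one_right ?_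
    linear_combination (wp ω x) ^ 3 * hk + wp_cube hω x - c * (wp ω x) ^ 2 * hx
  · rw [show (1 : K3) - 2 = 2 from by decide, hz 2 0 (by decide), Matrix.mul_zero,
      smul_zero] at d10
    have h12 : sub3 A 1 2 = -1 := by rw [d10, zero_sub] at hf; rw [← hf, neg_neg]
    have ha : aM A = -1 := by rw [aM, d10, h12, zero_add]
    have d11 := E 1 1
    rw [show (1 : K3) + 1 = 2 from rfl, show (1 : K3) - 2 = 2 from by decide, h21, h12,
      Matrix.mul_neg, Matrix.mul_one, smul_neg, neg_inj, mul_one] at d11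
    have hP1 := hP _ d11
    have hk : c * wp ω x = 1 := by
      have := congrFun (congrFun d11 0) 0
      rw [hP1] at this
      simpa using this.symm
    rw [show (2 : K3) - 2 = 0 from by decide, h21, h12, hP1, Matrix.one_mul] at d20
    have hx : wp ω (x * 2) * wp ω x = 1 := by
      rw [← hω.wp_add, show x * 2 + x = 0 from by
        rw [show x * 2 + x = (3 : K3) * x from by ring, show (3 : K3) = 0 from rfl, zero_mul],
        wp_zero]
    refine ⟨-1, x * 2, by ring, by rw [ha, neg_smul, one_smul], ?_⟩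
    have h' : c * wp ω (x * 2) ≠ 0 := mul_ne_zero hc (hω.wp_ne_zero _)
    have e' : bM A = (c * wp ω (x * 2))⁻¹ • (-1 : Matrix K3 K3 F) := by
      conv_rhs => rw [d20, smul_smul, inv_mul_cancel₀ h', one_smul]
      rfl
    rw [e', neg_one_mul, smul_neg, neg_smul]
    congr 2
    refine inv_eq_of_mul_eq_one_right ?_
    linear_combination (wp ω (x * 2)) ^ 3 * hk + wp_cube hω (x * 2) -
      c * (wp ω (x * 2)) ^ 2 * hx

end Cfsg.Agent.CSixNine
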