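import Cfsg.Agent.CSixNine.Invol

/-!
An overgroup of the weight normaliser in dimension nine contains the special linear group or
normalises the weight lines.
-/

set_option autoImplicit false
set_option linter.unusedSectionVars false

namespace Cfsg.Agent.CSixNine

open Matrix
open scoped MatrixGroups Matrix Kronecker

variable {F : Type*} [Field F] {ω : F} {G : Subgroup (GL I9 F)}

/-- Two involutions with different traces have a product whose powers contain an involution
commuting with both. -/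
lemma dihedral [Finite F] (j k : GL I9 F) (hj : j * j = 1) (hk : k * k = 1)
    (ht : Matrix.trace (j : Matrix I9 I9 F) ≠ Matrix.trace (k : Matrix I9 I9 F)) :
    ∃ n : ℕ, (j * k) ^ n ≠ 1 ∧ (j * k) ^ n * (j * k) ^ n = 1 ∧
      j * (j * k) ^ n = (j * k) ^ n * j ∧ k * (j * k) ^ n = (j * k) ^ n * k := by
  set t := j * k with htdef
  have hjt : ∀ n : ℕ, j * t ^ n = (t ^ n)⁻¹ * j := by
    have hji : j⁻¹ = j := inv_eq_of_mul_eq_one_right hj
    have hki : k⁻¹ = k := inv_eq_of_mul_eq_one_right hk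
    have h1 : j * t = t⁻¹ * j := by
      rw [htdef, _root_.mul_inv_rev, hji, hki, mul_assoc k j j, hj, mul_one, ← mul_assoc, hj, one_mul]
    intro n
    induction n with
    | zero => simp
    | succ n ih =>
      rw [pow_succ, ← mul_assoc, ih, mul_assoc, h1, ← mul_assoc, ← _root_.mul_inv_rev, ← pow_succ',
        pow_succ]
  have hpos : 0 < orderOf t := orderOf_pos t
  have ho := pow_orderOf_eq_one t
  obtain ⟨m, hm | hm⟩ : ∃ m, orderOf t = 2 * m ∨ orderOf t = 2 * m + 1 :=
    ⟨orderOf t / 2, by omega⟩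
  · have h2 : t ^ m * t ^ m = 1 := by rw [← pow_add, ← two_mul, ← hm, ho]
    have hne : t ^ m ≠ 1 := pow_ne_one_of_lt_orderOf (by omega) (by omega)
    have hji : j * t ^ m = t ^ m * j := by rw [hjt, inv_eq_of_mul_eq_one_right h2]
    refine ⟨m, hne, h2, hji, ?_⟩
    have hkk : k = j * t := by rw [htdef, ← mul_assoc, hj, one_mul]
    rw [hkk, mul_assoc, (Commute.self_pow t m).eq, ← mul_assoc, hji, mul_assoc]
  · exfalso
    apply ht
    have he : t ^ m * j * (t ^ m)⁻¹ = k := by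
      have h' : t ^ m * j = j * (t ^ m)⁻¹ :=
        eq_mul_inv_of_mul_eq (by rw [mul_assoc, hjt, mul_inv_cancel_left])
      have ht1 : t ^ (2 * m) = t⁻¹ := by
        refine eq_inv_of_mul_eq_one_left ?_
        rw [← pow_succ, ← hm, ho]
      rw [mul_assoc, ← h', ← mul_assoc, ← pow_add, ← two_mul, ht1, htdef, _root_.mul_inv_rev,
        inv_eq_of_mul_eq_one_right hj, inv_eq_of_mul_eq_one_right hk, mul_assoc, hj, mul_one]
    rw [← he, Units.val_mul, Units.val_mul, Matrix.trace_mul_comm, ← Matrix.mul_assoc,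
      Units.inv_mul, Matrix.one_mul]

lemma Mv.symm (hω : Omega ω) {r s : W9} (h : Mv ω G r s) : Mv ω G s r := by
  obtain ⟨W, hW, k, hk, e⟩ := h
  obtain ⟨V, hV, h1, h2⟩ := hW.1.exists_inv
  refine ⟨V, ⟨hV, Nrm9.of_mul_eq_one hω h1 hW.2⟩, k⁻¹, inv_ne_zero hk, ?_⟩
  calc V * P9 ω s = V * (P9 ω s * W) * V := by
        rw [Matrix.mul_assoc, Matrix.mul_assoc, h1, Matrix.mul_one]
    _ = V * (k⁻¹ • (W * P9 ω r)) * V := by rw [e, smul_smul, inv_mul_cancel₀ hk, one_smul]
    _ = _ := by rw [Matrix.mul_smul, Matrix.smul_mul, ← Matrix.mul_assoc V W, h2, Matrix.one_mul]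

lemma Pim_det : Matrix.det (Pim : Matrix K3 K3 F) = -1 := by
  have h : Matrix.det (Matrix.of fun i k : K3 => if i + k = 0 then (1 : ℤ) else 0) = -1 := by
    decide
  have e : (Pim : Matrix K3 K3 F) = (Int.castRingHom F).mapMatrix
      (Matrix.of fun i k : K3 => if i + k = 0 then (1 : ℤ) else 0) := by
    ext i k
    by_cases hik : i + k = 0 <;> simp [Pim, hik]
  rw [e, ← RingHom.map_det, h]
  simp

lemma Pim_trace : Matrix.trace (Pim : Matrix K3 K3 F) = 1 := by
  rw [Matrix.trace, sum_three]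
  simp (config := { decide := true }) [Pim]

section Main

variable [Finite F] (hG : Gen ω G) (hD : Dicho ω) (hns : NoSL G)
include hG hD hns

/-- A member of `G` carrying one weight line to another normalises all weight lines. -/
lemma line_to_line {A : Matrix I9 I9 F} (hA : InG G A) {x y : W9} (hx : x ≠ 0) (hy : y ≠ 0)
    {c : F} (e : A * P9 ω y = c • (P9 ω x * A)) : Nrm9 ω A := by
  obtain ⟨W, hW, k, hk, eW⟩ := (mv_base hG hx).trans ((mv_base hG hy).symm hG.om)
  obtain ⟨V, hV, h1, h2⟩ := hW.1.exists_inv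
  have hn : Nrm9 ω (W * A) := by
    refine proj_centraliser hG hD hns (hW.1.mul hA) hy (c := c * k) ?_
    rw [Matrix.mul_assoc, e, Matrix.mul_smul, ← Matrix.mul_assoc, eW, Matrix.smul_mul, smul_smul,
      Matrix.mul_assoc]
  have := (Nrm9.of_mul_eq_one hG.om h1 hW.2).mul hn
  rwa [← Matrix.mul_assoc, h2, Matrix.one_mul] at this

/-- Conjugates of `π ⊗ π` normalise the weight lines. -/
lemma conj_JJ {A B : Matrix I9 I9 F} (hA : InG G A) (hAB : A * B = 1) :
    Nrm9 ω (A * JJ * B) := by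
  have hω := hG.om
  have hBA : B * A = 1 := mul_eq_one_comm.1 hAB
  have hB := hA.of_mul_eq_one hAB
  have hPim : InG G ((1 : Matrix K3 K3 F) ⊗ₖ Pim) := by
    refine hG.rep_mem (hG.lft_nrm (IsUnit.of_mul_eq_one _ Pim_sq) fun v => ⟨-v, 1, one_ne_zero, ?_⟩)
    rw [one_smul, Pim_P3]
  have hJG : InG G (JJ : Matrix I9 I9 F) := by
    have := (hG.sw_mem hPim).mul hPim
    rwa [sw_kronecker, kron_mul, Matrix.mul_one, Matrix.one_mul] at this
  obtain ⟨k, hk, ek⟩ : InG G (A * JJ * B) := (hA.mul hJG).mul hB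
  by_contra hcon
  have hkk : (k : Matrix I9 I9 F) * k = 1 := by
    rw [ek]
    calc A * JJ * B * (A * JJ * B) = A * (JJ * (B * A) * JJ) * B := by
          simp only [Matrix.mul_assoc]
      _ = 1 := by rw [hBA, Matrix.mul_one, JJ_sq, Matrix.mul_one, hAB]
  have key : ∀ u : K3 × K3, ∃ (s : F) (r : W9), s ≠ 0 ∧ r.2 = u + u ∧
      (k : Matrix I9 I9 F) * (s • (P9 ω r * JJ)) = s • (P9 ω r * JJ) * (k : Matrix I9 I9 F) := by
    intro u
    obtain ⟨w, hw, ew⟩ := hG.P9_mem ((0 : K3 × K3), u)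
    set k' : GL I9 F := w⁻¹ * k * w with hk'
    obtain ⟨j, hj, ej⟩ := hG.smul (neg_ne_zero.2 (one_ne_zero (α := F))) hPim
    have hk'G : k' ∈ G := mul_mem (mul_mem (inv_mem hw) hk) hw
    have hjj : j * j = 1 := Units.ext (by
      rw [Units.val_mul, ej, Units.val_one, Matrix.smul_mul, Matrix.mul_smul, smul_smul,
        neg_mul_neg, one_mul, one_smul, kron_mul, Matrix.one_mul, Pim_sq,
        Matrix.one_kronecker_one])
    have hk2 : k * k = 1 := Units.ext (by rw [Units.val_mul, hkk, Units.val_one])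
    have hkk' : k' * k' = 1 := by
      calc k' * k' = w⁻¹ * (k * k) * w := by rw [hk']; group
        _ = 1 := by rw [hk2]; group
    have htk : Matrix.trace (k' : Matrix I9 I9 F) = 1 := by
      rw [hk', Units.val_mul, Units.val_mul, Matrix.trace_mul_comm, ← Matrix.mul_assoc,
        Units.mul_inv, Matrix.one_mul, ek, Matrix.trace_mul_comm, ← Matrix.mul_assoc, hBA,
        Matrix.one_mul, JJ, Matrix.trace_kronecker, Pim_trace, one_mul]
    have htj : Matrix.trace (j : Matrix I9 I9 F) = -3 := by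
      rw [ej, Matrix.trace_smul, Matrix.trace_kronecker, Pim_trace, Matrix.trace_one]
      simp
    obtain ⟨n, hz1, hz2, hzj, hzk⟩ := dihedral j k' hjj hkk' (by
      rw [htj, htk]
      intro h
      exact hG.two (mul_left_cancel₀ hG.two (by linear_combination -h)))
    set z : GL I9 F := (j * k') ^ n with hz
    have hzG : z ∈ G := pow_mem (mul_mem hj hk'G) n
    have hzp : Cp (z : Matrix I9 I9 F) := by
      have e := congrArg (fun g : GL I9 F => (g : Matrix I9 I9 F)) hzj
      simp only [Units.val_mul, ej, Matrix.smul_mul, Matrix.mul_smul] at e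
      exact (smul_right_injective (Matrix I9 I9 F) (neg_ne_zero.2 one_ne_zero) e).symm
    have hzn : Nrm9 ω (z : Matrix I9 I9 F) := centJ hG hD hns ⟨z, hzG, rfl⟩ hzp
    have hdj : Matrix.det (j : Matrix I9 I9 F) = 1 := by
      rw [ej, Matrix.det_smul, Matrix.det_kronecker, Matrix.det_one, Pim_det]
      simp [Fintype.card_prod]
      ring
    have hdk : Matrix.det (k' : Matrix I9 I9 F) = 1 := by
      rw [hk', Units.val_mul, Units.val_mul, Matrix.det_mul_comm, ← Matrix.mul_assoc,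
        Units.mul_inv, Matrix.one_mul, ek, Matrix.det_mul_comm, ← Matrix.mul_assoc, hBA,
        Matrix.one_mul, JJ, Matrix.det_kronecker, Pim_det]
      simp
      norm_num
    have hzs : ∀ c : F, (z : Matrix I9 I9 F) ≠ c • 1 := by
      intro c hc
      have hdz : Matrix.det (z : Matrix I9 I9 F) = 1 := by
        rw [hz, Units.val_pow_eq_pow_val, Matrix.det_pow, Units.val_mul, Matrix.det_mul, hdj, hdk,
          mul_one, one_pow]
      rw [hc, Matrix.det_smul, Matrix.det_one, mul_one] at hdz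
      have h2 := congrArg (fun g : GL I9 F => (g : Matrix I9 I9 F)) hz2
      simp only [Units.val_mul, hc, Matrix.smul_mul, Matrix.mul_smul, smul_smul, Matrix.one_mul,
        Units.val_one] at h2
      have hc2 : c * c = 1 := by
        have := congrFun (congrFun h2 0) 0
        simpa using this
      simp [Fintype.card_prod] at hdz
      have hc1 : c = 1 := by linear_combination hdz - (c ^ 7 + c ^ 5 + c ^ 3 + c) * hc2
      exact hz1 (Units.ext (by rw [hc, hc1, one_smul, Units.val_one]))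
    have hzk' : (k' : Matrix I9 I9 F) * z = z * k' := by
      rw [← Units.val_mul, ← Units.val_mul, hzk]
    rcases invol_kind hG hD hns hzn hzp (by rw [← Units.val_mul, hz2, Units.val_one]) hzs with
      h | ⟨s, r, hs, hr, hzr⟩
    · exfalso
      refine hcon ?_
      have hkn := h _ ⟨k', hk'G, rfl⟩ hzk'
      have hwn : Nrm9 ω (w : Matrix I9 I9 F) := by rw [ew]; exact Nrm9.weight hω _
      have := (hwn.mul hkn).mul (Nrm9.of_mul_eq_one hω w.mul_inv hwn)
      rwa [← Units.val_mul, ← Units.val_mul, hk',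
        show w * (w⁻¹ * k * w) * w⁻¹ = k by group, ek] at this
    · set r0 : W9 := (r.1, (0 : K3 × K3)) with hr0
      have hrr : r = r0 := Prod.ext rfl hr
      set U : W9 := ((0 : K3 × K3), u) with hU
      set α := wp ω (-(r.1.1 * U.1.2) + -(r.2.1 * U.2.2))
      refine ⟨1, U + r + U, one_ne_zero, ?_, ?_⟩
      · show u + r.2 + u = u + u
        rw [hr, add_zero]
      have hWz : ∃ δ : F, δ ≠ 0 ∧
          (w : Matrix I9 I9 F) * (z : Matrix I9 I9 F) = δ • (P9 ω (U + r + U) * JJ * (w : Matrix I9 I9 F)) := by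
        refine ⟨s * wp ω (-(r.1.1 * U.1.2) + -(r.2.1 * U.2.2)) *
          (wp ω (-((-U).1.1 * (U + r + U).1.2) + -((-U).2.1 * (U + r + U).2.2)))⁻¹, ?_, ?_⟩
        · exact mul_ne_zero (mul_ne_zero hs (hω.wp_ne_zero _)) (inv_ne_zero (hω.wp_ne_zero _))
        · rw [hzr, ew, Matrix.mul_assoc (P9 ω (U + r + U)), JJ_P9, ← Matrix.mul_assoc,
            P9_mul hω (U + r + U), Matrix.mul_smul, ← Matrix.mul_assoc, P9_mul hω, Matrix.smul_mul,
            Matrix.smul_mul, smul_smul, smul_smul, add_neg_cancel_right]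
          congr 1
          exact (inv_mul_cancel_right₀ (hω.wp_ne_zero _) _).symm
      obtain ⟨δ, hδ, hδe⟩ := hWz
      rw [one_smul]
      set M := P9 ω (U + r + U) * JJ
      have hwk : (k : Matrix I9 I9 F) * w = w * k' := by
        rw [← Units.val_mul, ← Units.val_mul, hk']; congr 1; group
      refine w.isUnit.mul_left_inj.1 (smul_right_injective (Matrix I9 I9 F) hδ ?_)
      show δ • _ = δ • _
      calc δ • ((k : Matrix I9 I9 F) * M * w) = (k : Matrix I9 I9 F) * (w * z) := by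
            rw [hδe, Matrix.mul_smul, Matrix.mul_assoc]
        _ = (w : Matrix I9 I9 F) * ((k' : Matrix I9 I9 F) * z) := by rw [← Matrix.mul_assoc, hwk, Matrix.mul_assoc]
        _ = (w : Matrix I9 I9 F) * (z : Matrix I9 I9 F) * (k' : Matrix I9 I9 F) := by rw [hzk', Matrix.mul_assoc]
        _ = δ • (M * (k : Matrix I9 I9 F) * (w : Matrix I9 I9 F)) := by
            rw [hδe, Matrix.smul_mul, Matrix.mul_assoc, ← hwk, ← Matrix.mul_assoc]
  obtain ⟨s, r, hs, hr, e⟩ := key 0
  obtain ⟨s', r', hs', hr', e'⟩ := key (1, 0)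
  have hne : r + -r' ≠ 0 := by
    intro h
    have := congrArg Prod.snd h
    rw [Prod.snd_add, Prod.snd_neg, hr, hr'] at this
    exact absurd this (by decide)
  refine hcon (ek ▸ proj_centraliser hG hD hns ⟨k, hk, rfl⟩ hne (c := 1) ?_)
  set κ := s * s' * wp ω (-((-r').1.1 * r.1.2) + -((-r').2.1 * r.2.2))
  have hκ : κ ≠ 0 := mul_ne_zero (mul_ne_zero hs hs') (hω.wp_ne_zero _)
  have hprod : s • (P9 ω r * JJ) * (s' • (P9 ω r' * JJ)) = κ • P9 ω (r + -r') := by
    rw [Matrix.smul_mul, Matrix.mul_smul, smul_smul, Matrix.mul_assoc, ← Matrix.mul_assoc JJ,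
      JJ_P9, Matrix.mul_assoc (P9 ω (-r')), JJ_sq, Matrix.mul_one, P9_mul hω, smul_smul]
  rw [one_smul]
  refine smul_right_injective (Matrix I9 I9 F) hκ ?_
  show κ • _ = κ • _
  rw [← Matrix.mul_smul, ← Matrix.smul_mul, ← hprod, ← Matrix.mul_assoc, e, Matrix.mul_assoc, e',
    Matrix.mul_assoc]

/-- Every member of the overgroup normalises the weight lines. -/
theorem all_nrm {A : Matrix I9 I9 F} (hA : InG G A) : Nrm9 ω A := by
  have hω := hG.om
  obtain ⟨B, hB, hAB, hBA⟩ := hA.exists_inv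
  have hconj : ∀ w : W9, ∀ {X Y : Matrix I9 I9 F}, InG G X → X * Y = 1 →
      Nrm9 ω (X * P9 ω w * Y) := by
    intro w X Y hX hXY
    have hYX : Y * X = 1 := mul_eq_one_comm.1 hXY
    obtain ⟨V, hV, hV1, -⟩ := (hG.P9_mem w).exists_inv
    have h1 := conj_JJ hG hD hns hX hXY
    have h2 := conj_JJ hG hD hns (hX.mul (hG.P9_mem w)) (B := V * Y) (by
      rw [Matrix.mul_assoc, ← Matrix.mul_assoc (P9 ω w), hV1, Matrix.one_mul, hXY])
    have hJ : ∃ m : F, m ≠ 0 ∧ (JJ : Matrix I9 I9 F) * (P9 ω w * JJ * V) = m • P9 ω w := by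
      have hP : ∀ w : W9, -w = w + w := fun w => by
        have h : ∀ x : K3 × K3, -x = x + x := by decide
        exact Prod.ext (h _) (h _)
      refine ⟨(wp ω (-(w.1.1 * w.1.2) + -(w.2.1 * w.2.2)))⁻¹,
        inv_ne_zero (hω.wp_ne_zero _), ?_⟩
      calc (JJ : Matrix I9 I9 F) * (P9 ω w * JJ * V) = P9 ω (-w) * (JJ * JJ) * V := by
            rw [← Matrix.mul_assoc, ← Matrix.mul_assoc, JJ_P9, Matrix.mul_assoc (P9 ω (-w))]
        _ = (wp ω (-(w.1.1 * w.1.2) + -(w.2.1 * w.2.2)))⁻¹ • (P9 ω w * (P9 ω w * V)) := by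
            rw [JJ_sq, Matrix.mul_one, ← Matrix.mul_assoc, P9_mul hω, ← hP, Matrix.smul_mul,
              smul_smul, inv_mul_cancel₀ (hω.wp_ne_zero _), one_smul]
        _ = _ := by rw [hV1, Matrix.mul_one]
    obtain ⟨m, hm, em⟩ := hJ
    have e : X * P9 ω w * Y = m⁻¹ • (X * JJ * Y * (X * P9 ω w * JJ * (V * Y))) := by
      calc X * P9 ω w * Y = m⁻¹ • (X * ((JJ : Matrix I9 I9 F) * (P9 ω w * JJ * V)) * Y) := by
            rw [em, Matrix.mul_smul, Matrix.smul_mul, smul_smul, inv_mul_cancel₀ hm, one_smul]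
        _ = m⁻¹ • (X * JJ * (Y * X) * (P9 ω w * JJ * V) * Y) := by
            rw [hYX, Matrix.mul_one]; simp only [Matrix.mul_assoc]
        _ = _ := by simp only [Matrix.mul_assoc]
    rw [e]
    exact (h1.mul h2).smul _
  set w : W9 := (((1 : K3), (0 : K3)), (0 : K3 × K3)) with hw
  have hw0 : w ≠ 0 := by decide
  set Q := A * P9 ω w * B with hQ
  have hQn : Nrm9 ω Q := hconj w hA hAB
  have hQu : IsUnit Q := ((hA.mul (hG.P9_mem w)).mul hB).isUnit
  have hQA : Q * A = A * P9 ω w := by rw [hQ, Matrix.mul_assoc, hBA, Matrix.mul_one]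
  by_cases hid : ∀ v, ∃ c : F, Q * P9 ω v = c • (P9 ω v * Q)
  · obtain ⟨s, x, hs, hsx⟩ := exists_P9_of_id hω hQu hid
    have e : A * P9 ω w = s • (P9 ω x * A) := by rw [← hQA, hsx, Matrix.smul_mul]
    have hx0 : x ≠ 0 := by
      rintro rfl
      rw [P9_zero, Matrix.one_mul] at e
      refine hw0 (P9_ne_smul_one hω (c := s) ?_)
      calc P9 ω w = B * (A * P9 ω w) := by rw [← Matrix.mul_assoc, hBA, Matrix.one_mul]
        _ = s • 1 := by rw [e, Matrix.mul_smul, hBA]
    exact line_to_line hG hD hns hA hx0 hw0 e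
  push Not at hid
  obtain ⟨v, hv⟩ := hid
  obtain ⟨u, c, hc, eQ⟩ := hQn v
  have huv : u ≠ v := fun h => hv c (by subst h; exact eQ)
  -- the conjugating element carries weight lines to weight lines
  have hM := hconj v hB hBA
  obtain ⟨y, c', hc', eM⟩ := hM w
  set kf := wp ω (-(y.1.1 * w.1.2) + -(y.2.1 * w.2.2))
  have hM2 : (B * P9 ω v * A) * P9 ω w = c' • (P9 ω y * (B * P9 ω v * A)) := eM
  have e1 : P9 ω v * Q = c' • (A * P9 ω y * B * P9 ω v) := by
    calc P9 ω v * Q = A * ((B * P9 ω v * A) * P9 ω w) * B := by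
          simp only [hQ, ← Matrix.mul_assoc, hAB, Matrix.one_mul]
      _ = _ := by
          rw [hM2, Matrix.mul_smul, Matrix.smul_mul]
          simp only [Matrix.mul_assoc, hAB, Matrix.mul_one]
  obtain ⟨k, hk⟩ : ∃ k : F, P9 ω u = k • (P9 ω (u + -v) * P9 ω v) := by
    refine ⟨(wp ω (-(v.1.1 * (u + -v).1.2) + -(v.2.1 * (u + -v).2.2)))⁻¹, ?_⟩
    rw [P9_mul hω, smul_smul, inv_mul_cancel₀ (hω.wp_ne_zero _), neg_add_cancel_right, one_smul]
  have e3 : A * P9 ω w * B = (c * k * c') • (P9 ω (u + -v) * (A * P9 ω y * B)) := by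
    refine (isUnit_P9 hω v).mul_left_inj.1 ?_
    calc A * P9 ω w * B * P9 ω v = c • (P9 ω u * Q) := eQ
      _ = (c * k) • (P9 ω (u + -v) * (P9 ω v * Q)) := by
          rw [hk, Matrix.smul_mul, smul_smul, Matrix.mul_assoc]
      _ = _ := by rw [e1, Matrix.mul_smul, smul_smul, Matrix.smul_mul, ← Matrix.mul_assoc]
  set m := c * k * c'
  have e4 : A * P9 ω w = m • (P9 ω (u + -v) * (A * P9 ω y)) := by
    have := congrArg (fun M => M * A) e3
    simpa only [Matrix.smul_mul, Matrix.mul_assoc, hBA, Matrix.mul_one] using this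
  obtain ⟨l, hl⟩ : ∃ l : F, P9 ω w = l • (P9 ω (w + -y) * P9 ω y) := by
    refine ⟨(wp ω (-(y.1.1 * (w + -y).1.2) + -(y.2.1 * (w + -y).2.2)))⁻¹, ?_⟩
    rw [P9_mul hω, smul_smul, inv_mul_cancel₀ (hω.wp_ne_zero _), neg_add_cancel_right, one_smul]
  have e5 : l • (A * P9 ω (w + -y)) = m • (P9 ω (u + -v) * A) := by
    refine (isUnit_P9 hω y).mul_left_inj.1 ?_
    rw [Matrix.smul_mul, Matrix.smul_mul, Matrix.mul_assoc, ← Matrix.mul_smul, ← hl, e4,
      Matrix.mul_assoc]
  have hl0 : l ≠ 0 := by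
    rintro rfl
    rw [zero_smul] at hl
    exact (isUnit_P9 hω w).ne_zero hl
  have hm0 : m ≠ 0 := by
    intro h
    rw [h, zero_smul] at e3
    exact hQu.ne_zero e3
  have hwy : w + -y ≠ 0 := by
    intro h
    rw [h, P9_zero, Matrix.mul_one] at e5
    have hne : u + -v ≠ 0 := fun h' => huv (by rwa [add_neg_eq_zero] at h')
    refine hne (P9_ne_smul_one hω (c := m⁻¹ * l) (hA.isUnit.mul_left_inj.1 ?_))
    rw [Matrix.smul_mul, Matrix.one_mul, mul_smul, e5, smul_smul, inv_mul_cancel₀ hm0, one_smul]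
  refine line_to_line hG hD hns hA (fun h => huv (add_neg_eq_zero.1 h)) hwy (c := l⁻¹ * m) ?_
  rw [mul_smul, ← e5, smul_smul, inv_mul_cancel₀ hl0, one_smul]

end Main

end Cfsg.Agent.CSixNine
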