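import Cfsg.Agent.CSixNine.Standard
import Cfsg.Agent.CSixNine.Dicho
import Cfsg.Agent.MaxSub.Proper

/-!
Maximality in `SL₉(p)` of normalisers of groups of symplectic type of order `3^5`.
-/

set_option autoImplicit false
set_option linter.unusedSectionVars false

namespace Cfsg.Agent.CSixNine

open Matrix Cfsg.Geo
open scoped MatrixGroups Matrix Kronecker commutatorElement

variable {F : Type*} [Field F] {ω : F}

/-- A unit swapping the factors. -/
def swPerm : Equiv.Perm I9 := Equiv.prodComm K3 K3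

lemma sign_swPerm : Equiv.Perm.sign swPerm = -1 := by decide +kernel

lemma det_swM : Matrix.det (swM : Matrix I9 I9 F) = -1 := by
  have e : (swM : Matrix I9 I9 F) = swPerm.permMatrix F := by
    ext p q
    simp [swM, swPerm, Equiv.Perm.permMatrix, PEquiv.toMatrix, Prod.ext_iff, eq_comm]
    congr 1
    exact propext ⟨fun h => ⟨h.2, h.1⟩, fun h => ⟨h.2, h.1⟩⟩
  rw [e, Matrix.det_permutation, sign_swPerm]
  simp

lemma det_P3_X (hω : Omega ω) : Matrix.det (P3 ω ((1 : K3), (0 : K3)) : Matrix K3 K3 F) = 1 := by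
  have e : (P3 ω ((1 : K3), (0 : K3)) : Matrix K3 K3 F) = Matrix.diagonal fun i => wp ω i := by
    ext i k
    by_cases h : i = k <;> simp [P3_apply, Matrix.diagonal, h]
  rw [e, Matrix.det_diagonal, show (Finset.univ : Finset K3) = {0, 1, 2} from by decide,
    Finset.prod_insert (by decide), Finset.prod_insert (by decide), Finset.prod_singleton,
    ← hω.wp_add, ← hω.wp_add, show (0 : K3) + (1 + 2) = 0 from by decide, wp_zero]

lemma det_P3_Y : Matrix.det (P3 ω ((0 : K3), (1 : K3)) : Matrix K3 K3 F) = 1 := by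
  have h : Matrix.det (Matrix.of fun i k : K3 => if i = k + 1 then (1 : ℤ) else 0) = 1 := by
    decide
  have e : (P3 ω ((0 : K3), (1 : K3)) : Matrix K3 K3 F) = (Int.castRingHom F).mapMatrix
      (Matrix.of fun i k : K3 => if i = k + 1 then (1 : ℤ) else 0) := by
    ext i k
    by_cases hik : i = k + 1 <;> simp [P3_apply, hik]
  rw [e, ← RingHom.map_det, h]
  simp

lemma det_tau (hω : Omega ω) : Matrix.det (tauM ω) = ω ^ 2 := by
  rw [tauM, Matrix.det_diagonal, show (Finset.univ : Finset K3) = {0, 1, 2} from by decide,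
    Finset.prod_insert (by decide), Finset.prod_insert (by decide), Finset.prod_singleton]
  simp (config := { decide := true })
  ring

lemma prod_three (f : K3 → F) : ∏ x, f x = f 0 * (f 1 * f 2) := by
  rw [show (Finset.univ : Finset K3) = {0, 1, 2} from by decide,
    Finset.prod_insert (by decide), Finset.prod_insert (by decide), Finset.prod_singleton]

lemma det_cx (hω : Omega ω) : Matrix.det (blk fun i => P3 ω (i, 0)) = 1 := by
  rw [cx_eq, Matrix.det_diagonal, Fintype.prod_prod_type, prod_three]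
  simp only [prod_three, ← hω.wp_add]
  rw [show ((0 : K3) * 0 + (0 * 1 + 0 * 2) + (1 * 0 + (1 * 1 + 1 * 2) + (2 * 0 + (2 * 1 + 2 * 2)))) = 0
    from by decide, wp_zero]

lemma det_four [Fintype F] (R : Cfsg.Agent.SLThree.Symp.Root3 F) :
    R.r ^ 3 * Matrix.det (fourM R.ω) = 1 := by
  have h := R.det_Qs_gen.1
  rw [R.val_gW₁, w₁M_eq R] at h
  have h2 : Matrix.det (R.r • fourM R.ω) = 1 := h
  rw [Matrix.det_smul] at h2
  simpa using h2

/-- A matrix normalising the weight lines normalises the group of weight operators. -/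
lemma conj_std (hω : Omega ω) {W x : GL I9 F} (hW : Nrm9 ω (W : Matrix I9 I9 F))
    (hx : ∃ (t : K3) (v : W9), (x : Matrix I9 I9 F) = wp ω t • P9 ω v) :
    ∃ (t : K3) (v : W9), ((W * x * W⁻¹ : GL I9 F) : Matrix I9 I9 F) = wp ω t • P9 ω v := by
  obtain ⟨t, v, e⟩ := hx
  obtain ⟨w, c, -, ew⟩ := hW v
  obtain ⟨t', rfl⟩ := hω.exists_wp (conj_cube9 hω W.isUnit ew)
  refine ⟨t + t', w, ?_⟩
  rw [Units.val_mul, Units.val_mul, e, Matrix.mul_smul, ew, smul_smul, ← hω.wp_add,
    Matrix.smul_mul, Matrix.mul_assoc, Units.mul_inv, Matrix.mul_one]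

/-- Normalisers of groups of symplectic type of order `3^5` are maximal in `SL₉(p)`. -/
theorem symplecticType_three_maximal [Fintype F] (hcore : SympCoreStatement F) {p : ℕ}
    (hp : p.Prime) (hcard : Fintype.card F = p) (hp3 : p % 3 = 1)
    {R : Subgroup (GL (Fin 9) F)} (hR : IsLinearSymplecticTypeData 3 R) :
    IsMaximalIn (specialLinear (Fin 9) F) (subgroupNormalizer R ⊓ specialLinear (Fin 9) F) := by
  classical
  haveI : Fact p.Prime := ⟨hp⟩
  haveI : CharP F p := charP_of_card_eq_prime hcard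
  have hnat : ∀ c : F, ∃ n : ℕ, (n : F) = c := by
    intro c
    have hb : Function.Bijective (ZMod.castHom (dvd_refl p) F) := by
      refine (Fintype.bijective_iff_injective_and_card _).2 ⟨(ZMod.castHom (dvd_refl p) F).injective, ?_⟩
      rw [ZMod.card, hcard]
    obtain ⟨a, rfl⟩ := hb.2 c
    exact ⟨a.val, by rw [← map_natCast (ZMod.castHom (dvd_refl p) F), ZMod.natCast_zmod_val]⟩
  have hne : ∀ q : ℕ, q.Prime → q ≠ p → (q : F) ≠ 0 := fun q hq hqp h =>
    hqp ((Nat.prime_dvd_prime_iff_eq hp hq).1 ((CharP.cast_eq_zero_iff F p q).1 h)).symm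
  have h2 : (2 : F) ≠ 0 := by
    have := hne 2 Nat.prime_two (by omega)
    exact_mod_cast this
  have h5 : (5 : F) ≠ 0 := by
    have := hne 5 (by norm_num) (by omega)
    exact_mod_cast this
  haveI : Fact (Nat.Prime 3) := ⟨Nat.prime_three⟩
  have h9 : 3 ≤ Fintype.card (Fin 9) := by rw [Fintype.card_fin]; norm_num
  refine ⟨lt_of_le_not_ge inf_le_right fun hle => MaxSub.not_le_subgroupNormalizer h9
    hR.symplecticType.pGroup hR.absIrred (hle.trans inf_le_left), fun M hM hMS => ?_⟩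
  obtain ⟨ω, hRD⟩ := rdata_of_symplecticType hR
  have hω := hRD.om
  obtain ⟨φ, hφdet, hφR⟩ := hRD.exists_coord
  have hSL : ∀ g : GL (Fin 9) F, g ∈ specialLinear (Fin 9) F ↔
      Matrix.det (g : Matrix (Fin 9) (Fin 9) F) = 1 := fun g =>
    GeoClasses.mem_specialLinear_iff
  have hnorm : ∀ g : GL (Fin 9) F, Nrm9 ω (φ g : Matrix I9 I9 F) → g ∈ subgroupNormalizer R := by
    intro g hg
    refine Subgroup.mem_normalizer_fintype fun x hx => ?_
    have h1 := (hφR (φ x)).1 (by rw [φ.symm_apply_apply]; exact hx)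
    have h2 := (hφR _).2 (conj_std hω hg h1)
    rwa [← map_inv, ← map_mul, ← map_mul, φ.symm_apply_apply] at h2
  -- the overgroup in standard coordinates, extended by the scalars
  let G : Subgroup (GL I9 F) :=
    { carrier := {x | ∃ c : F, c ≠ 0 ∧ ∃ g ∈ M, (x : Matrix I9 I9 F) = c • (φ g : Matrix I9 I9 F)}
      one_mem' := ⟨1, one_ne_zero, 1, one_mem M, by rw [map_one, one_smul]⟩
      mul_mem' := by
        rintro a b ⟨c, hc, g, hg, ea⟩ ⟨d, hd, h, hh, eb⟩
        exact ⟨c * d, mul_ne_zero hc hd, g * h, mul_mem hg hh, by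
          rw [Units.val_mul, ea, eb, Matrix.smul_mul, Matrix.mul_smul, smul_smul, map_mul,
            Units.val_mul]⟩
      inv_mem' := by
        rintro a ⟨c, hc, g, hg, ea⟩
        refine ⟨c⁻¹, inv_ne_zero hc, g⁻¹, inv_mem hg, ?_⟩
        refine a.isUnit.mul_right_inj.1 ?_
        rw [Units.mul_inv, ea, Matrix.smul_mul, Matrix.mul_smul, smul_smul, mul_inv_cancel₀ hc,
          one_smul, ← Units.val_mul, ← map_mul, mul_inv_cancel, map_one, Units.val_one] }
  -- weight normalisers of determinant a ninth power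
  have hmem : ∀ (W : Matrix I9 I9 F) (c : F), Nrm9 ω W → c ^ 9 * Matrix.det W = 1 → InG G W := by
    intro W c hn hd
    have hc : c ≠ 0 := by rintro rfl; simp at hd
    have hW : IsUnit W := (Matrix.isUnit_iff_isUnit_det _).2
      (isUnit_iff_ne_zero.2 fun h => by simp [h] at hd)
    have hcW : IsUnit (c • W) := (Matrix.isUnit_iff_isUnit_det _).2 (by
      rw [Matrix.det_smul, show Fintype.card I9 = 9 by simp [Fintype.card_prod], hd]
      exact isUnit_one)
    set g : GL (Fin 9) F := φ.symm hcW.unit with hg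
    have eg : (φ g : Matrix I9 I9 F) = c • W := by
      rw [hg, φ.apply_symm_apply, IsUnit.unit_spec]
    have hgM : g ∈ M := by
      refine hM ⟨hnorm g ?_, (hSL g).2 ?_⟩
      · rw [eg]; exact hn.smul c
      · rw [← hφdet, eg, Matrix.det_smul, show Fintype.card I9 = 9 by simp [Fintype.card_prod], hd]
    exact ⟨hW.unit, ⟨c⁻¹, inv_ne_zero hc, g, hgM, by
      rw [eg, IsUnit.unit_spec, smul_smul, inv_mul_cancel₀ hc, one_smul]⟩, hW.unit_spec⟩
  have hdl : ∀ A : Matrix K3 K3 F,
      Matrix.det (A ⊗ₖ (1 : Matrix K3 K3 F)) = Matrix.det A ^ 3 := fun A => by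
    rw [Matrix.det_kronecker, Matrix.det_one, one_pow, mul_one, ZMod.card]
  let R3 : Cfsg.Agent.SLThree.Symp.Root3 F := ⟨ω, hω.eqn, h2, hω.three⟩
  have hG : Gen ω G :=
    { om := hω
      nat := hnat
      two := h2
      scal := by
        intro c hc
        have hu : IsUnit (c • (1 : Matrix I9 I9 F)) := IsUnit.of_mul_eq_one (c⁻¹ • 1) (by
          rw [Matrix.smul_mul, Matrix.one_mul, smul_smul, mul_inv_cancel₀ hc, one_smul])
        exact ⟨hu.unit, ⟨c, hc, 1, one_mem M, by rw [IsUnit.unit_spec, map_one, Units.val_one]⟩,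
          hu.unit_spec⟩
      lX := hmem _ 1 (Nrm9.kron (fun v => ⟨v, _, hω.wp_ne_zero _, P3_comm hω (1, 0) v⟩) Nrm3.one)
        (by rw [hdl, det_P3_X hω]; simp)
      lY := hmem _ 1 (Nrm9.kron (fun v => ⟨v, _, hω.wp_ne_zero _, P3_comm hω (0, 1) v⟩) Nrm3.one)
        (by rw [hdl, det_P3_Y]; simp)
      lT := hmem _ 1 (Nrm9.kron (Nrm3.of_induces (tau_P3 hω)) Nrm3.one)
        (by rw [hdl, det_tau hω, one_pow, one_mul, ← pow_mul, mul_comm, pow_mul, hω.cube, one_pow])
      lF := hmem _ R3.r (Nrm9.kron (Nrm3.of_induces (four_P3 hω)) Nrm3.one)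
        (by
          rw [hdl]
          have h := det_four R3
          calc R3.r ^ 9 * Matrix.det (fourM ω) ^ 3 = (R3.r ^ 3 * Matrix.det (fourM ω)) ^ 3 := by ring
            _ = 1 := by rw [h, one_pow])
      swp := hmem _ (-1) Nrm9.swap (by rw [det_swM]; norm_num)
      cx := hmem _ 1 (Nrm9.cx hω) (by rw [det_cx hω]; simp) }
  by_cases hns : NoSL G
  · left
    refine le_antisymm (fun g hg => ⟨hnorm g ?_, hMS hg⟩) hM
    exact all_nrm hG (dicho_of_core hcore hω hnat h2 h5) hns
      ⟨φ g, ⟨1, one_ne_zero, g, hg, (one_smul _ _).symm⟩, rfl⟩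
  · right
    have hle : specialLinear I9 F ≤ G := not_not.1 hns
    refine le_antisymm hMS ?_
    have key : ∀ a ∈ specialLinear (Fin 9) F, ∃ g ∈ M, ∀ x : GL (Fin 9) F,
        a * x * a⁻¹ = g * x * g⁻¹ := by
      intro a ha
      obtain ⟨c, hc, g, hg, e⟩ := hle (show φ a ∈ specialLinear I9 F from
        GeoClasses.mem_specialLinear_iff.2 (by rw [hφdet]; exact (hSL a).1 ha))
      refine ⟨g, hg, fun x => ?_⟩
      have hz : ∀ y : GL I9 F, ((φ g)⁻¹ * φ a) * y = y * ((φ g)⁻¹ * φ a) := by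
        intro y
        refine Units.ext ?_
        simp only [Units.val_mul, e, Matrix.mul_smul, Units.inv_mul, Matrix.smul_mul, Matrix.one_mul,
          Matrix.mul_one]
      have hcen : g⁻¹ * a * x = x * (g⁻¹ * a) := φ.injective (by
        simpa only [map_mul, map_inv] using hz (φ x))
      calc a * x * a⁻¹ = g * (g⁻¹ * a * x) * a⁻¹ := by group
        _ = g * (x * (g⁻¹ * a)) * a⁻¹ := by rw [hcen]
        _ = g * x * g⁻¹ := by group
    rw [← MaxSub.specialLinear_commutator h9, Subgroup.commutator_le]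
    intro a ha b hb
    obtain ⟨g, hg, hga⟩ := key a ha
    obtain ⟨h, hh, hhb⟩ := key b hb
    have e : ⁅a, b⁆ = ⁅g, h⁆ := by
      simp only [commutatorElement_def]
      calc a * b * a⁻¹ * b⁻¹ = g * b * g⁻¹ * b⁻¹ := by rw [hga b]
        _ = g * (b * g⁻¹ * b⁻¹) := by group
        _ = g * (h * g⁻¹ * h⁻¹) := by rw [hhb g⁻¹]
        _ = g * h * g⁻¹ * h⁻¹ := by group
    rw [e, commutatorElement_def]
    exact mul_mem (mul_mem (mul_mem hg hh) (inv_mem hg)) (inv_mem hh)

end Cfsg.Agent.CSixNine
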