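import Cfsg.Agent.CSixNine.Blocks

/-!
No element acts as a weight operator on one block and trivially on the others.
-/

set_option autoImplicit false
set_option linter.unusedSectionVars false

namespace Cfsg.Agent.CSixNine

open Matrix
open scoped MatrixGroups Matrix Kronecker

variable {F : Type*} [Field F] {ω : F} {G : Subgroup (GL I9 F)}

/-- The diagonal cube root matrix `diag(ω, 1, 1)`. -/
def Dm (ω : F) : Matrix K3 K3 F := Matrix.diagonal fun i => if i = 0 then ω else 1

/-- Its Fourier conjugate. -/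
def Em (ω : F) : Matrix K3 K3 F := 1 + Matrix.of fun _ _ => (ω - 1) * (3 : F)⁻¹

/-- The inversion `i ↦ -i`. -/
def Pim : Matrix K3 K3 F := Matrix.of fun i k => if i + k = 0 then 1 else 0

lemma omega_sq (hω : Omega ω) : Omega (ω ^ 2) :=
  ⟨by linear_combination hω.eqn + ω * hω.cube, hω.three⟩

lemma four_mul_Dm (hω : Omega ω) : fourM ω * Dm ω = Em ω * fourM ω := by
  ext i k
  rw [Em, add_mul, one_mul, Matrix.add_apply, Dm, Matrix.mul_diagonal]
  rw [Matrix.mul_apply]
  simp only [Matrix.of_apply, fourM]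
  rw [← Finset.mul_sum, sum_wp hω]
  by_cases h : k = 0
  · subst h; simp [wp_zero, hω.three]
  · simp [h]

lemma Dm_sq (ω : F) : Dm ω * Dm ω = Dm (ω ^ 2) := by
  rw [Dm, Dm, Matrix.diagonal_mul_diagonal]; congr 1; funext i
  by_cases h : i = 0 <;> simp [h, sq]

lemma Em_sq (hω : Omega ω) : Em ω * Em ω = Em (ω ^ 2) := by
  have h3 := hω.three
  ext i k
  rw [Em, Em, mul_add, add_mul, add_mul, one_mul, one_mul, mul_one]
  simp only [Matrix.add_apply, Matrix.mul_apply, Matrix.of_apply, sum_three]
  field_simp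
  ring

lemma braid (hω : Omega ω) : (Dm ω * Em ω * Dm ω) * (Dm ω * Em ω * Dm ω) = -(Pim : Matrix K3 K3 F) := by
  have h3 := hω.three
  have e : Dm ω * Em ω * Dm ω = ((ω ^ 2 - ω) * (3 : F)⁻¹) • fourM ω := by
    have h4 : (2 : K3) * 2 = 1 := by decide
    have h2 : wp ω 2 = ω ^ 2 := rfl
    have p2 : ω ^ 2 = -ω - 1 := by linear_combination hω.eqn
    have p3 : ω ^ 3 = 1 := hω.cube
    have p4 : ω ^ 4 = ω := by linear_combination ω * hω.cube
    ext i k
    rw [Dm, Matrix.mul_diagonal, Matrix.diagonal_mul, Em, Matrix.smul_apply]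
    simp only [Matrix.add_apply, Matrix.one_apply, Matrix.of_apply, fourM, smul_eq_mul]
    obtain rfl | rfl | rfl : i = 0 ∨ i = 1 ∨ i = 2 := by revert i; decide
    all_goals obtain rfl | rfl | rfl : k = 0 ∨ k = 1 ∨ k = 2 := by revert k; decide
    all_goals simp (config := { decide := true }) [wp_zero, wp_one, h2, h4]
    all_goals field_simp
    all_goals ring_nf
    all_goals simp only [p2, p3, p4]
    all_goals ring
  rw [e, Matrix.smul_mul, Matrix.mul_smul, smul_smul]
  ext i k
  rw [Matrix.smul_apply, four_sq_apply hω, Matrix.neg_apply, Pim, Matrix.of_apply, smul_eq_mul]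
  by_cases h : i + k = 0
  · rw [if_pos h, if_pos h]; field_simp; linear_combination (ω ^ 2 - 3 * ω + 3) * hω.eqn
  · rw [if_neg h, if_neg h]; ring

lemma Pim_sq : (Pim : Matrix K3 K3 F) * Pim = 1 := by
  ext i k
  rw [Matrix.mul_apply, Finset.sum_eq_single (-i)]
  · simp [Pim, Matrix.one_apply, neg_add_eq_zero]
  · intro b _ hb; simp only [Pim, Matrix.of_apply]
    rw [if_neg (fun h => hb (eq_neg_of_add_eq_zero_right h)), zero_mul]
  · simp

lemma kron_ne_smul {A : Matrix K3 K3 F} {i k : K3} (hik : i ≠ k) (h : A i k ≠ 0) (c : F) :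
    A ≠ c • 1 := fun e => h (by rw [e]; simp [hik])

/-- A block operator with one special block. -/
def eBlk (i₀ : K3) (A : Matrix K3 K3 F) : Matrix I9 I9 F :=
  blk fun i => if i = i₀ then A else 1

namespace Gen

variable (hG : Gen ω G)
include hG

lemma diag_root (i₀ : K3) (t : K3) : InG G (eBlk i₀ (wp ω t • (1 : Matrix K3 K3 F))) := by
  have h1 : InG G (Dm ω ⊗ₖ (1 : Matrix K3 K3 F)) := by
    have hsq : InG G ((tauM ω * tauM ω) ⊗ₖ (1 : Matrix K3 K3 F)) := by
      have := hG.lT.mul hG.lT
      rwa [kron_mul, Matrix.one_mul] at this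
    have := hG.smul hG.om.ne_zero hsq
    rw [← Matrix.smul_kronecker] at this
    convert this using 2
    rw [Dm, tauM, Matrix.diagonal_mul_diagonal, ← Matrix.diagonal_smul]
    congr 1; funext i
    by_cases h : i = 0
    · simp [h]
    · simp [h]; linear_combination -hG.om.cube
  have hD : InG G (eBlk 0 (ω • (1 : Matrix K3 K3 F))) := by
    convert h1 using 1
    rw [Dm, ← blk_scalar, eBlk]; congr 1; funext i
    by_cases h : i = 0 <;> simp [h]
  have hn : ∀ n : ℕ, InG G (eBlk 0 ((ω ^ n) • (1 : Matrix K3 K3 F))) := by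
    intro n
    induction n with
    | zero => simp only [eBlk, pow_zero, one_smul, ite_self, blk_one]; exact InG.one
    | succ n ih =>
      have := ih.mul hD
      rw [eBlk, eBlk, blk_mul] at this
      convert this using 1
      rw [eBlk]; congr 1; funext i
      by_cases h : i = 0
      · simp [h, smul_smul, pow_succ, mul_comm]
      · simp [h]
  have := hG.translate (hn t.val) i₀
  simpa [eBlk, wp, sub_eq_zero] using this

lemma eBlk_move {A : Matrix K3 K3 F} {i₀ : K3} (h : InG G (eBlk i₀ A)) (j : K3) :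
    InG G (eBlk j A) := by
  have := hG.translate h (j - i₀)
  convert this using 1
  simp only [eBlk]; congr 1; funext i
  by_cases hi : i = j
  · subst hi; simp
  · rw [if_neg hi, if_neg]; intro e; exact hi (by linear_combination e)

/-- One weight operator on a block gives all of them. -/
lemma eBlk_all {i₀ : K3} {r : K3 × K3} {s : F} (hs : s ^ 3 = 1) (hr : r ≠ 0)
    (h : InG G (eBlk i₀ (s • P3 ω r))) (v : K3 × K3) (hv : v ≠ 0) :
    InG G (eBlk 0 (P3 ω v)) := by
  have clean : ∀ (j : K3) (w : K3 × K3) (c : F), c ^ 3 = 1 → InG G (eBlk j (c • P3 ω w)) →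
      InG G (eBlk 0 (P3 ω w)) := by
    intro j w c hc hw
    have hc0 : c ≠ 0 := fun h0 => by simp [h0] at hc
    obtain ⟨t, ht⟩ := hG.om.exists_wp (show c⁻¹ ^ 3 = 1 by rw [inv_pow, hc, inv_one])
    have := (hG.diag_root j t).mul hw
    rw [eBlk, eBlk, blk_mul] at this
    refine hG.eBlk_move (i₀ := j) ?_ 0
    convert this using 1
    rw [eBlk]; congr 1; funext i
    by_cases hi : i = j
    · simp [hi, ← ht, smul_smul, mul_inv_cancel₀ hc0]
    · simp [hi]
  obtain ⟨a, b, c, rfl⟩ := word_transitive r v hr hv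
  have step : ∀ (T : K3 × K3 → K3 × K3) (W : Matrix K3 K3 F),
      InG G (W ⊗ₖ (1 : Matrix K3 K3 F)) → Induces ω W T → ∀ (n : ℕ) (w : K3 × K3),
      InG G (eBlk 0 (P3 ω w)) → InG G (eBlk 0 (P3 ω (T^[n] w))) := by
    intro T W hW hI n w hw
    induction n with
    | zero => simpa using hw
    | succ n ih =>
      rw [Function.iterate_succ_apply']
      obtain ⟨k, hk, e⟩ := hI (T^[n] w)
      have hk3 : k ^ 3 = 1 := by
        have hWu : IsUnit W := by
          obtain ⟨g, -, rfl⟩ := mem_comp (hG.rep_blk hW) 0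
          exact g.isUnit
        set Q := P3 ω (T^[n] w)
        set Q' := P3 ω (T (T^[n] w))
        have h2 : W * (Q * Q * Q) = (k ^ 3) • (Q' * Q' * Q' * W) := by
          calc W * (Q * Q * Q) = (W * Q) * Q * Q := by simp only [Matrix.mul_assoc]
            _ = (k • (Q' * W)) * Q * Q := by rw [e]
            _ = k • (Q' * (W * Q) * Q) := by simp only [Matrix.smul_mul, Matrix.mul_assoc]
            _ = k • (Q' * (k • (Q' * W)) * Q) := by rw [e]
            _ = (k * k) • (Q' * Q' * (W * Q)) := by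
                simp only [Matrix.mul_smul, Matrix.smul_mul, smul_smul, Matrix.mul_assoc]
            _ = (k ^ 3) • (Q' * Q' * Q' * W) := by
                rw [e]; simp only [Matrix.mul_smul, smul_smul, Matrix.mul_assoc]; congr 1; ring
        rw [pow_three_smul hG.om, pow_three_smul hG.om, Matrix.mul_one, Matrix.one_mul] at h2
        exact (smul_left_injective F hWu.ne_zero ((one_smul F W).trans h2)).symm
      refine clean 0 _ k hk3 ((hG.rep_blk hW).conj ih ?_)
      rw [eBlk, eBlk, blk_mul, blk_mul]; congr 1; funext i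
      by_cases hi : i = 0
      · simp [hi, e]
      · simp [hi]
  exact step _ _ hG.lT (tau_P3 hG.om) _ _ (step _ _ hG.lF (four_P3 hG.om) _ _
    (step _ _ hG.lT (tau_P3 hG.om) _ _ (clean i₀ r s hs h)))

end Gen

/-- No element is a weight operator on one block only. -/
theorem no_eBlk (hG : Gen ω G) (hD : Dicho ω) (hns : NoSL G) {i₀ : K3} {r : K3 × K3} {s : F}
    (hs : s ^ 3 = 1) (hr : r ≠ 0) : ¬ InG G (eBlk i₀ (s • P3 ω r)) := by
  intro h
  have h2 := hG.two
  have h3 := hG.om.three
  have he := hG.eBlk_all hs hr h (1, 0) (by decide)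
  -- move to the other factor
  have hDb : InG G (blk fun i => Dm (wp ω i)) := by
    convert hG.sw_mem he using 1
    ext ⟨p, q⟩ ⟨u, v⟩
    by_cases h2' : q = v
    · subst h2'
      by_cases h1 : p = u
      · subst h1
        by_cases h4 : q = 0 <;> simp [sw, eBlk, blk, Dm, P3_apply, h4]
      · by_cases h4 : q = 0 <;> simp [sw, eBlk, blk, Dm, P3_apply, h4, h1]
    · by_cases h1 : p = u <;> simp [sw, eBlk, blk, Dm, Matrix.diagonal, h1, h2']
  have hWp : ∀ i : K3, fourM ω * Dm (wp ω i) = Em (wp ω i) * fourM ω := by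
    intro i
    obtain rfl | rfl | rfl : i = 0 ∨ i = 1 ∨ i = 2 := by revert i; decide
    · have hD1 : Dm (1 : F) = 1 := by simp [Dm]
      have hE1 : Em (1 : F) = 1 := by ext p q; simp [Em]
      rw [wp_zero, hD1, hE1, Matrix.mul_one, Matrix.one_mul]
    · rw [wp_one]; exact four_mul_Dm hG.om
    · rw [show wp ω 2 = ω ^ 2 from rfl, ← Dm_sq, ← Em_sq hG.om, ← Matrix.mul_assoc,
        four_mul_Dm hG.om, Matrix.mul_assoc, four_mul_Dm hG.om, Matrix.mul_assoc]
  have hEb : InG G (blk fun i => Em (wp ω i)) :=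
    (hG.rep_blk hG.lF).conj hDb (by rw [blk_mul, blk_mul]; congr 1; funext i; exact hWp i)
  have hK := (hDb.mul hEb).mul hDb
  rw [blk_mul, blk_mul] at hK
  have hK2 := hK.mul hK
  rw [blk_mul] at hK2
  have hval : (fun i : K3 => Dm (wp ω i) * Em (wp ω i) * Dm (wp ω i) *
      (Dm (wp ω i) * Em (wp ω i) * Dm (wp ω i))) =
      fun i => if i = 0 then (1 : Matrix K3 K3 F) else -Pim := by
    funext i
    obtain rfl | rfl | rfl : i = 0 ∨ i = 1 ∨ i = 2 := by revert i; decide
    · have hD1 : Dm (1 : F) = 1 := by simp [Dm]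
      have hE1 : Em (1 : F) = 1 := by ext p q; simp [Em]
      rw [wp_zero, hD1, hE1, if_pos rfl]; simp
    · rw [wp_one, if_neg (by decide)]; exact braid hG.om
    · rw [show wp ω 2 = ω ^ 2 from rfl, if_neg (by decide)]; exact braid (omega_sq hG.om)
  rw [hval] at hK2
  have hPi : InG G ((Pim : Matrix K3 K3 F) ⊗ₖ (1 : Matrix K3 K3 F)) := by
    have hsq := hG.lF.mul hG.lF
    rw [kron_mul, Matrix.one_mul] at hsq
    have := hG.smul (inv_ne_zero h3) hsq
    rw [← Matrix.smul_kronecker] at this
    convert this using 2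
    rw [four_sq hG.om]; ext i k
    by_cases hik : i + k = 0 <;> simp [Pim, hik, h3]
  have hk := hK2.mul (hG.rep_blk hPi)
  rw [blk_mul] at hk
  have hk' := hG.smul (neg_ne_zero.2 (one_ne_zero (α := F))) hk
  rw [blk_smul] at hk'
  set W' : Matrix K3 K3 F := (2 : F)⁻¹ • (1 + Pim) with hW'
  set C' : Matrix K3 K3 F := (2 : F)⁻¹ • (1 - Pim) with hC'
  have hWW : W' * W' = W' := by
    rw [hW', Matrix.smul_mul, Matrix.mul_smul, smul_smul, add_mul, mul_add, mul_add, Pim_sq,
      one_mul, mul_one, one_mul]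
    match_scalars <;> field_simp <;> ring
  have hWC : W' * C' = 0 := by
    rw [hW', hC', Matrix.smul_mul, Matrix.mul_smul, smul_smul, add_mul, mul_sub, mul_sub, Pim_sq,
      one_mul, mul_one, one_mul]
    match_scalars <;> ring
  have hCW : C' * W' = 0 := by
    rw [hW', hC', Matrix.smul_mul, Matrix.mul_smul, smul_smul, sub_mul, mul_add, mul_add, Pim_sq,
      one_mul, mul_one, one_mul]
    match_scalars <;> ring
  have hCC : C' * C' = C' := by
    rw [hC', Matrix.smul_mul, Matrix.mul_smul, smul_smul, sub_mul, mul_sub, mul_sub, Pim_sq,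
      one_mul, mul_one, one_mul]
    match_scalars <;> field_simp <;> ring
  have hsum : W' + C' = 1 := by
    rw [hW', hC']; match_scalars <;> field_simp <;> ring
  let Y : Matrix K3 K3 F → Prop := fun g => InG G (g ⊗ₖ W' + (1 : Matrix K3 K3 F) ⊗ₖ C')
  have Ymul : ∀ {g g'}, Y g → Y g' → Y (g * g') := by
    intro g g' hg hg'
    have := hg.mul hg'
    rwa [add_mul, mul_add, mul_add, kron_mul, kron_mul, kron_mul, kron_mul, hWW, hWC, hCW, hCC,
      Matrix.kronecker_zero, Matrix.kronecker_zero, add_zero, zero_add, Matrix.one_mul] at this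
  have Yconj : ∀ {W g g'}, InG G (W ⊗ₖ (1 : Matrix K3 K3 F)) → W * g = g' * W → Y g → Y g' := by
    intro W g g' hW e hg
    refine hW.conj hg ?_
    rw [mul_add, add_mul, kron_mul, kron_mul, kron_mul, kron_mul, e, Matrix.one_mul,
      Matrix.one_mul, Matrix.mul_one, Matrix.mul_one, Matrix.mul_one, Matrix.one_mul]
  have Y0 : Y (Matrix.diagonal fun i => if i = 0 then (-1 : F) else 1) := by
    show InG G _
    have hblk : ∀ e : K3 → F, Matrix.diagonal e ⊗ₖ W' + (1 : Matrix K3 K3 F) ⊗ₖ C' =
        blk fun i => e i • W' + C' := by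
      intro e
      ext ⟨p, q⟩ ⟨u, v⟩
      by_cases hpu : p = u <;> simp [blk, Matrix.diagonal, Matrix.one_apply, hpu]
    rw [hblk]
    convert hk' using 2
    funext i
    by_cases hi : i = 0
    · simp only [if_pos hi, Matrix.one_mul, hW', hC']
      match_scalars <;> field_simp <;> ring
    · simp only [if_neg hi, Matrix.neg_mul, Pim_sq, one_smul, hsum, neg_smul, smul_neg, neg_neg]
  have Y1 : Y (Matrix.diagonal fun i => if i = 1 then (-1 : F) else 1) := by
    refine Yconj (W := P3 ω (0, 1)) (hG.lft_P (0, 1)) ?_ Y0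
    ext i k
    rw [Matrix.mul_diagonal, Matrix.diagonal_mul, P3_apply]
    by_cases hik : i = k + 1
    · subst hik
      by_cases hk0 : k = 0
      · subst hk0; simp
      · simp [hk0, mul_comm]
    · simp [hik]
  set d : Matrix K3 K3 F := Matrix.diagonal fun i => if i = 2 then (1 : F) else -1 with hd
  have Yd : Y d := by
    have := Ymul Y0 Y1
    rw [Matrix.diagonal_mul_diagonal] at this
    convert this using 2
    congr 1; funext i
    obtain rfl | rfl | rfl : i = 0 ∨ i = 1 ∨ i = 2 := by revert i; decide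
    all_goals simp (config := { decide := true })
  have hdd : d * d = 1 := by
    rw [hd, Matrix.diagonal_mul_diagonal, ← Matrix.diagonal_one]; congr 1; funext i
    by_cases h' : i = 2 <;> simp [h']
  -- the group normalising `Y`
  let H : Subgroup (GL K3 F) :=
    { carrier := {a | ∀ g, Y g ↔ Y ((a : Matrix K3 K3 F) * g * ((a⁻¹ : GL K3 F) : Matrix K3 K3 F))}
      one_mem' := fun g => by simp
      mul_mem' := by
        intro a b ha hb g
        rw [hb g, ha]
        simp [Matrix.mul_assoc]
      inv_mem' := by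
        intro a ha g
        rw [inv_inv, ha (((a⁻¹ : GL K3 F) : Matrix K3 K3 F) * g * (a : Matrix K3 K3 F))]
        have : (a : Matrix K3 K3 F) * (((a⁻¹ : GL K3 F) : Matrix K3 K3 F) * g * (a : Matrix K3 K3 F)) *
            ((a⁻¹ : GL K3 F) : Matrix K3 K3 F) = g := by
          simp [Matrix.mul_assoc]
        rw [this] }
  have hmem : ∀ {A B : Matrix K3 K3 F}, A * B = 1 → B * A = 1 →
      (∀ g, Y g → Y (A * g * B)) → (∀ g, Y g → Y (B * g * A)) → InG H A := by
    intro A B hAB hBA hu hd'
    refine ⟨⟨A, B, hAB, hBA⟩, fun g => ⟨hu g, fun hg => ?_⟩, rfl⟩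
    have := hd' _ hg
    simp only [Units.inv_mk] at this
    convert this using 1
    simp only [← Matrix.mul_assoc, hBA, Matrix.one_mul]
    rw [Matrix.mul_assoc, hBA, Matrix.mul_one]
  have hlft : ∀ {A : Matrix K3 K3 F}, InG G (A ⊗ₖ (1 : Matrix K3 K3 F)) → InG H A := by
    intro A hA
    obtain ⟨a, -, rfl⟩ := mem_comp (hG.rep_blk hA) 0
    have hA' : InG G (((a⁻¹ : GL K3 F) : Matrix K3 K3 F) ⊗ₖ (1 : Matrix K3 K3 F)) :=
      hA.of_mul_eq_one (by rw [kron_mul, a.mul_inv, Matrix.one_mul, Matrix.one_kronecker_one])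
    refine hmem a.mul_inv a.inv_mul (fun g => Yconj hA ?_) (fun g => Yconj hA' ?_)
    · simp [Matrix.mul_assoc]
    · simp [Matrix.mul_assoc]
  have hHd : InG H d := hmem hdd hdd (fun g hg => Ymul (Ymul Yd hg) Yd)
    (fun g hg => Ymul (Ymul Yd hg) Yd)
  rcases hD H (fun c hc => hlft (by rw [Matrix.smul_kronecker, Matrix.one_kronecker_one]; exact hG.scal c hc))
    (hlft hG.lX) (hlft hG.lY) (hlft hG.lT) (hlft hG.lF) with hN | hS
  · obtain ⟨w, c, hc, e⟩ := hN d hHd (0, 1)
    have e10 := congrFun (congrFun e 1) 0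
    have e21 := congrFun (congrFun e 2) 1
    have e02 := congrFun (congrFun e 0) 2
    simp only [hd, Matrix.diagonal_mul, Matrix.smul_apply, Matrix.mul_diagonal, P3_apply,
      zero_mul, wp_zero, zero_add, smul_eq_mul] at e10 e21 e02
    by_cases hw : w.2 = 1
    · rw [hw] at e10 e21 e02
      simp (config := { decide := true }) at e10 e21 e02
      -- `e10 : c * wp = 1`, `e21`, `e02`
      have t1 : c * wp ω w.1 = 1 := by linear_combination -e10
      have t2 : c * wp ω (w.1 * 2) = -1 := by linear_combination e21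
      have t3 : c = -1 := by linear_combination -e02
      rw [t3] at t1 t2
      have u1 : wp ω w.1 = -1 := by linear_combination -t1
      have u3 : wp ω (w.1 * 3) = wp ω w.1 * wp ω w.1 * wp ω w.1 := by
        rw [← hG.om.wp_add, ← hG.om.wp_add]; congr 1; ring
      rw [show w.1 * 3 = 0 from by rw [show (3 : K3) = 0 from by decide, mul_zero], wp_zero, u1] at u3
      exact h2 (by linear_combination u3)
    · have : (1 : K3) ≠ 0 + w.2 := by simpa using Ne.symm hw
      simp (config := { decide := true }) [Ne.symm hw] at e10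
  · set E : Matrix K3 K3 F := Matrix.single 0 2 1 with hE
    have hEE : E * E = 0 := Matrix.single_mul_single_of_ne _ _ _ _ (by decide) _
    have hdE : d * E = -E := by
      ext i k; rw [hd, Matrix.diagonal_mul]
      by_cases h' : (0 : K3) = i ∧ (2 : K3) = k
      · obtain ⟨rfl, rfl⟩ := h'; simp (config := { decide := true }) [hE]
      · simp [hE, Matrix.single_apply_of_ne _ _ _ _ _ h']
    have hEd : E * d = E := by
      ext i k; rw [hd, Matrix.mul_diagonal]
      by_cases h' : (0 : K3) = i ∧ (2 : K3) = k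
      · obtain ⟨rfl, rfl⟩ := h'; simp [hE]
      · simp [hE, Matrix.single_apply_of_ne _ _ _ _ _ h']
    obtain ⟨t, ht, et⟩ := hS (1 + E) (by
      rw [show (1 : Matrix K3 K3 F) + E = Matrix.transvection 0 2 1 from rfl,
        Matrix.det_transvection_of_ne 0 2 (by decide)])
    have et' : ((t⁻¹ : GL K3 F) : Matrix K3 K3 F) = 1 - E := by
      calc ((t⁻¹ : GL K3 F) : Matrix K3 K3 F) =
            ((t⁻¹ : GL K3 F) : Matrix K3 K3 F) * ((1 + E) * (1 - E)) := by
              rw [add_mul, one_mul, mul_sub, mul_one, hEE, sub_zero, sub_add_cancel, Matrix.mul_one]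
        _ = 1 - E := by rw [← et, ← Matrix.mul_assoc, t.inv_mul, Matrix.one_mul]
    have hY2 := Ymul ((ht d).1 Yd) Yd
    rw [et, et', show (1 + E) * d * (1 - E) * d = 1 + (2 : F) • E from by
      simp only [add_mul, mul_sub, sub_mul, one_mul, mul_one, hEd, hdE, neg_mul, mul_neg, hdd,
        Matrix.mul_assoc, hEE, two_smul]
      simp only [← Matrix.mul_assoc, hEd, hEE, Matrix.zero_mul]
      abel] at hY2
    refine hns (spread hG (a := 0) (b := 2) (by decide) (A := (2 : F) • W') ?_ ?_)
    · show InG G _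
      have e2 : (1 + (2 : F) • E) ⊗ₖ W' + (1 : Matrix K3 K3 F) ⊗ₖ C' =
          1 + E ⊗ₖ ((2 : F) • W') := by
        rw [Matrix.add_kronecker, Matrix.smul_kronecker, ← Matrix.kronecker_smul, add_right_comm,
          ← Matrix.kronecker_add, hsum, Matrix.one_kronecker_one]
      rwa [show Y (1 + (2 : F) • E) = InG G _ from rfl, e2] at hY2
    · intro c
      refine kron_ne_smul (i := 1) (k := 2) (by decide) ?_ c
      simp (config := { decide := true }) [hW', Pim, Matrix.one_apply, h2]

end Cfsg.Agent.CSixNine
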