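import Cfsg.Agent.CSixNine.Base

/-!
The weight lines in dimension nine and their normaliser.
-/

set_option autoImplicit false
set_option linter.unusedSectionVars false

namespace Cfsg.Agent.CSixNine

open Matrix
open scoped MatrixGroups Matrix Kronecker

variable {F : Type*} [Field F] {ω : F}

/-- Weights in dimension nine. -/
abbrev W9 : Type := (K3 × K3) × (K3 × K3)

/-- Weight operators in dimension nine. -/
def P9 (ω : F) (v : W9) : Matrix I9 I9 F := P3 ω v.1 ⊗ₖ P3 ω v.2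

/-- The symplectic form on weights in dimension nine. -/
def sym9 (v w : W9) : K3 := sym v.1 w.1 + sym v.2 w.2

lemma P9_zero : P9 ω (0 : W9) = 1 := by
  simp [P9, Matrix.one_kronecker_one]

lemma P9_mul (hω : Omega ω) (v w : W9) :
    P9 ω v * P9 ω w = wp ω (-(w.1.1 * v.1.2) + -(w.2.1 * v.2.2)) • P9 ω (v + w) := by
  simp only [P9, kron_mul, P3_mul hω, Matrix.smul_kronecker, Matrix.kronecker_smul, smul_smul,
    hω.wp_add, mul_comm, Prod.fst_add, Prod.snd_add]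

lemma P9_comm (hω : Omega ω) (v w : W9) :
    P9 ω v * P9 ω w = wp ω (sym9 v w) • (P9 ω w * P9 ω v) := by
  simp only [P9, kron_mul, sym9, hω.wp_add]
  rw [P3_comm hω v.1 w.1, P3_comm hω v.2 w.2, Matrix.smul_kronecker, Matrix.kronecker_smul, smul_smul]

lemma isUnit_P9 (hω : Omega ω) (v : W9) : IsUnit (P9 ω v) := by
  refine IsUnit.of_mul_eq_one
    ((wp ω (-((-v).1.1 * v.1.2) + -((-v).2.1 * v.2.2)))⁻¹ • P9 ω (-v)) ?_
  rw [Matrix.mul_smul, P9_mul hω, smul_smul, inv_mul_cancel₀ (hω.wp_ne_zero _), add_neg_cancel,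
    P9_zero, one_smul]

/-- Two weight operators with the same line are equal. -/
lemma P3_line (hω : Omega ω) {v w : K3 × K3} {c : F} (h : P3 ω v = c • P3 ω w) : v = w := by
  have := congrArg (fun M => M * P3 ω (-w)) h
  simp only [Matrix.smul_mul, P3_mul hω, add_neg_cancel, P3_zero, smul_smul] at this
  refine sub_eq_zero.1 (P3_ne_smul_one hω (c := (wp ω (-((-w).1 * v.2)))⁻¹ *
    (c * wp ω (-((-w).1 * w.2)))) ?_)
  rw [sub_eq_add_neg, mul_smul, ← this, smul_smul, inv_mul_cancel₀ (hω.wp_ne_zero _), one_smul]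

lemma P9_ne_smul_one (hω : Omega ω) {v : W9} {c : F} (h : P9 ω v = c • 1) : v = 0 := by
  have e1 : v.1 = 0 := by
    -- compare a block of the Kronecker product
    obtain ⟨j, l, hjl⟩ : ∃ j l : K3, P3 ω v.2 j l ≠ 0 := by
      refine ⟨0 + v.2.2, 0, ?_⟩
      rw [P3_apply, if_pos rfl]
      exact hω.wp_ne_zero _
    refine P3_ne_smul_one hω (c := (P3 ω v.2 j l)⁻¹ * (c * (1 : Matrix K3 K3 F) j l)) ?_
    ext i k
    have := congrFun (congrFun h (i, j)) (k, l)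
    rw [P9, Matrix.kroneckerMap_apply, Matrix.smul_apply, ← Matrix.one_kronecker_one,
      Matrix.kroneckerMap_apply, smul_eq_mul] at this
    rw [Matrix.smul_apply, smul_eq_mul, mul_assoc, mul_assoc,
      show c * ((1 : Matrix K3 K3 F) j l * (1 : Matrix K3 K3 F) i k) =
        P3 ω v.1 i k * P3 ω v.2 j l by rw [this]; ring,
      mul_comm (P3 ω v.1 i k), ← mul_assoc, inv_mul_cancel₀ hjl, one_mul]
  have e2 : v.2 = 0 := by
    refine P3_ne_smul_one hω (c := c) ?_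
    ext j l
    have := congrFun (congrFun h (0, j)) (0, l)
    rw [P9, e1, P3_zero, Matrix.kroneckerMap_apply, Matrix.smul_apply, ← Matrix.one_kronecker_one,
      Matrix.kroneckerMap_apply, Matrix.one_apply_eq, one_mul, one_mul] at this
    rw [this, Matrix.smul_apply]
  exact Prod.ext e1 e2

/-- `A` permutes the weight lines. -/
def Nrm9 (ω : F) (A : Matrix I9 I9 F) : Prop :=
  ∀ v, ∃ w, ∃ c : F, c ≠ 0 ∧ A * P9 ω v = c • (P9 ω w * A)

lemma Nrm9.mul {A B : Matrix I9 I9 F} (hA : Nrm9 ω A) (hB : Nrm9 ω B) : Nrm9 ω (A * B) := by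
  intro v
  obtain ⟨w, c, hc, e⟩ := hB v
  obtain ⟨u, d, hd, e'⟩ := hA w
  refine ⟨u, c * d, mul_ne_zero hc hd, ?_⟩
  rw [Matrix.mul_assoc, e, Matrix.mul_smul, ← Matrix.mul_assoc, e', Matrix.smul_mul, smul_smul,
    Matrix.mul_assoc]

lemma Nrm9.scalar (c : F) : Nrm9 ω (c • (1 : Matrix I9 I9 F)) :=
  fun v => ⟨v, 1, one_ne_zero, by simp⟩

lemma Nrm9.one : Nrm9 ω (1 : Matrix I9 I9 F) := by
  simpa using (Nrm9.scalar (ω := ω) 1)

lemma Nrm9.smul {A : Matrix I9 I9 F} (hA : Nrm9 ω A) (c : F) : Nrm9 ω (c • A) := by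
  simpa using (Nrm9.scalar c).mul hA

lemma Nrm9.weight (hω : Omega ω) (u : W9) : Nrm9 ω (P9 ω u) :=
  fun v => ⟨v, wp ω (sym9 u v), hω.wp_ne_zero _, P9_comm hω u v⟩

lemma Nrm9.kron {A B : Matrix K3 K3 F} (hA : Nrm3 ω A) (hB : Nrm3 ω B) :
    Nrm9 ω (A ⊗ₖ B) := by
  intro v
  obtain ⟨w, c, hc, e⟩ := hA v.1
  obtain ⟨w', d, hd, e'⟩ := hB v.2
  refine ⟨(w, w'), c * d, mul_ne_zero hc hd, ?_⟩
  simp only [P9, kron_mul, e, e', Matrix.smul_kronecker, Matrix.kronecker_smul, smul_smul]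
  rw [mul_comm d]

lemma Nrm3.one : Nrm3 ω (1 : Matrix K3 K3 F) := fun v => ⟨v, 1, one_ne_zero, by simp⟩

lemma Nrm3.of_induces {A : Matrix K3 K3 F} {T : K3 × K3 → K3 × K3} (h : Induces ω A T) :
    Nrm3 ω A := fun v => ⟨T v, h v⟩

lemma Nrm9.swap : Nrm9 ω (swM : Matrix I9 I9 F) := by
  intro v
  refine ⟨(v.2, v.1), 1, one_ne_zero, ?_⟩
  rw [one_smul, swM_mul, P9, P9, sw_kronecker]


lemma cx_eq (ω : F) : (blk fun i => P3 ω (i, 0)) = Matrix.diagonal fun p : I9 => wp ω (p.1 * p.2) := by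
  ext p q
  by_cases h1 : p.1 = q.1 <;> by_cases h2 : p.2 = q.2 <;>
    simp [blk, P3_apply, Matrix.diagonal, Prod.ext_iff, h1, h2]

lemma Nrm9.cx (hω : Omega ω) : Nrm9 ω (blk fun i => P3 ω (i, 0)) := by
  have key : ∀ a b c d : K3, ∃ t : K3, ∀ k l : K3, (k + b) * (l + d) + (a * (k + b) + c * (l + d)) =
      t + (((a + d) * (k + b) + (c + b) * (l + d)) + k * l) := by decide +kernel
  intro v
  obtain ⟨t, ht⟩ := key v.1.1 v.1.2 v.2.1 v.2.2
  refine ⟨((v.1.1 + v.2.2, v.1.2), (v.2.1 + v.1.2, v.2.2)), wp ω t, hω.wp_ne_zero _, ?_⟩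
  rw [cx_eq]
  ext ⟨i, j⟩ ⟨k, l⟩
  rw [Matrix.diagonal_mul, Matrix.smul_apply, Matrix.mul_diagonal]
  simp only [P9, Matrix.kroneckerMap_apply, P3_apply, smul_eq_mul]
  by_cases h1 : i = k + v.1.2
  · by_cases h2 : j = l + v.2.2
    · subst h1 h2
      simp only [if_pos, ← hω.wp_add]
      exact congrArg _ (ht k l)
    · simp [h2]
  · simp [h1]

end Cfsg.Agent.CSixNine
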