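import Cfsg.Agent.CSixNine.Centr

/-!
Subgroups of the three dimensional linear group normalised by the weight normaliser.
-/

set_option autoImplicit false
set_option linter.unusedSectionVars false

namespace Cfsg.Agent.CSixNine

open Matrix
open scoped MatrixGroups Matrix Kronecker Pointwise

variable {F : Type*} [Field F] {ω : F} {G : Subgroup (GL I9 F)}

lemma Nrm3.mul {A B : Matrix K3 K3 F} (hA : Nrm3 ω A) (hB : Nrm3 ω B) : Nrm3 ω (A * B) := by
  intro v
  obtain ⟨w, c, hc, e⟩ := hB v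
  obtain ⟨u, d, hd, e'⟩ := hA w
  refine ⟨u, c * d, mul_ne_zero hc hd, ?_⟩
  rw [Matrix.mul_assoc, e, Matrix.mul_smul, ← Matrix.mul_assoc, e', Matrix.smul_mul, smul_smul,
    Matrix.mul_assoc]

lemma Nrm3.of_mul_eq_one (hω : Omega ω) {A B : Matrix K3 K3 F} (h : A * B = 1) (hA : Nrm3 ω A) :
    Nrm3 ω B := by
  have h' : B * A = 1 := mul_eq_one_comm.1 h
  choose f c hc e using hA
  have hf : Function.Injective f := by
    intro v w hvw
    have e1 := congrArg (fun M => B * M) (e v)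
    have e2 := congrArg (fun M => B * M) (e w)
    simp only [← Matrix.mul_assoc, h', Matrix.one_mul, Matrix.mul_smul, hvw] at e1 e2
    refine P3_line hω (c := c v * (c w)⁻¹) ?_
    rw [e1, e2, smul_smul, inv_mul_cancel_right₀ (hc w)]
  intro v
  obtain ⟨u, rfl⟩ := Finite.surjective_of_injective hf v
  refine ⟨u, (c u)⁻¹, inv_ne_zero (hc u), ?_⟩
  calc B * P3 ω (f u) = B * (P3 ω (f u) * A) * B := by
        rw [Matrix.mul_assoc, Matrix.mul_assoc, h, Matrix.mul_one]
    _ = B * ((c u)⁻¹ • (A * P3 ω u)) * B := by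
        rw [e u, smul_smul, inv_mul_cancel₀ (hc u), one_smul]
    _ = (c u)⁻¹ • (P3 ω u * B) := by
        rw [Matrix.mul_smul, Matrix.smul_mul, ← Matrix.mul_assoc B A, h', Matrix.one_mul]

/-- The invertible matrices normalising the weight lines. -/
def N3 (hω : Omega ω) : Subgroup (GL K3 F) where
  carrier := {a | Nrm3 ω (a : Matrix K3 K3 F)}
  one_mem' := by
    show Nrm3 ω ((1 : GL K3 F) : Matrix K3 K3 F)
    rw [Units.val_one]; exact Nrm3.one
  mul_mem' := fun {a b} ha hb => by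
    show Nrm3 ω ((a * b : GL K3 F) : Matrix K3 K3 F)
    rw [Units.val_mul]; exact Nrm3.mul ha hb
  inv_mem' := fun {a} ha => Nrm3.of_mul_eq_one hω a.mul_inv ha

lemma smul_nrm3 (c : F) : Nrm3 ω (c • (1 : Matrix K3 K3 F)) :=
  fun v => ⟨v, 1, one_ne_zero, by simp⟩

lemma iterate_word : ∀ a : Fin 3, ∀ b : Fin 4, ∀ c : Fin 3, ∀ d : Fin 4, ∀ v : K3 × K3,
    (Tt^[a.val] ∘ Tf^[b.val] ∘ Tt^[c.val] ∘ Tf^[d.val])^[12] v = v := by
  decide +kernel

lemma wp_cube (hω : Omega ω) (a : K3) : wp ω a ^ 3 = 1 := by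
  rw [wp, ← pow_mul, mul_comm, pow_mul, hω.cube, one_pow]

/-- The weight normaliser has exponent dividing 36 modulo scalars. -/
lemma pow_scalar (hω : Omega ω) {A : Matrix K3 K3 F} (hA : IsUnit A) (h : Nrm3 ω A) :
    ∃ σ : F, σ ≠ 0 ∧ A ^ 36 = σ • (1 : Matrix K3 K3 F) := by
  obtain ⟨a, b, c, d, hI⟩ := exists_word_of_nrm hω hA h
  have h12 : Induces ω (A ^ 12) id := by
    intro v
    obtain ⟨k, hk, e⟩ := hI.pow 12 v
    rw [iterate_word a b c d v] at e
    exact ⟨k, hk, e⟩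
  obtain ⟨s, e, hs, he⟩ := exists_P_of_id hω (hA.pow 12) h12
  refine ⟨s ^ 3, pow_ne_zero 3 hs, ?_⟩
  rw [show 36 = 12 * 3 from rfl, pow_mul, he, smul_pow]
  congr 1
  rw [pow_succ, pow_two, pow_three_smul hω]

lemma ne_36 (hG : Gen ω G) : (36 : F) ≠ 0 := by
  rw [show (36 : F) = 2 * 2 * (3 * 3) by norm_num]
  exact mul_ne_zero (mul_ne_zero hG.two hG.two) (mul_ne_zero hG.om.three hG.om.three)

lemma one_add_single_pow {i k : K3} (hik : i ≠ k) (c : F) (n : ℕ) :
    (1 + Matrix.single i k c) ^ n = 1 + Matrix.single i k ((n : F) * c) := by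
  induction n with
  | zero => simp
  | succ n ih =>
    rw [pow_succ, ih, add_mul, one_mul, mul_add, mul_one,
      Matrix.single_mul_single_of_ne _ _ _ _ hik.symm, add_zero, add_assoc, ← Matrix.single_add,
      Nat.cast_succ, add_mul, one_mul, add_comm c]

/-- A subgroup normalised by the weight normaliser lies in it or contains all elementary
transvections. -/
theorem dicho_normalised (hG : Gen ω G) (hD : Dicho ω) (S : Subgroup (GL K3 F))
    (hN : ∀ A : Matrix K3 K3 F, IsUnit A → Nrm3 ω A → ∀ M M' : Matrix K3 K3 F,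
      InG S M → A * M = M' * A → InG S M') :
    (∀ M, InG S M → Nrm3 ω M) ∨
      ∀ i k : K3, i ≠ k → ∀ c : F, InG S (1 + Matrix.single i k c) := by
  have hω := hG.om
  have hle : N3 hω ≤ Subgroup.normalizer (S : Set (GL K3 F)) := by
    have conj : ∀ n ∈ N3 hω, ∀ s ∈ S, n * s * n⁻¹ ∈ S := by
      intro n hn s hs
      obtain ⟨g, hg, e⟩ := hN (n : Matrix K3 K3 F) n.isUnit hn (s : Matrix K3 K3 F)
        ((n * s * n⁻¹ : GL K3 F) : Matrix K3 K3 F) ⟨s, hs, rfl⟩
        (by rw [← Units.val_mul, ← Units.val_mul, inv_mul_cancel_right])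
      rwa [← Units.ext e]
    intro n hn
    rw [Subgroup.mem_normalizer_iff]
    refine fun s => ⟨conj n hn s, fun hs => ?_⟩
    have := conj n⁻¹ (inv_mem hn) _ hs
    simpa [mul_assoc] using this
  set H : Subgroup (GL K3 F) := S ⊔ N3 hω with hH
  have hmem : ∀ M : Matrix K3 K3 F, IsUnit M → Nrm3 ω M → InG H M := fun M hM hn =>
    ⟨hM.unit, Subgroup.mem_sup_right (show Nrm3 ω (hM.unit : Matrix K3 K3 F) by
      rwa [IsUnit.unit_spec]), hM.unit_spec⟩
  have hgen : ∀ M : Matrix K3 K3 F, InG G (M ⊗ₖ (1 : Matrix K3 K3 F)) → Nrm3 ω M → InG H M :=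
    fun M hM hn => hmem M (isUnit_block (hG.rep_blk hM) 0) hn
  rcases hD H
    (fun c hc => hmem _ (IsUnit.of_mul_eq_one (c⁻¹ • 1) (by
      rw [Matrix.smul_mul, Matrix.one_mul, smul_smul, mul_inv_cancel₀ hc, one_smul]))
      (smul_nrm3 c))
    (hgen _ hG.lX fun v => ⟨v, _, hω.wp_ne_zero _, P3_comm hω (1, 0) v⟩)
    (hgen _ hG.lY fun v => ⟨v, _, hω.wp_ne_zero _, P3_comm hω (0, 1) v⟩)
    (hgen _ hG.lT (Nrm3.of_induces (tau_P3 hω)))
    (hgen _ hG.lF (Nrm3.of_induces (four_P3 hω))) with h | h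
  · left
    rintro M ⟨g, hg, rfl⟩
    exact h _ ⟨g, Subgroup.mem_sup_left hg, rfl⟩
  right
  intro i k hik c
  set δ : F := wp ω ((1 : K3) * (i - k)) - 1 with hδ
  have hδ0 : δ ≠ 0 := by
    rw [hδ, one_mul]
    refine sub_ne_zero.2 fun e => hik ?_
    rw [← wp_zero (ω := ω)] at e
    exact sub_eq_zero.1 (hω.wp_inj e)
  set c' : F := c * (36 * δ)⁻¹ with hc'
  obtain ⟨x, hx, ex⟩ := h (1 + Matrix.single i k c') (by
    have e : (1 : Matrix K3 K3 F) + Matrix.single i k c' = Matrix.transvection i k c' := rfl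
    rw [e, Matrix.det_transvection_of_ne i k hik])
  rw [← SetLike.mem_coe, hH, Subgroup.coe_mul_of_right_le_normalizer_left S (N3 hω) hle] at hx
  obtain ⟨s, hs, n, hn, rfl⟩ := hx
  have hpow : ∀ m : ℕ, (s * n) ^ m * (n ^ m)⁻¹ ∈ S := by
    intro m
    induction m with
    | zero => simp
    | succ m ih =>
      have h2 := ((Subgroup.mem_normalizer_iff.1 (hle (pow_mem hn m))) s).1 hs
      have := mul_mem ih h2
      rw [pow_succ, pow_succ]
      convert this using 1
      group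
  obtain ⟨σ, hσ, eσ⟩ := pow_scalar hω n.isUnit hn
  set u : GL K3 F := (s * n) ^ 36 * (n ^ 36)⁻¹ with hu
  have eu : (u : Matrix K3 K3 F) = σ⁻¹ • (1 + Matrix.single i k (36 * c')) := by
    have e1 : (u : Matrix K3 K3 F) * ((n ^ 36 : GL K3 F) : Matrix K3 K3 F) =
        1 + Matrix.single i k (36 * c') := by
      rw [← Units.val_mul, hu, inv_mul_cancel_right, Units.val_pow_eq_pow_val, ex,
        one_add_single_pow hik]
      norm_num
    rw [Units.val_pow_eq_pow_val, eσ, Matrix.mul_smul, Matrix.mul_one] at e1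
    rw [← e1, smul_smul, inv_mul_cancel₀ hσ, one_smul]
  have hX : InG S (σ⁻¹ • (1 + Matrix.single i k (wp ω ((1 : K3) * (i - k)) * (36 * c')))) :=
    hN (P3 ω (1, 0)) (isUnit_P3 hω _) (fun v => ⟨v, _, hω.wp_ne_zero _, P3_comm hω (1, 0) v⟩) _ _
      ⟨u, hpow 36, eu⟩ (by rw [Matrix.mul_smul, Matrix.smul_mul, P3_conj_single hω])
  obtain ⟨B, hB, hb1, -⟩ := InG.exists_inv (⟨u, hpow 36, eu⟩ :
    InG S (σ⁻¹ • (1 + Matrix.single i k (36 * c'))))
  have hBe : B = σ • (1 + Matrix.single i k (-(36 * c'))) := by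
    have hu' : IsUnit (σ⁻¹ • (1 + Matrix.single i k (36 * c')) : Matrix K3 K3 F) := by
      rw [← eu]; exact u.isUnit
    refine hu'.mul_right_inj.1 (hb1.trans ?_)
    rw [Matrix.smul_mul, Matrix.mul_smul, smul_smul, inv_mul_cancel₀ hσ, one_smul,
      inv_one_add_single hik]
  have hfin := hX.mul hB
  rw [hBe, Matrix.smul_mul, Matrix.mul_smul, smul_smul, inv_mul_cancel₀ hσ, one_smul, add_mul,
    one_mul, mul_add, mul_one, Matrix.single_mul_single_of_ne _ _ _ _ hik.symm, add_zero, add_assoc,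
    ← Matrix.single_add] at hfin
  have h36 := ne_36 hG
  have e : -(36 * c') + wp ω ((1 : K3) * (i - k)) * (36 * c') = c := by
    rw [show wp ω ((1 : K3) * (i - k)) = δ + 1 by rw [hδ]; ring, hc']
    field_simp
    ring
  rwa [e] at hfin

end Cfsg.Agent.CSixNine
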