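import Cfsg.Agent.CSixNine.Main
import Cfsg.Agent.MaxSub.SymplecticType

/-!
Standard coordinates for an absolutely irreducible group of symplectic type of order `3^5` in
dimension nine.
-/

set_option autoImplicit false
set_option linter.unusedSectionVars false

namespace Cfsg.Agent.CSixNine

open Matrix Cfsg.Geo
open scoped MatrixGroups Matrix Kronecker commutatorElement

variable {F : Type*} [Field F]

/-- What is known about the group. -/
structure RData (ω : F) (R : Subgroup (GL (Fin 9) F)) : Prop where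
  om : Omega ω
  card : Nat.card R = 243
  cube : ∀ g ∈ R, g ^ 3 = 1
  scalar : ∃ z ∈ R, (z : Matrix (Fin 9) (Fin 9) F) = ω • 1
  comm : ∀ a ∈ R, ∀ b ∈ R, ∃ t : K3,
    (a : Matrix (Fin 9) (Fin 9) F) * b = wp ω t • ((b : Matrix (Fin 9) (Fin 9) F) * a)
  irr : ∀ g ∈ R, (∀ b ∈ R, g * b = b * g) → ∃ t : K3, (g : Matrix (Fin 9) (Fin 9) F) = wp ω t • 1

theorem rdata_of_group [Finite F] {R : Subgroup (GL (Fin 9) F)}
    (hst : IsSymplecticTypeGroup 3 R) (hirr : ActsAbsolutelyIrreducibly (matrixSet R))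
    (hZ : Nat.card (Subgroup.center R) = 3) (h3 : (3 : F) ≠ 0) : ∃ ω : F, RData ω R := by
  haveI : Fact (Nat.Prime 3) := ⟨Nat.prime_three⟩
  haveI : Group.IsNilpotent R := hst.pGroup.isNilpotent
  have hexp : Monoid.exponent R = 3 := by rw [hst.exponent_eq]; rfl
  have hcl : commutator R ≤ Subgroup.center R :=
    MaxSub.commutator_le_center_of_cyclic_char hst.cyclic_of_characteristic (hexp.trans hZ.symm)
  have hsq := MaxSub.sq_card_eq_index_center hirr hcl
  rw [Fintype.card_fin] at hsq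
  have hcard : Nat.card R = 243 := by
    rw [← (Subgroup.center R).card_mul_index, hZ, ← hsq]; norm_num
  have hcube : ∀ g ∈ R, g ^ 3 = 1 := fun g hg => by
    have := Monoid.pow_exponent_eq_one (⟨g, hg⟩ : R)
    rw [hexp] at this
    exact congrArg (fun x : R => (x : GL (Fin 9) F)) this
  have hsc : ∀ g ∈ R, ∀ c : F, (g : Matrix (Fin 9) (Fin 9) F) = c • 1 → c ^ 3 = 1 := by
    intro g hg c hc
    have := congrArg (fun x : GL (Fin 9) F => (x : Matrix (Fin 9) (Fin 9) F)) (hcube g hg)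
    simp only [Units.val_pow_eq_pow_val, Units.val_one, hc, smul_pow, one_pow] at this
    exact smul_left_injective F one_ne_zero (this.trans (one_smul F _).symm)
  -- a primitive cube root of unity
  have hlt : Nontrivial (Subgroup.center R) :=
    Finite.one_lt_card_iff_nontrivial.1 (by rw [hZ]; norm_num)
  obtain ⟨⟨z, hz⟩, hz1⟩ := exists_ne (1 : Subgroup.center R)
  obtain ⟨ω, hω⟩ := MaxSub.exists_scalar_of_mem_center hirr hz
  have hω1 : ω ≠ 1 := by
    rintro rfl
    refine hz1 (Subtype.ext (Subtype.ext (Units.ext ?_)))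
    rw [hω, one_smul]; rfl
  have hO : Omega ω := by
    refine ⟨?_, h3⟩
    have h := hsc _ z.2 ω hω
    have : (ω - 1) * (ω ^ 2 + ω + 1) = 0 := by linear_combination h
    exact (mul_eq_zero.1 this).resolve_left (sub_ne_zero.2 hω1)
  refine ⟨ω, hO, hcard, hcube, ⟨z, z.2, hω⟩, ?_, ?_⟩
  · intro a ha b hb
    have hmem : ⁅(⟨a, ha⟩ : R), (⟨b, hb⟩ : R)⁆ ∈ Subgroup.center R :=
      hcl (Subgroup.commutator_mem_commutator (Subgroup.mem_top _) (Subgroup.mem_top _))
    obtain ⟨c, hc⟩ := MaxSub.exists_scalar_of_mem_center hirr hmem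
    obtain ⟨t, ht⟩ := hO.exists_wp (hsc _ (Subtype.prop _) c hc)
    refine ⟨t, ?_⟩
    have h1 : a * b = ((⁅(⟨a, ha⟩ : R), (⟨b, hb⟩ : R)⁆ : R) : GL (Fin 9) F) * (b * a) := by
      simp [commutatorElement_def, mul_assoc]
    rw [← Units.val_mul, h1, Units.val_mul, hc, ht, Units.val_mul, Matrix.smul_mul,
      Matrix.one_mul]
  · intro g hg h
    obtain ⟨c, hc⟩ := MaxSub.exists_scalar_of_mem_center hirr (z := ⟨g, hg⟩)
      (Subgroup.mem_center_iff.2 fun y => Subtype.ext (h y y.2).symm)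
    obtain ⟨t, ht⟩ := hO.exists_wp (hsc g hg c hc)
    exact ⟨t, by rw [← ht]; exact hc⟩

theorem rdata_of_symplecticType [Fintype F] {R : Subgroup (GL (Fin 9) F)}
    (hR : IsLinearSymplecticTypeData 3 R) : ∃ ω : F, RData ω R := by
  obtain ⟨hst, hirr, p, e, hrp, hmin, hcase⟩ := hR
  obtain ⟨hp, hcp, -, -⟩ := hmin
  rcases hcase with ⟨-, -, hZ, -⟩ | ⟨h, -⟩ | ⟨h, -⟩
  rotate_left
  · omega
  · omega
  exact rdata_of_group hst hirr hZ fun h => hrp ((Nat.prime_dvd_prime_iff_eq hp Nat.prime_three).1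
    ((CharP.cast_eq_zero_iff F p 3).1 (by exact_mod_cast h))).symm

section Coord

variable {ω : F} {R : Subgroup (GL (Fin 9) F)}

lemma RData.wp_mem (hR : RData ω R) (t : K3) :
    ∃ z ∈ R, (z : Matrix (Fin 9) (Fin 9) F) = wp ω t • 1 := by
  obtain ⟨z, hz, e⟩ := hR.scalar
  exact ⟨z ^ t.val, pow_mem hz _, by rw [Units.val_pow_eq_pow_val, e, smul_pow, one_pow, wp]⟩

/-- Commutation with an exponent. -/
def Cm (ω : F) (a b : Matrix (Fin 9) (Fin 9) F) (t : K3) : Prop := a * b = wp ω t • (b * a)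

lemma Cm.symm (hω : Omega ω) {a b : Matrix (Fin 9) (Fin 9) F} {t : K3} (h : Cm ω a b t) :
    Cm ω b a (-t) := by
  rw [Cm, h, smul_smul, ← hω.wp_add, neg_add_cancel, wp_zero, one_smul]

lemma Cm.mul_right (hω : Omega ω) {a b c : Matrix (Fin 9) (Fin 9) F} {s t : K3}
    (h : Cm ω a b s) (h' : Cm ω a c t) : Cm ω a (b * c) (s + t) := by
  rw [Cm, ← Matrix.mul_assoc, h, Matrix.smul_mul, Matrix.mul_assoc, h', Matrix.mul_smul, smul_smul,
    hω.wp_add, ← Matrix.mul_assoc]

lemma Cm.pow_right (hω : Omega ω) {a b : Matrix (Fin 9) (Fin 9) F} {s : K3} (h : Cm ω a b s)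
    (n : ℕ) : Cm ω a (b ^ n) ((n : K3) * s) := by
  induction n with
  | zero => simp [Cm, wp_zero]
  | succ n ih =>
    rw [pow_succ, Nat.cast_succ, add_mul, one_mul]
    exact ih.mul_right hω h

lemma Cm.self (hω : Omega ω) (a : Matrix (Fin 9) (Fin 9) F) : Cm ω a a 0 := by
  rw [Cm, wp_zero, one_smul]

lemma Cm.unique (hω : Omega ω) {a b : GL (Fin 9) F} {s t : K3}
    (h : Cm ω (a : Matrix (Fin 9) (Fin 9) F) b s) (h' : Cm ω (a : Matrix (Fin 9) (Fin 9) F) b t) :
    s = t := by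
  unfold Cm at h h'
  rw [h, ← Units.val_mul] at h'
  exact hω.wp_inj (smul_left_injective F (b * a).ne_zero h')

/-- Four generators with the standard commutation rules. -/
structure Quad (ω : F) (R : Subgroup (GL (Fin 9) F)) where
  a₁ : GL (Fin 9) F
  b₁ : GL (Fin 9) F
  a₂ : GL (Fin 9) F
  b₂ : GL (Fin 9) F
  m₁ : a₁ ∈ R
  n₁ : b₁ ∈ R
  m₂ : a₂ ∈ R
  n₂ : b₂ ∈ R
  c₁ : Cm ω (a₁ : Matrix (Fin 9) (Fin 9) F) b₁ 1
  c₂ : Cm ω (a₂ : Matrix (Fin 9) (Fin 9) F) b₂ 1
  caa : Cm ω (a₁ : Matrix (Fin 9) (Fin 9) F) a₂ 0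
  cab : Cm ω (a₁ : Matrix (Fin 9) (Fin 9) F) b₂ 0
  cba : Cm ω (b₁ : Matrix (Fin 9) (Fin 9) F) a₂ 0
  cbb : Cm ω (b₁ : Matrix (Fin 9) (Fin 9) F) b₂ 0

lemma k3_sq : ∀ s : K3, s ≠ 0 → s * s = 1 := by decide

lemma RData.noncentral_partner (hR : RData ω R) {a : GL (Fin 9) F} (ha : a ∈ R)
    (hns : ∀ t : K3, (a : Matrix (Fin 9) (Fin 9) F) ≠ wp ω t • 1) :
    ∃ b ∈ R, Cm ω (a : Matrix (Fin 9) (Fin 9) F) b 1 := by
  by_contra hcon
  push Not at hcon
  obtain ⟨t, ht⟩ := hR.irr a ha fun b hb => by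
    obtain ⟨s, hs⟩ := hR.comm a ha b hb
    by_cases h0 : s = 0
    · subst h0
      refine Units.ext ?_
      rw [Units.val_mul, Units.val_mul, hs, wp_zero, one_smul]
    · exfalso
      have hs' : s * s = 1 := k3_sq s h0
      refine hcon (b ^ s.val) (pow_mem hb _) ?_
      rw [Units.val_pow_eq_pow_val]
      have := Cm.pow_right hR.om (show Cm ω _ _ s from hs) s.val
      rwa [ZMod.natCast_zmod_val, hs'] at this
  exact hns t ht

/-- The commutation exponents of a word in two elements. -/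
lemma RData.adjust (hR : RData ω R) {a b : GL (Fin 9) F} (ha : a ∈ R) (hb : b ∈ R)
    (hab : Cm ω (a : Matrix (Fin 9) (Fin 9) F) b 1) {x : GL (Fin 9) F} (hx : x ∈ R) :
    ∃ i j : K3, Cm ω (a : Matrix (Fin 9) (Fin 9) F) (x * a ^ i.val * b ^ j.val : GL (Fin 9) F) 0 ∧
      Cm ω (b : Matrix (Fin 9) (Fin 9) F) (x * a ^ i.val * b ^ j.val : GL (Fin 9) F) 0 := by
  have hω := hR.om
  obtain ⟨s, hs⟩ := hR.comm a ha x hx
  obtain ⟨t, ht⟩ := hR.comm b hb x hx
  refine ⟨t, -s, ?_, ?_⟩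
  · have := (Cm.mul_right hω (Cm.mul_right hω (show Cm ω _ _ s from hs)
      (Cm.pow_right hω (Cm.self hω _) t.val)) (Cm.pow_right hω hab (-s).val))
    simpa [Units.val_mul, Units.val_pow_eq_pow_val] using this
  · have := (Cm.mul_right hω (Cm.mul_right hω (show Cm ω _ _ t from ht)
      (Cm.pow_right hω (hab.symm hω) t.val)) (Cm.pow_right hω (Cm.self hω _) (-s).val))
    simpa [Units.val_mul, Units.val_pow_eq_pow_val] using this

theorem RData.exists_quad [Finite F] (hR : RData ω R) : Nonempty (Quad ω R) := by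
  classical
  have hω := hR.om
  -- a first pair
  obtain ⟨a, ha, hna⟩ : ∃ a ∈ R, ∀ t : K3, (a : Matrix (Fin 9) (Fin 9) F) ≠ wp ω t • 1 := by
    by_contra hcon
    push Not at hcon
    choose f hf using hcon
    have hinj : Function.Injective fun g : R => f g g.2 := fun g g' h => by
      refine Subtype.ext (Units.ext ?_)
      rw [hf g g.2, hf g' g'.2]
      simp only at h
      rw [h]
    have := Nat.card_le_card_of_injective _ hinj
    rw [hR.card] at this
    simp at this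
  obtain ⟨b, hb, hab⟩ := hR.noncentral_partner ha hna
  -- a noncentral element commuting with both
  obtain ⟨c, hc, hnc, hac, hbc⟩ : ∃ c ∈ R, (∀ t : K3, (c : Matrix (Fin 9) (Fin 9) F) ≠ wp ω t • 1) ∧
      Cm ω (a : Matrix (Fin 9) (Fin 9) F) c 0 ∧ Cm ω (b : Matrix (Fin 9) (Fin 9) F) c 0 := by
    by_contra hcon
    push Not at hcon
    have hsc : ∀ x : R, ∃ v : K3 × K3 × K3,
        ((x : GL (Fin 9) F) * a ^ v.1.val * b ^ v.2.1.val : GL (Fin 9) F).val = wp ω v.2.2 • 1 := by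
      intro x
      obtain ⟨i, j, h1, h2⟩ := hR.adjust ha hb hab x.2
      have hmem := mul_mem (mul_mem x.2 (pow_mem ha i.val)) (pow_mem hb j.val)
      by_contra hne
      push Not at hne
      exact hcon _ hmem (fun t => hne (i, j, t)) h1 h2
    choose f hf using hsc
    have hinj : Function.Injective f := fun g g' h => by
      refine Subtype.ext ?_
      have e : ((g : GL (Fin 9) F) * a ^ (f g).1.val * b ^ (f g).2.1.val : GL (Fin 9) F) =
          (g' : GL (Fin 9) F) * a ^ (f g).1.val * b ^ (f g).2.1.val := by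
        refine Units.ext ?_
        rw [hf g, h, hf g']
      exact mul_right_cancel (mul_right_cancel e)
    have := Nat.card_le_card_of_injective _ hinj
    rw [hR.card] at this
    simp [Nat.card_prod] at this
  obtain ⟨d, hd, hcd⟩ := hR.noncentral_partner hc hnc
  obtain ⟨i, j, h1, h2⟩ := hR.adjust ha hb hab hd
  refine ⟨⟨a, b, c, d * a ^ i.val * b ^ j.val, ha, hb, hc,
    mul_mem (mul_mem hd (pow_mem ha _)) (pow_mem hb _), hab, ?_, hac, h1, hbc, h2⟩⟩
  have := (hcd.mul_right hω ((hac.symm hω).pow_right hω i.val)).mul_right hω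
    ((hbc.symm hω).pow_right hω j.val)
  simpa [Units.val_mul, Units.val_pow_eq_pow_val] using this

/-- The change of coordinates, given by a pair of mutually inverse matrices. -/
theorem RData.exists_coord_inner [Finite F] (hR : RData ω R) :
    ∃ (φ : GL (Fin 9) F ≃* GL I9 F) (P : Matrix (Fin 9) I9 F) (W : Matrix I9 (Fin 9) F),
      P * W = 1 ∧ W * P = 1 ∧
      (∀ g : GL (Fin 9) F, (φ g : Matrix I9 I9 F) = W * (g : Matrix (Fin 9) (Fin 9) F) * P) ∧
      (∀ g : GL (Fin 9) F, Matrix.det (φ g : Matrix I9 I9 F) =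
        Matrix.det (g : Matrix (Fin 9) (Fin 9) F)) ∧
      ∀ x : GL I9 F, φ.symm x ∈ R ↔ ∃ (t : K3) (v : W9), (x : Matrix I9 I9 F) = wp ω t • P9 ω v := by
  classical
  have hω := hR.om
  obtain ⟨Q⟩ := hR.exists_quad
  set A₁ := (Q.a₁ : Matrix (Fin 9) (Fin 9) F) with hA₁
  set B₁ := (Q.b₁ : Matrix (Fin 9) (Fin 9) F) with hB₁
  set A₂ := (Q.a₂ : Matrix (Fin 9) (Fin 9) F) with hA₂
  set B₂ := (Q.b₂ : Matrix (Fin 9) (Fin 9) F) with hB₂
  have cube : ∀ {g : GL (Fin 9) F}, g ∈ R → (g : Matrix (Fin 9) (Fin 9) F) ^ 3 = 1 := by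
    intro g hg
    rw [← Units.val_pow_eq_pow_val, hR.cube g hg, Units.val_one]
  have pmod : ∀ {g : GL (Fin 9) F}, g ∈ R → ∀ n : ℕ,
      (g : Matrix (Fin 9) (Fin 9) F) ^ n = (g : Matrix (Fin 9) (Fin 9) F) ^ (n % 3) := by
    intro g hg n
    conv_lhs => rw [← Nat.div_add_mod n 3, pow_add, pow_mul, cube hg, one_pow, one_mul]
  -- the common eigenvector
  let E : Matrix (Fin 9) (Fin 9) F → Matrix (Fin 9) (Fin 9) F := fun A => 1 + A + A * A
  have hEA : ∀ {g : GL (Fin 9) F}, g ∈ R → (g : Matrix (Fin 9) (Fin 9) F) * E g = E g := by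
    intro g hg
    have := cube hg
    rw [pow_succ, pow_two] at this
    simp only [E, mul_add, mul_one, ← Matrix.mul_assoc, this]
    abel
  have hsum : ∀ {A B : Matrix (Fin 9) (Fin 9) F}, Cm ω A B 1 → ∀ M : Matrix (Fin 9) (Fin 9) F,
      E A * M = 0 → B * M = M * B → IsUnit B → M = 0 := by
    intro A B hc M h0 hBM hB
    have r : ∀ n : ℕ, A * B ^ n = (ω ^ n) • (B ^ n * A) := fun n => by
      have h := Cm.pow_right hω hc n
      rw [Cm, mul_one, hω.wp_natCast] at h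
      exact h
    have hk : ∀ n : ℕ, (1 + ω ^ n • A + (ω ^ n * ω ^ n) • (A * A)) * M = 0 := by
      intro n
      refine (hB.pow n).mul_right_eq_zero.1 ?_
      have e : B ^ n * (1 + ω ^ n • A + (ω ^ n * ω ^ n) • (A * A)) = E A * B ^ n := by
        have r2 : A * A * B ^ n = (ω ^ n * ω ^ n) • (B ^ n * (A * A)) := by
          rw [Matrix.mul_assoc, r, Matrix.mul_smul, ← Matrix.mul_assoc, r, Matrix.smul_mul,
            smul_smul, Matrix.mul_assoc]
        simp only [E, add_mul, mul_add, one_mul, mul_one, Matrix.mul_smul, r, r2]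
      rw [← Matrix.mul_assoc, e, Matrix.mul_assoc,
        ((Commute.pow_left (show Commute B M from hBM) n)).eq, ← Matrix.mul_assoc, h0,
        Matrix.zero_mul]
    have e3 : (1 + ω ^ 0 • A + (ω ^ 0 * ω ^ 0) • (A * A)) +
        (1 + ω ^ 1 • A + (ω ^ 1 * ω ^ 1) • (A * A)) +
        (1 + ω ^ 2 • A + (ω ^ 2 * ω ^ 2) • (A * A)) = (3 : F) • 1 := by
      have e4 : ω ^ 2 * ω ^ 2 = ω := by linear_combination ω * hω.cube
      have e1 : (1 : F) + ω + ω ^ 2 = 0 := by linear_combination hω.eqn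
      rw [e4]
      match_scalars <;> first | ring1 | linear_combination hω.eqn
    have := congrArg (fun X => X * M) e3
    simp only [add_mul] at this
    rw [← add_mul, ← add_mul, hk 0, ← add_mul, ← add_mul, hk 1, ← add_mul, ← add_mul, hk 2,
      Matrix.smul_mul, Matrix.one_mul, add_zero, add_zero] at this
    exact (smul_eq_zero.1 this.symm).resolve_left hω.three
  have hcomm : ∀ {X Y : Matrix (Fin 9) (Fin 9) F}, Cm ω X Y 0 → X * Y = Y * X := fun h => by
    rw [Cm, wp_zero, one_smul] at h; exact h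
  have hE0 : E A₁ * E A₂ ≠ 0 := by
    intro h0
    have h1 : E A₂ = 0 := by
      refine hsum Q.c₁ _ h0 ?_ Q.b₁.isUnit
      have := hcomm Q.cba
      simp only [E, mul_add, add_mul, mul_one, one_mul, ← Matrix.mul_assoc, ← hA₂, ← hB₁] at this ⊢
      rw [this, Matrix.mul_assoc A₂ B₁ A₂, this, ← Matrix.mul_assoc]
    have h2 : (1 : Matrix (Fin 9) (Fin 9) F) = 0 :=
      hsum Q.c₂ 1 (by rw [Matrix.mul_one]; exact h1) (by rw [one_mul, mul_one]) Q.b₂.isUnit
    exact one_ne_zero h2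
  obtain ⟨u, hu⟩ : ∃ u : Fin 9 → F, (E A₁ * E A₂) *ᵥ u ≠ 0 := by
    by_contra hcon
    push Not at hcon
    exact hE0 (Matrix.ext_of_mulVec_single fun i => by rw [hcon, Matrix.zero_mulVec])
  set v := (E A₁ * E A₂) *ᵥ u with hv
  have hv1 : A₁ *ᵥ v = v := by rw [hv, Matrix.mulVec_mulVec, ← Matrix.mul_assoc, hEA Q.m₁]
  have hv2 : A₂ *ᵥ v = v := by
    rw [hv, Matrix.mulVec_mulVec, ← Matrix.mul_assoc]
    have e : A₂ * E A₁ = E A₁ * A₂ := by
      have := hcomm Q.caa
      simp only [E, mul_add, add_mul, mul_one, one_mul, ← Matrix.mul_assoc, ← hA₂, ← hA₁] at this ⊢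
      rw [← this, Matrix.mul_assoc A₁ A₂ A₁, ← this, ← Matrix.mul_assoc]
    rw [e, Matrix.mul_assoc, hEA Q.m₂]
  -- the basis
  let cl : I9 → Fin 9 → F := fun p => (B₁ ^ p.1.val * B₂ ^ p.2.val) *ᵥ v
  let P : Matrix (Fin 9) I9 F := Matrix.of fun k p => cl p k
  have eig : ∀ {A : Matrix (Fin 9) (Fin 9) F} {s t : K3} (p : I9), Cm ω A B₁ s → Cm ω A B₂ t →
      A *ᵥ v = v → A *ᵥ cl p = wp ω (p.1 * s + p.2 * t) • cl p := by
    intro A s t p h1 h2 hA
    have h := (Cm.pow_right hω h1 p.1.val).mul_right hω (Cm.pow_right hω h2 p.2.val)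
    rw [ZMod.natCast_zmod_val, ZMod.natCast_zmod_val, Cm] at h
    show A *ᵥ ((B₁ ^ p.1.val * B₂ ^ p.2.val) *ᵥ v) = _
    rw [Matrix.mulVec_mulVec, h, Matrix.smul_mulVec, ← Matrix.mulVec_mulVec, hA]
  have e1 : ∀ p : I9, A₁ *ᵥ cl p = wp ω p.1 • cl p := fun p => by
    simpa using eig p Q.c₁ Q.cab hv1
  have e2 : ∀ p : I9, A₂ *ᵥ cl p = wp ω p.2 • cl p := fun p => by
    simpa using eig p (Q.cba.symm hω) Q.c₂ hv2
  have eb1 : ∀ p : I9, B₁ *ᵥ cl p = cl (p + (1, 0)) := by
    intro p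
    show B₁ *ᵥ ((B₁ ^ p.1.val * B₂ ^ p.2.val) *ᵥ v) =
      (B₁ ^ (p.1 + 1).val * B₂ ^ (p.2 + 0).val) *ᵥ v
    rw [Matrix.mulVec_mulVec, ← Matrix.mul_assoc, ← pow_succ', add_zero, ZMod.val_add, ← pmod Q.n₁,
      ZMod.val_one]
  have eb2 : ∀ p : I9, B₂ *ᵥ cl p = cl (p + (0, 1)) := by
    intro p
    show B₂ *ᵥ ((B₁ ^ p.1.val * B₂ ^ p.2.val) *ᵥ v) =
      (B₁ ^ (p.1 + 0).val * B₂ ^ (p.2 + 1).val) *ᵥ v
    have hc : B₂ * B₁ ^ p.1.val = B₁ ^ p.1.val * B₂ :=
      (Commute.pow_right (show Commute B₂ B₁ from (hcomm Q.cbb).symm) _).eq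
    rw [Matrix.mulVec_mulVec, ← Matrix.mul_assoc, hc, Matrix.mul_assoc, ← pow_succ', add_zero,
      ZMod.val_add, ← pmod Q.n₂, ZMod.val_one]
  have hcl0 : ∀ p, cl p ≠ 0 := by
    intro p h
    have hu' : IsUnit (B₁ ^ p.1.val * B₂ ^ p.2.val) :=
      (Q.b₁.isUnit.pow _).mul (Q.b₂.isUnit.pow _)
    obtain ⟨V, hV⟩ := hu'.exists_left_inv
    refine hu ?_
    calc v = V *ᵥ cl p := by
          show v = V *ᵥ ((B₁ ^ p.1.val * B₂ ^ p.2.val) *ᵥ v)
          rw [Matrix.mulVec_mulVec, hV, Matrix.one_mulVec]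
      _ = 0 := by rw [h, Matrix.mulVec_zero]
  have hli : LinearIndependent F cl := by
    rw [Fintype.linearIndependent_iff]
    intro c hc p
    -- project on the eigenspace of `cl p`
    let π : Matrix (Fin 9) (Fin 9) F :=
      (1 + wp ω (-p.1) • A₁ + wp ω (p.1) • (A₁ * A₁)) *
        (1 + wp ω (-p.2) • A₂ + wp ω (p.2) • (A₂ * A₂))
    have hw : ∀ i q : K3, (1 : F) + wp ω (-i) * wp ω q + wp ω i * (wp ω q * wp ω q) =
        if q = i then 3 else 0 := by
      intro i q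
      have h := sum_wp hω (q - i)
      rw [sum_three, zero_mul, wp_zero, one_mul] at h
      simp only [sub_eq_zero] at h
      rw [← h, ← hω.wp_add, ← hω.wp_add, ← hω.wp_add, show -i + q = q - i by ring,
        show i + (q + q) = 2 * (q - i) by
          have : ∀ i q : K3, i + (q + q) = 2 * (q - i) := by decide
          exact this i q]
    have hπ : ∀ q, π *ᵥ cl q = (if q = p then (9 : F) else 0) • cl q := by
      intro q
      have t2 : (1 + wp ω (-p.2) • A₂ + wp ω p.2 • (A₂ * A₂)) *ᵥ cl q =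
          (if q.2 = p.2 then (3 : F) else 0) • cl q := by
        rw [← hw, Matrix.add_mulVec, Matrix.add_mulVec, Matrix.one_mulVec, Matrix.smul_mulVec,
          Matrix.smul_mulVec, ← Matrix.mulVec_mulVec, e2, Matrix.mulVec_smul, e2]
        module
      have t1 : (1 + wp ω (-p.1) • A₁ + wp ω p.1 • (A₁ * A₁)) *ᵥ cl q =
          (if q.1 = p.1 then (3 : F) else 0) • cl q := by
        rw [← hw, Matrix.add_mulVec, Matrix.add_mulVec, Matrix.one_mulVec, Matrix.smul_mulVec,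
          Matrix.smul_mulVec, ← Matrix.mulVec_mulVec, e1, Matrix.mulVec_smul, e1]
        module
      show ((1 + wp ω (-p.1) • A₁ + wp ω p.1 • (A₁ * A₁)) *
        (1 + wp ω (-p.2) • A₂ + wp ω p.2 • (A₂ * A₂))) *ᵥ cl q = _
      rw [← Matrix.mulVec_mulVec, t2, Matrix.mulVec_smul, t1, smul_smul]
      congr 1
      by_cases h1 : q.1 = p.1 <;> by_cases h2 : q.2 = p.2 <;> simp [Prod.ext_iff, h1, h2]
      norm_num
    have h := congrArg (fun x => π *ᵥ x) hc
    simp only [Matrix.mulVec_sum, Matrix.mulVec_smul, hπ, Matrix.mulVec_zero] at h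
    rw [Finset.sum_eq_single p (fun q _ hq => by rw [if_neg hq, zero_smul, smul_zero])
      (by simp), if_pos rfl, smul_smul] at h
    have h9 : (9 : F) ≠ 0 := by
      rw [show (9 : F) = 3 * 3 by norm_num]; exact mul_ne_zero hω.three hω.three
    rcases smul_eq_zero.1 h with h | h
    · exact (mul_eq_zero.1 h).resolve_right h9
    · exact absurd h (hcl0 p)
  -- an inverse
  let e9 : Fin 9 ≃ I9 := Fintype.equivOfCardEq (by simp [Fintype.card_prod])
  set P' : Matrix (Fin 9) (Fin 9) F := P.submatrix id e9 with hP'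
  have hPu : IsUnit P' := by
    rw [← Matrix.linearIndependent_cols_iff_isUnit]
    exact hli.comp e9 e9.injective
  obtain ⟨V', hV'⟩ := hPu.exists_left_inv
  set W : Matrix I9 (Fin 9) F := V'.submatrix e9.symm id with hW
  have hPe : P = P'.submatrix id e9.symm := by
    rw [hP', Matrix.submatrix_submatrix]; simp
  have hWP : W * P = 1 := by
    rw [hW, hPe, ← Matrix.submatrix_mul _ _ _ id _ Function.bijective_id, hV',
      Matrix.submatrix_one_equiv]
  have hPW : P * W = 1 := by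
    have hP'V : P' * V' = 1 := mul_eq_one_comm.1 hV'
    rw [hW, hPe, Matrix.submatrix_mul_equiv, hP'V, Matrix.submatrix_id_id]
  let fwd : Matrix (Fin 9) (Fin 9) F → Matrix I9 I9 F := fun g => W * g * P
  let bwd : Matrix I9 I9 F → Matrix (Fin 9) (Fin 9) F := fun x => P * x * W
  have fmul : ∀ g h, fwd (g * h) = fwd g * fwd h := fun g h => by
    show W * (g * h) * P = W * g * P * (W * h * P)
    rw [show W * g * P * (W * h * P) = W * g * (P * W) * h * P by simp only [Matrix.mul_assoc],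
      hPW, Matrix.mul_one]
    simp only [Matrix.mul_assoc]
  have bf : ∀ g, bwd (fwd g) = g := fun g => by
    show P * (W * g * P) * W = g
    rw [show P * (W * g * P) * W = (P * W) * g * (P * W) by simp only [Matrix.mul_assoc], hPW,
      Matrix.one_mul, Matrix.mul_one]
  have fb : ∀ x, fwd (bwd x) = x := fun x => by
    show W * (P * x * W) * P = x
    rw [show W * (P * x * W) * P = (W * P) * x * (W * P) by simp only [Matrix.mul_assoc], hWP,
      Matrix.one_mul, Matrix.mul_one]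
  let ME : Matrix (Fin 9) (Fin 9) F ≃* Matrix I9 I9 F :=
    { toFun := fwd, invFun := bwd, left_inv := bf, right_inv := fb, map_mul' := fmul }
  refine ⟨Units.mapEquiv ME, P, W, hPW, hWP, fun g => rfl, fun g => ?_, ?_⟩
  · show Matrix.det (fwd g) = _
    have e : fwd (g : Matrix (Fin 9) (Fin 9) F) =
        (V' * g * P').submatrix e9.symm e9.symm := by
      show W * (g : Matrix (Fin 9) (Fin 9) F) * P = _
      rw [hW, hPe]
      ext i k
      simp [Matrix.mul_apply]
    rw [e, Matrix.det_submatrix_equiv_self, Matrix.det_mul, Matrix.det_mul, mul_comm,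
      ← mul_assoc, ← Matrix.det_mul, mul_eq_one_comm.1 hV', Matrix.det_one, one_mul]
  -- the images of the generators
  have hmove : ∀ (A : Matrix (Fin 9) (Fin 9) F) (X : Matrix I9 I9 F),
      A * P = P * X → fwd A = X := fun A X h => by
    show W * A * P = X
    rw [Matrix.mul_assoc, h, ← Matrix.mul_assoc, hWP, Matrix.one_mul]
  have hcolX : ∀ (A : Matrix (Fin 9) (Fin 9) F) (k : Fin 9) (p : I9),
      (A * P) k p = (A *ᵥ cl p) k := fun A k p => by
    simp [Matrix.mul_apply, Matrix.mulVec, dotProduct, P]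
  have gA1 : fwd A₁ = P9 ω ((1, 0), 0) := hmove _ _ (by
    ext k ⟨i, j⟩
    rw [hcolX, e1, Matrix.mul_apply, Finset.sum_eq_single (i, j)]
    · simp [P, P9, P3_apply, mul_comm]
    · rintro ⟨x, y⟩ _ hb
      simp only [P9, Matrix.kroneckerMap_apply, P3_apply, P3_zero, Matrix.one_apply]
      by_cases hx : x = i
      · subst hx; simp [show y ≠ j from fun h => hb (by rw [h])]
      · simp [hx]
    · simp)
  have gA2 : fwd A₂ = P9 ω (0, (1, 0)) := hmove _ _ (by
    ext k ⟨i, j⟩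
    rw [hcolX, e2, Matrix.mul_apply, Finset.sum_eq_single (i, j)]
    · simp [P, P9, P3_apply, mul_comm]
    · rintro ⟨x, y⟩ _ hb
      simp only [P9, Matrix.kroneckerMap_apply, P3_apply, P3_zero, Matrix.one_apply]
      by_cases hx : x = i
      · subst hx; simp [show y ≠ j from fun h => hb (by rw [h])]
      · simp [hx]
    · simp)
  have gB1 : fwd B₁ = P9 ω ((0, 1), 0) := hmove _ _ (by
    ext k ⟨i, j⟩
    rw [hcolX, eb1, Matrix.mul_apply, Finset.sum_eq_single (i + 1, j)]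
    · simp [P, P9, P3_apply]
    · rintro ⟨x, y⟩ _ hb
      simp only [P9, Matrix.kroneckerMap_apply, P3_apply, P3_zero, Matrix.one_apply]
      by_cases hx : x = i + 1
      · subst hx; simp [show y ≠ j from fun h => hb (by rw [h])]
      · simp [hx]
    · simp)
  have gB2 : fwd B₂ = P9 ω (0, (0, 1)) := hmove _ _ (by
    ext k ⟨i, j⟩
    rw [hcolX, eb2, Matrix.mul_apply, Finset.sum_eq_single (i, j + 1)]
    · simp [P, P9, P3_apply]
    · rintro ⟨x, y⟩ _ hb
      simp only [P9, Matrix.kroneckerMap_apply, P3_apply, P3_zero, Matrix.one_apply]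
      by_cases hx : x = i
      · subst hx; simp [show y ≠ j + 1 from fun h => hb (by rw [h])]
      · simp [hx]
    · simp)
  have hsmul : ∀ (c : F) g, fwd (c • g) = c • fwd g := fun c g => by
    show W * (c • g) * P = c • (W * g * P)
    rw [Matrix.mul_smul, Matrix.smul_mul]
  have hone : fwd 1 = 1 := by
    show W * 1 * P = 1
    rw [Matrix.mul_one, hWP]
  have hpow : ∀ g n, fwd (g ^ n) = fwd g ^ n := fun g n => by
    induction n with
    | zero => rw [pow_zero, pow_zero, hone]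
    | succ n ih => rw [pow_succ, fmul, ih, pow_succ]
  -- powers of weights
  have hPpow : ∀ v : W9, ∀ n : ℕ, ∃ k : F, k ≠ 0 ∧ P9 ω v ^ n = k • P9 ω (n • v) := by
    intro v n
    induction n with
    | zero => exact ⟨1, one_ne_zero, by simp [P9_zero]⟩
    | succ n ih =>
      obtain ⟨k, hk, e⟩ := ih
      rw [pow_succ, e, Matrix.smul_mul, P9_mul hω, smul_smul, succ_nsmul]
      exact ⟨_, mul_ne_zero hk (hω.wp_ne_zero _), rfl⟩
  have hword : ∀ v : W9, ∃ g ∈ R, ∃ k : F, k ≠ 0 ∧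
      fwd (g : Matrix (Fin 9) (Fin 9) F) = k • P9 ω v := by
    intro v
    refine ⟨Q.a₁ ^ v.1.1.val * Q.b₁ ^ v.1.2.val * (Q.a₂ ^ v.2.1.val * Q.b₂ ^ v.2.2.val),
      mul_mem (mul_mem (pow_mem Q.m₁ _) (pow_mem Q.n₁ _))
        (mul_mem (pow_mem Q.m₂ _) (pow_mem Q.n₂ _)), ?_⟩
    obtain ⟨k₁, h₁, f₁⟩ := hPpow ((1, 0), 0) v.1.1.val
    obtain ⟨k₂, h₂, f₂⟩ := hPpow ((0, 1), 0) v.1.2.val
    obtain ⟨k₃, h₃, f₃⟩ := hPpow (0, (1, 0)) v.2.1.val
    obtain ⟨k₄, h₄, f₄⟩ := hPpow (0, (0, 1)) v.2.2.val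
    simp only [Units.val_mul, Units.val_pow_eq_pow_val, fmul, hpow, ← hA₁, ← hA₂, ← hB₁, ← hB₂,
      gA1, gA2, gB1, gB2, f₁, f₂, f₃, f₄, Matrix.smul_mul, Matrix.mul_smul, smul_smul, P9_mul hω]
    have hv : v.1.1.val • (((1 : K3), (0 : K3)), (0 : K3 × K3)) +
        v.1.2.val • (((0 : K3), (1 : K3)), (0 : K3 × K3)) +
        (v.2.1.val • ((0 : K3 × K3), ((1 : K3), (0 : K3))) +
          v.2.2.val • ((0 : K3 × K3), ((0 : K3), (1 : K3)))) = v := by
      refine Prod.ext ?_ ?_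
      · simpa using val_smul_basis v.1
      · simpa using val_smul_basis v.2
    rw [hv]
    refine ⟨_, ?_, rfl⟩
    repeat' apply mul_ne_zero
    all_goals first | assumption | exact hω.wp_ne_zero _
  have hall : ∀ g ∈ R, ∃ (t : K3) (v : W9),
      fwd (g : Matrix (Fin 9) (Fin 9) F) = wp ω t • P9 ω v := by
    intro g hg
    have hfu : IsUnit (fwd (g : Matrix (Fin 9) (Fin 9) F)) := (g.isUnit).map ME
    obtain ⟨s, e, hs, he⟩ := exists_P9_of_id hω hfu (fun v => by
      obtain ⟨h, hh, k, hk, ek⟩ := hword v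
      obtain ⟨t, ht⟩ := hR.comm g hg h hh
      refine ⟨wp ω t, smul_right_injective (Matrix I9 I9 F) hk ?_⟩
      show k • _ = k • _
      rw [← Matrix.mul_smul, ← ek, ← fmul, ht, hsmul, fmul, ek, Matrix.smul_mul, smul_comm])
    have h3 : s ^ 3 = 1 := by
      have h := congrArg fwd (cube hg)
      rw [hpow, he, hone, smul_pow, pow_succ (P9 ω e), pow_two (P9 ω e), P9_cube hω] at h
      exact smul_left_injective F one_ne_zero (h.trans (one_smul F _).symm)
    obtain ⟨t, rfl⟩ := hω.exists_wp h3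
    exact ⟨t, e, he⟩
  intro x
  constructor
  · intro hx
    obtain ⟨t, v, e⟩ := hall _ hx
    exact ⟨t, v, by rw [← e]; exact (fb _).symm⟩
  · rintro ⟨t, v, e⟩
    obtain ⟨g, hg, k, hk, ek⟩ := hword v
    obtain ⟨t', v', e'⟩ := hall g hg
    have hv' : v' = v := P9_line hω (c := (wp ω t')⁻¹ * k) (by
      rw [mul_smul, ← ek, e', smul_smul, inv_mul_cancel₀ (hω.wp_ne_zero _), one_smul])
    subst hv'
    obtain ⟨z, hz, ez⟩ := hR.wp_mem (t - t')
    have : (Units.mapEquiv ME).symm x = z * g := by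
      refine Units.ext ?_
      show bwd (x : Matrix I9 I9 F) = _
      rw [Units.val_mul, ez, Matrix.smul_mul, Matrix.one_mul, e, ← bf (wp ω (t - t') •
        (g : Matrix (Fin 9) (Fin 9) F)), hsmul, e', smul_smul, ← hω.wp_add, sub_add_cancel]
    rw [this]
    exact mul_mem hz hg

/-- The change of coordinates. -/
theorem RData.exists_coord [Finite F] (hR : RData ω R) :
    ∃ φ : GL (Fin 9) F ≃* GL I9 F,
      (∀ g : GL (Fin 9) F, Matrix.det (φ g : Matrix I9 I9 F) =
        Matrix.det (g : Matrix (Fin 9) (Fin 9) F)) ∧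
      ∀ x : GL I9 F, φ.symm x ∈ R ↔ ∃ (t : K3) (v : W9), (x : Matrix I9 I9 F) = wp ω t • P9 ω v := by
  obtain ⟨φ, _, _, _, _, _, h⟩ := hR.exists_coord_inner
  exact ⟨φ, h⟩

end Coord

end Cfsg.Agent.CSixNine
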