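import Mathlib

/-!
Weight operators `X^a Y^b` on `F^3`, their normalisers, and the generation of the latter by the
Fourier matrix and a diagonal quarter of weight lines.
-/

set_option autoImplicit false

namespace Cfsg.Agent.CSixNine

open Matrix
open scoped Matrix

abbrev K3 : Type := ZMod 3

variable {F : Type*} [Field F]

/-- Powers of `ω` with exponent in `ZMod 3`. -/
def wp (ω : F) (c : K3) : F := ω ^ c.val

variable {ω : F}

/-- `ω` is a primitive cube root of unity and `3` is invertible. -/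
structure Omega (ω : F) : Prop where
  eqn : ω ^ 2 + ω + 1 = 0
  three : (3 : F) ≠ 0

namespace Omega

lemma cube (hω : Omega ω) : ω ^ 3 = 1 := by linear_combination (ω - 1) * hω.eqn

lemma ne_zero (hω : Omega ω) : ω ≠ 0 := fun h => by simpa [h] using hω.cube

lemma ne_one (hω : Omega ω) : ω ≠ 1 := fun h => hω.three (by
  have := hω.eqn; rw [h] at this; linear_combination this)

lemma pow_mod (hω : Omega ω) (n : ℕ) : ω ^ n = ω ^ (n % 3) := by
  conv_lhs => rw [← Nat.div_add_mod n 3, pow_add, pow_mul, hω.cube, one_pow, one_mul]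

lemma wp_add (hω : Omega ω) (a b : K3) : wp ω (a + b) = wp ω a * wp ω b := by
  rw [wp, wp, wp, ← pow_add, hω.pow_mod (a.val + b.val), ZMod.val_add]

lemma wp_ne_zero (hω : Omega ω) (a : K3) : wp ω a ≠ 0 := pow_ne_zero _ hω.ne_zero

lemma wp_natCast (hω : Omega ω) (n : ℕ) : wp ω (n : K3) = ω ^ n := by
  rw [wp, ZMod.val_natCast, ← hω.pow_mod]

lemma wp_inj (hω : Omega ω) {a b : K3} (h : wp ω a = wp ω b) : a = b := by
  have h1 : wp ω (a - b) = 1 := by
    have := hω.wp_add (a - b) b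
    rw [sub_add_cancel, h] at this
    exact mul_right_cancel₀ (hω.wp_ne_zero b) (by rw [← this, one_mul])
  have hv : (a - b).val = 0 ∨ (a - b).val = 1 ∨ (a - b).val = 2 := by
    have := ZMod.val_lt (a - b); omega
  have h0 : (a - b).val = 0 := by
    rcases hv with hv | hv | hv
    · exact hv
    · rw [wp, hv, pow_one] at h1; exact absurd h1 hω.ne_one
    · rw [wp, hv] at h1
      exact absurd (show ω = 1 by linear_combination hω.cube - ω * h1) hω.ne_one
  exact sub_eq_zero.1 ((ZMod.val_eq_zero _).1 h0)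

lemma exists_wp (hω : Omega ω) {c : F} (h : c ^ 3 = 1) : ∃ a : K3, c = wp ω a := by
  have hc : (c - 1) * ((c - ω) * (c - ω ^ 2)) = 0 := by
    linear_combination h - (c ^ 2 - c * ω) * hω.eqn - hω.cube
  rcases mul_eq_zero.1 hc with h1 | h1
  · exact ⟨0, by rw [wp, ZMod.val_zero, pow_zero]; exact sub_eq_zero.1 h1⟩
  rcases mul_eq_zero.1 h1 with h1 | h1
  · exact ⟨((1 : ℕ) : K3), by rw [hω.wp_natCast, pow_one]; exact sub_eq_zero.1 h1⟩
  · exact ⟨((2 : ℕ) : K3), by rw [hω.wp_natCast]; exact sub_eq_zero.1 h1⟩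

end Omega

@[simp] lemma wp_zero : wp ω 0 = 1 := by simp [wp]

lemma wp_one : wp ω 1 = ω := by
  show ω ^ (1 : K3).val = ω
  rw [ZMod.val_one, pow_one]

/-- The weight operator `X^a Y^b`. -/
def P3 (ω : F) (v : K3 × K3) : Matrix K3 K3 F :=
  Matrix.of fun i k => if i = k + v.2 then wp ω (v.1 * i) else 0

lemma P3_apply (v : K3 × K3) (i k : K3) :
    P3 ω v i k = if i = k + v.2 then wp ω (v.1 * i) else 0 := rfl

@[simp] lemma P3_zero : P3 ω (0 : K3 × K3) = 1 := by
  ext i k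
  simp [P3_apply, Matrix.one_apply]

lemma mul_P3_apply (A : Matrix K3 K3 F) (v : K3 × K3) (i k : K3) :
    (A * P3 ω v) i k = A i (k + v.2) * wp ω (v.1 * (k + v.2)) := by
  rw [Matrix.mul_apply, Finset.sum_eq_single (k + v.2)]
  · simp [P3_apply]
  · intro b _ hb; simp [P3_apply, hb]
  · simp

lemma P3_mul_apply (A : Matrix K3 K3 F) (v : K3 × K3) (i k : K3) :
    (P3 ω v * A) i k = wp ω (v.1 * i) * A (i - v.2) k := by
  rw [Matrix.mul_apply, Finset.sum_eq_single (i - v.2)]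
  · simp [P3_apply]
  · intro b _ hb
    rw [P3_apply, if_neg, zero_mul]
    intro h; exact hb (by rw [h]; ring)
  · simp

lemma P3_mul (hω : Omega ω) (v w : K3 × K3) :
    P3 ω v * P3 ω w = wp ω (-(w.1 * v.2)) • P3 ω (v + w) := by
  ext i k
  rw [P3_mul_apply, Matrix.smul_apply, P3_apply, P3_apply, smul_eq_mul, Prod.snd_add, Prod.fst_add]
  by_cases h : i = k + (v.2 + w.2)
  · rw [if_pos (show i - v.2 = k + w.2 by rw [h]; ring), if_pos h, ← hω.wp_add, ← hω.wp_add]
    congr 1; ring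
  · rw [if_neg (fun hh => h (by linear_combination hh)), if_neg h, mul_zero, mul_zero]

/-- The symplectic form on weights. -/
def sym (v w : K3 × K3) : K3 := v.1 * w.2 - v.2 * w.1

lemma P3_comm (hω : Omega ω) (v w : K3 × K3) :
    P3 ω v * P3 ω w = wp ω (sym v w) • (P3 ω w * P3 ω v) := by
  rw [P3_mul hω, P3_mul hω, smul_smul, ← hω.wp_add, add_comm w v]
  congr 2
  unfold sym; ring

/-- The diagonal generator. -/
def tauM (ω : F) : Matrix K3 K3 F := Matrix.diagonal fun i => if i = 0 then 1 else ω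

/-- The Fourier matrix. -/
def fourM (ω : F) : Matrix K3 K3 F := Matrix.of fun i k => wp ω (i * k)

/-- Induced map of `tauM`. -/
def Tt (v : K3 × K3) : K3 × K3 := (v.1 + 2 * v.2, v.2)

/-- Induced map of `fourM`. -/
def Tf (v : K3 × K3) : K3 × K3 := (v.2, -v.1)

lemma exists_exp : ∀ i : K3, ∀ b : K3, ∃ t : K3,
    (∀ k : K3, (if k + b = 0 then (0 : K3) else 1) + i * (k + b) =
      t + (i + 2 * b) * (k + b) + (if k = 0 then 0 else 1)) := by
  decide +kernel

lemma tau_eq (ω : F) : tauM ω = Matrix.diagonal fun i => wp ω (if i = 0 then 0 else 1) := by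
  rw [tauM]; congr 1; funext i
  by_cases h : i = 0 <;> simp [h, wp_one]

lemma tau_P3 (hω : Omega ω) (v : K3 × K3) :
    ∃ c : F, c ≠ 0 ∧ tauM ω * P3 ω v = c • (P3 ω (Tt v) * tauM ω) := by
  obtain ⟨t, ht⟩ := exists_exp v.1 v.2
  refine ⟨wp ω t, hω.wp_ne_zero t, ?_⟩
  rw [tau_eq]
  ext i k
  rw [Matrix.diagonal_mul, Matrix.smul_apply, Matrix.mul_diagonal, P3_apply, P3_apply, smul_eq_mul]
  show _ = wp ω t * ((if i = k + v.2 then wp ω ((v.1 + 2 * v.2) * i) else 0) * _)
  by_cases h : i = k + v.2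
  · subst h
    rw [if_pos rfl, if_pos rfl, ← hω.wp_add, ← hω.wp_add, ← hω.wp_add, ← add_assoc]
    exact congrArg _ (ht k)
  · rw [if_neg h, if_neg h]; ring

lemma four_P3 (hω : Omega ω) (v : K3 × K3) :
    ∃ c : F, c ≠ 0 ∧ fourM ω * P3 ω v = c • (P3 ω (Tf v) * fourM ω) := by
  refine ⟨wp ω (v.1 * v.2), hω.wp_ne_zero _, ?_⟩
  ext i k
  rw [mul_P3_apply, Matrix.smul_apply, P3_mul_apply, smul_eq_mul]
  simp only [fourM, Matrix.of_apply, Tf, ← hω.wp_add]
  congr 1; ring

lemma four_sq_apply (hω : Omega ω) (i k : K3) :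
    (fourM ω * fourM ω) i k = if i + k = 0 then 3 else 0 := by
  rw [Matrix.mul_apply]
  simp only [fourM, Matrix.of_apply, ← hω.wp_add]
  have hs : ∀ j : K3, i * j + j * k = j * (i + k) := fun j => by ring
  simp only [hs]
  generalize i + k = d
  have e : ∀ f : K3 → F, ∑ x, f x = f 0 + f 1 + f 2 := fun f => by
    rw [show (Finset.univ : Finset K3) = {0, 1, 2} from by decide]
    rw [Finset.sum_insert (by decide), Finset.sum_insert (by decide), Finset.sum_singleton,
      add_assoc]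
  rw [e]
  have h2 : wp ω 2 = ω ^ 2 := rfl
  have h4 : (2 : K3) * 2 = 1 := by decide
  obtain rfl | rfl | rfl : d = 0 ∨ d = 1 ∨ d = 2 := by revert d; decide
  · simp; norm_num
  · simp [wp_one, h2, show (1 : K3) ≠ 0 from by decide]; linear_combination hω.eqn
  · simp [wp_one, h2, h4, show (2 : K3) ≠ 0 from by decide]; linear_combination hω.eqn

/-- `g` permutes the weight lines. -/
def Nrm3 (ω : F) (g : Matrix K3 K3 F) : Prop :=
  ∀ v, ∃ w, ∃ c : F, c ≠ 0 ∧ g * P3 ω v = c • (P3 ω w * g)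

lemma isUnit_P3 (hω : Omega ω) (v : K3 × K3) : IsUnit (P3 ω v) := by
  refine IsUnit.of_mul_eq_one ((wp ω (-((-v).1 * v.2)))⁻¹ • P3 ω (-v)) ?_
  rw [Matrix.mul_smul, P3_mul hω, smul_smul, inv_mul_cancel₀ (hω.wp_ne_zero _), add_neg_cancel,
    P3_zero, one_smul]

lemma P3_ne_smul_one (hω : Omega ω) {v : K3 × K3} {c : F} (h : P3 ω v = c • 1) : v = 0 := by
  have h2 : v.2 = 0 := by
    by_contra hb
    have := congrFun (congrFun h (0 + v.2)) 0
    rw [P3_apply, if_pos rfl, Matrix.smul_apply, Matrix.one_apply_ne (by simpa using hb),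
      smul_zero] at this
    exact hω.wp_ne_zero _ this
  have h00 := congrFun (congrFun h 0) 0
  have h11 := congrFun (congrFun h 1) 1
  rw [P3_apply, h2, add_zero, if_pos rfl, Matrix.smul_apply, Matrix.one_apply_eq,
    smul_eq_mul, mul_one, mul_zero] at h00
  rw [P3_apply, h2, add_zero, if_pos rfl, Matrix.smul_apply, Matrix.one_apply_eq,
    smul_eq_mul, mul_one, mul_one] at h11
  exact Prod.ext (hω.wp_inj (h11.trans h00.symm)) h2

/-- An element centralising `X` and `Y` is scalar. -/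
lemma scalar_of_commute (hω : Omega ω) {g : Matrix K3 K3 F}
    (hX : g * P3 ω (1, 0) = P3 ω (1, 0) * g) (hY : g * P3 ω (0, 1) = P3 ω (0, 1) * g) :
    g = g 0 0 • 1 := by
  have hd : ∀ i k, i ≠ k → g i k = 0 := by
    intro i k hik
    have := congrFun (congrFun hX i) k
    rw [mul_P3_apply, P3_mul_apply] at this
    simp only [one_mul, add_zero, sub_zero] at this
    by_contra hne
    exact hik (hω.wp_inj (mul_left_cancel₀ hne (by linear_combination this))).symm
  have hs : ∀ k, g (k + 1) (k + 1) = g k k := by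
    intro k
    have := congrFun (congrFun hY (k + 1)) k
    rw [mul_P3_apply, P3_mul_apply] at this
    simpa using this
  have hc : ∀ k, g k k = g 0 0 := by
    have h1 := hs 0
    rw [zero_add] at h1
    have h2 := hs 1
    rw [show (1 : K3) + 1 = 2 from rfl] at h2
    intro k
    obtain rfl | rfl | rfl : k = 0 ∨ k = 1 ∨ k = 2 := by revert k; decide
    · rfl
    · exact h1
    · exact h2.trans h1
  ext i k
  by_cases h : i = k
  · subst h; simp [hc i]
  · simp [hd i k h, h]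

/-- `A` induces the map `T` on weights. -/
def Induces (ω : F) (A : Matrix K3 K3 F) (T : K3 × K3 → K3 × K3) : Prop :=
  ∀ v, ∃ c : F, c ≠ 0 ∧ A * P3 ω v = c • (P3 ω (T v) * A)

lemma Induces.mul {A B : Matrix K3 K3 F} {S T : K3 × K3 → K3 × K3}
    (hA : Induces ω A S) (hB : Induces ω B T) : Induces ω (A * B) (S ∘ T) := by
  intro v
  obtain ⟨c, hc, e⟩ := hB v
  obtain ⟨d, hd, e'⟩ := hA (T v)
  refine ⟨c * d, mul_ne_zero hc hd, ?_⟩
  rw [Matrix.mul_assoc, e, Matrix.mul_smul, ← Matrix.mul_assoc, e', Matrix.smul_mul, smul_smul,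
    Matrix.mul_assoc]
  rfl

lemma Induces.one : Induces ω (1 : Matrix K3 K3 F) id :=
  fun v => ⟨1, one_ne_zero, by simp⟩

lemma Induces.pow {A : Matrix K3 K3 F} {T : K3 × K3 → K3 × K3} (hA : Induces ω A T) (n : ℕ) :
    Induces ω (A ^ n) (T^[n]) := by
  induction n with
  | zero => simpa using Induces.one
  | succ n ih =>
    rw [pow_succ, Function.iterate_succ]
    exact ih.mul hA

lemma word_exists : ∀ w₁ w₂ : K3 × K3, sym w₁ w₂ = 1 → ∃ a : Fin 3, ∃ b : Fin 4, ∃ c : Fin 3,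
    ∃ d : Fin 4, (Tt^[a.val] ∘ Tf^[b.val] ∘ Tt^[c.val] ∘ Tf^[d.val]) (1, 0) = w₁ ∧
      (Tt^[a.val] ∘ Tf^[b.val] ∘ Tt^[c.val] ∘ Tf^[d.val]) (0, 1) = w₂ := by
  decide +kernel

lemma pow_three_smul (hω : Omega ω) (v : K3 × K3) : P3 ω v * P3 ω v * P3 ω v = 1 := by
  rw [P3_mul hω, Matrix.smul_mul, P3_mul hω, smul_smul, ← hω.wp_add]
  have : v + v + v = 0 := by
    have h3 : ∀ v : K3 × K3, v + v + v = 0 := by decide
    exact h3 v
  rw [this, P3_zero]
  have h0 : ∀ v : K3 × K3, -(v.1 * v.2) + -(v.1 * (v + v).2) = 0 := by decide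
  rw [h0, wp_zero, one_smul]

/-- Every weight normalising invertible matrix is a scalar times a word in the generators. -/
theorem nrm3_word (hω : Omega ω) {g : Matrix K3 K3 F} (hg : IsUnit g) (h : Nrm3 ω g) :
    ∃ (s : F) (a b c d : ℕ) (e : K3 × K3),
      g = s • (tauM ω ^ a * fourM ω ^ b * tauM ω ^ c * fourM ω ^ d * P3 ω e) := by
  obtain ⟨w₁, c₁, hc₁, e₁⟩ := h (1, 0)
  obtain ⟨w₂, c₂, hc₂, e₂⟩ := h (0, 1)
  have hsym : sym w₁ w₂ = 1 := by
    have L : g * (P3 ω (1, 0) * P3 ω (0, 1)) = (c₁ * c₂) • (P3 ω w₁ * P3 ω w₂ * g) := by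
      rw [← Matrix.mul_assoc, e₁, Matrix.smul_mul, Matrix.mul_assoc, e₂, Matrix.mul_smul, smul_smul,
        Matrix.mul_assoc]
    have R : g * (P3 ω (0, 1) * P3 ω (1, 0)) = (c₁ * c₂) • (P3 ω w₂ * P3 ω w₁ * g) := by
      rw [← Matrix.mul_assoc, e₂, Matrix.smul_mul, Matrix.mul_assoc, e₁, Matrix.mul_smul, smul_smul,
        Matrix.mul_assoc, mul_comm c₂]
    rw [P3_comm hω (1, 0), Matrix.mul_smul, R, P3_comm hω w₁, Matrix.smul_mul, smul_smul,
      smul_smul] at L
    have hu : IsUnit (P3 ω w₂ * P3 ω w₁ * g) := ((isUnit_P3 hω _).mul (isUnit_P3 hω _)).mul hg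
    have := smul_left_injective F hu.ne_zero L
    have h1 : sym ((1, 0) : K3 × K3) (0, 1) = 1 := by decide
    rw [h1, mul_comm (c₁ * c₂)] at this
    exact (hω.wp_inj (mul_right_cancel₀ (mul_ne_zero hc₁ hc₂) this)).symm
  obtain ⟨a, b, c, d, hT1, hT2⟩ := word_exists w₁ w₂ hsym
  set A := tauM ω ^ a.val * fourM ω ^ b.val * tauM ω ^ c.val * fourM ω ^ d.val with hA
  have hAI : Induces ω A (Tt^[a.val] ∘ Tf^[b.val] ∘ Tt^[c.val] ∘ Tf^[d.val]) := by
    have hτ : Induces ω (tauM ω) Tt := tau_P3 hω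
    have hf : Induces ω (fourM ω) Tf := four_P3 hω
    exact (((hτ.pow _).mul (hf.pow _)).mul (hτ.pow _)).mul (hf.pow _)
  have hAu : IsUnit A := by
    have hτ : IsUnit (tauM ω) := by
      rw [tau_eq, Matrix.isUnit_diagonal, Pi.isUnit_iff]
      exact fun i => (hω.wp_ne_zero _).isUnit
    have hf : IsUnit (fourM ω) := by
      refine IsUnit.of_mul_eq_one ((3 : F)⁻¹ • Matrix.of fun i k => wp ω (-(i * k))) ?_
      rw [Matrix.mul_smul]
      ext i k
      have : (fourM ω * Matrix.of fun i k : K3 => wp ω (-(i * k))) i k =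
          (fourM ω * fourM ω) i (-k) := by
        simp only [Matrix.mul_apply, fourM, Matrix.of_apply, mul_neg]
      rw [Matrix.smul_apply, this, four_sq_apply hω, smul_eq_mul, Matrix.one_apply]
      simp only [← sub_eq_add_neg, sub_eq_zero]
      split_ifs
      · exact inv_mul_cancel₀ hω.three
      · simp
    exact ((((hτ.pow _).mul (hf.pow _)).mul (hτ.pow _))).mul (hf.pow _)
  obtain ⟨A', hA'⟩ := hAu.exists_left_inv
  have key : ∀ v w : K3 × K3, ∀ k : F, k ≠ 0 → g * P3 ω v = k • (P3 ω w * g) →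
      (Tt^[a.val] ∘ Tf^[b.val] ∘ Tt^[c.val] ∘ Tf^[d.val]) v = w →
      ∃ t : K3, A' * g * P3 ω v = wp ω t • (P3 ω v * (A' * g)) := by
    intro v w k hk ev hTv
    obtain ⟨l, hl, el⟩ := hAI v
    rw [hTv] at el
    have hw : A' * P3 ω w = l⁻¹ • (P3 ω v * A') := by
      have hAA : A * A' = 1 := mul_eq_one_comm.1 hA'
      calc A' * P3 ω w = A' * (P3 ω w * A) * A' := by
            rw [Matrix.mul_assoc, Matrix.mul_assoc, hAA, Matrix.mul_one]
        _ = A' * (l⁻¹ • (A * P3 ω v)) * A' := by rw [el, smul_smul, inv_mul_cancel₀ hl, one_smul]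
        _ = l⁻¹ • (P3 ω v * A') := by
            rw [Matrix.mul_smul, Matrix.smul_mul, ← Matrix.mul_assoc A' A, hA', Matrix.one_mul]
    have e : A' * g * P3 ω v = (k * l⁻¹) • (P3 ω v * (A' * g)) := by
      rw [Matrix.mul_assoc, ev, Matrix.mul_smul, ← Matrix.mul_assoc, hw, Matrix.smul_mul, smul_smul,
        Matrix.mul_assoc]
    have hu : IsUnit (A' * g) := (IsUnit.of_mul_eq_one A hA').mul hg
    have h3 : (k * l⁻¹) ^ 3 = 1 := by
      set B := A' * g
      set Q := P3 ω v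
      set m := k * l⁻¹
      have h2 : B * (Q * Q * Q) = (m ^ 3) • (Q * Q * Q * B) := by
        calc B * (Q * Q * Q) = (B * Q) * Q * Q := by simp only [Matrix.mul_assoc]
          _ = (m • (Q * B)) * Q * Q := by rw [e]
          _ = m • (Q * (B * Q) * Q) := by simp only [Matrix.smul_mul, Matrix.mul_assoc]
          _ = m • (Q * (m • (Q * B)) * Q) := by rw [e]
          _ = (m * m) • (Q * Q * (B * Q)) := by
              simp only [Matrix.mul_smul, Matrix.smul_mul, smul_smul, Matrix.mul_assoc]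
          _ = (m ^ 3) • (Q * Q * Q * B) := by
              rw [e]; simp only [Matrix.mul_smul, smul_smul, Matrix.mul_assoc]; congr 1; ring
      rw [pow_three_smul hω, Matrix.mul_one, Matrix.one_mul] at h2
      exact (smul_left_injective F hu.ne_zero ((one_smul F B).trans h2)).symm
    obtain ⟨t, ht⟩ := hω.exists_wp h3
    exact ⟨t, by rw [e, ht]⟩
  obtain ⟨t₁, f₁⟩ := key _ _ _ hc₁ e₁ hT1
  obtain ⟨t₂, f₂⟩ := key _ _ _ hc₂ e₂ hT2
  set B := A' * g with hB
  set e : K3 × K3 := (t₂, -t₁) with he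
  have h1 : P3 ω (-e) * B * P3 ω (1, 0) = P3 ω (1, 0) * (P3 ω (-e) * B) := by
    rw [Matrix.mul_assoc, f₁, Matrix.mul_smul, ← Matrix.mul_assoc, P3_comm hω (-e),
      Matrix.smul_mul, smul_smul, ← hω.wp_add, Matrix.mul_assoc]
    have : t₁ + sym (-e) ((1, 0) : K3 × K3) = 0 := by simp [sym, he]
    rw [this, wp_zero, one_smul]
  have h2 : P3 ω (-e) * B * P3 ω (0, 1) = P3 ω (0, 1) * (P3 ω (-e) * B) := by
    rw [Matrix.mul_assoc, f₂, Matrix.mul_smul, ← Matrix.mul_assoc, P3_comm hω (-e),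
      Matrix.smul_mul, smul_smul, ← hω.wp_add, Matrix.mul_assoc]
    have : t₂ + sym (-e) ((0, 1) : K3 × K3) = 0 := by simp [sym, he]
    rw [this, wp_zero, one_smul]
  have hsc := scalar_of_commute hω h1 h2
  set s := (P3 ω (-e) * B) 0 0
  have hBe : B = (wp ω (-((-e).1 * e.2)))⁻¹ • (s • P3 ω e) := by
    have hh := congrArg (fun M => P3 ω e * M) hsc
    rw [← Matrix.mul_assoc, P3_mul hω, add_neg_cancel, P3_zero, Matrix.smul_mul, Matrix.one_mul,
      Matrix.mul_smul, Matrix.mul_one] at hh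
    rw [← hh, smul_smul, inv_mul_cancel₀ (hω.wp_ne_zero _), one_smul]
  refine ⟨(wp ω (-((-e).1 * e.2)))⁻¹ * s, a.val, b.val, c.val, d.val, e, ?_⟩
  calc g = A * B := by rw [hB, ← Matrix.mul_assoc, mul_eq_one_comm.1 hA', Matrix.one_mul]
    _ = _ := by rw [hBe, smul_smul, Matrix.mul_smul]

end Cfsg.Agent.CSixNine
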